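import Cfsg.Agent.H1.HallHigman

/-!
# Automorphisms of a solvable group centralising the Fitting subgroup (S0552)
-/

set_option autoImplicit false

namespace Cfsg.Agent.H1

/-- A nonidentity automorphism of a finite solvable group fixing the Fitting subgroup
elementwise has order not coprime to `|G|` (= S0552). -/
theorem aut_fix_fitting {G : Type*} [Group G] [Finite G] [Group.IsSolvable G] (σ : G ≃* G)
    (hσ : ∀ x ∈ Cfsg.fittingSubgroup G, σ x = x) (hne : σ ≠ MulEquiv.refl G) :
    ¬ (orderOf σ).Coprime (Nat.card G) := by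
  intro hcop
  apply hne
  ext g
  change σ g = g
  have hz : g⁻¹ * σ g ∈ Cfsg.fittingSubgroup G := by
    apply centralizer_fitting_le
    rw [Subgroup.mem_centralizer_iff]
    intro f hf
    have h1 : g * f * g⁻¹ ∈ Cfsg.fittingSubgroup G :=
      (fitting_normal (G := G)).conj_mem f hf g
    have h2 := hσ _ h1
    rw [map_mul, map_mul, map_inv, hσ f hf] at h2
    -- h2 : σ g * f * (σ g)⁻¹ = g * f * g⁻¹
    calc f * (g⁻¹ * σ g) = g⁻¹ * (g * f * g⁻¹) * σ g := by group
      _ = g⁻¹ * (σ g * f * (σ g)⁻¹) * σ g := by rw [h2]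
      _ = g⁻¹ * σ g * f := by group
  have hpow : ∀ n : ℕ, (σ ^ n) g = g * (g⁻¹ * σ g) ^ n := by
    intro n
    induction n with
    | zero => simp
    | succ n ih =>
      rw [pow_succ', MulAut.mul_apply, ih, map_mul, map_pow, hσ _ hz, pow_succ', ← mul_assoc,
        mul_inv_cancel_left]
  have h1 := hpow (orderOf σ)
  rw [pow_orderOf_eq_one, MulAut.one_apply] at h1
  have h2 : (g⁻¹ * σ g) ^ orderOf σ = 1 := by
    have := mul_left_cancel (a := g) (b := 1) (c := (g⁻¹ * σ g) ^ orderOf σ) (by rw [mul_one]; exact h1)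
    exact this.symm
  have h3 : orderOf (g⁻¹ * σ g) ∣ orderOf σ := orderOf_dvd_of_pow_eq_one h2
  have h4 : orderOf (g⁻¹ * σ g) ∣ Nat.card G := orderOf_dvd_natCard _
  have h5 : orderOf (g⁻¹ * σ g) = 1 := Nat.eq_one_of_dvd_coprimes hcop h3 h4
  rw [orderOf_eq_one_iff] at h5
  calc σ g = g * (g⁻¹ * σ g) := by group
    _ = g := by rw [h5, mul_one]

end Cfsg.Agent.H1
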