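import Cfsg.Agent.H1.MinNormal
import Cfsg.Agent.H1.Hall
import Cfsg.Agent.H70.Frob

/-!
# Frobenius' conjecture for solvable groups (S4213)
-/

set_option autoImplicit false

namespace Cfsg.Agent.H1.FrobSolv

universe u

theorem frob_solvable_aux : ∀ (N : ℕ) (G : Type u) [Group G] [Finite G] [Group.IsSolvable G],
    Nat.card G = N → ∀ n : ℕ, n ∣ Nat.card G → Nat.card {x : G // x ^ n = 1} = n →
    ∃ H : Subgroup G, (H : Set G) = {x : G | x ^ n = 1} := by
  intro N
  induction N using Nat.strong_induction_on with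
  | _ N ih =>
  intro G _ _ _ hN n hn hcount
  by_cases hsub : Subsingleton G
  · exact ⟨⊤, by ext x; simp [Subsingleton.elim x 1]⟩
  rw [not_subsingleton_iff_nontrivial] at hsub
  obtain ⟨M, hMn, hMb, hmin⟩ := exists_minimal_normal (G := G)
  obtain ⟨hMcomm, p, hp, hMp⟩ := minimal_normal_elementary_abelian M hMb hmin
  haveI : Fact p.Prime := ⟨hp⟩
  have hn0 : 0 < n := Nat.pos_of_dvd_of_pos hn Nat.card_pos
  have hcardG : Nat.card G = Nat.card (G ⧸ M) * Nat.card M :=
    Subgroup.card_eq_card_quotient_mul_card_subgroup M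
  have hMcard1 : 1 < Nat.card M := (Subgroup.one_lt_card_iff_ne_bot M).mpr hMb
  have hQpos : 0 < Nat.card (G ⧸ M) := Nat.card_pos
  have hQlt : Nat.card (G ⧸ M) < N := by
    rw [← hN, hcardG]; nlinarith
  have hMpow : ∃ a, Nat.card M = p ^ a := by
    apply IsPGroup.iff_card.mp
    intro x
    refine ⟨1, ?_⟩
    rw [pow_one]
    exact Subtype.ext (by simpa using hMp x x.2)
  have hpM : p ∣ Nat.card M := by
    obtain ⟨a, ha⟩ := hMpow
    rw [ha]
    refine dvd_pow_self p ?_
    rintro rfl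
    rw [pow_zero] at ha
    omega
  have hfrobQ : ∀ k, k ∣ Nat.card (G ⧸ M) → 0 < k →
      k ≤ Nat.card {q : G ⧸ M // q ^ k = 1} := by
    intro k hk hk0
    have h1 := Cfsg.Agent.H70.frobenius_dvd (G := G ⧸ M) k hk
    haveI : Nonempty {q : G ⧸ M // q ^ k = 1} := ⟨⟨1, one_pow k⟩⟩
    have h2 : 0 < Nat.card {q : G ⧸ M // q ^ k = 1} := Nat.card_pos
    exact Nat.le_of_dvd h2 h1
  by_cases hpn : p ∣ n
  · -- Case 1: `p ∣ n`
    obtain ⟨d, hd⟩ : ∃ d, d = Nat.gcd n (Nat.card M) := ⟨_, rfl⟩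
    obtain ⟨k, hk⟩ : ∃ k, k = n / d := ⟨_, rfl⟩
    have hdn : d ∣ n := hd ▸ Nat.gcd_dvd_left _ _
    have hdM : d ∣ Nat.card M := hd ▸ Nat.gcd_dvd_right _ _
    have hpd : p ∣ d := hd ▸ Nat.dvd_gcd hpn hpM
    have hkd : k * d = n := hk ▸ Nat.div_mul_cancel hdn
    have hd0 : 0 < d := hd ▸ Nat.gcd_pos_of_pos_left _ hn0
    have hk0 : 0 < k := hk ▸ Nat.div_pos (Nat.le_of_dvd hn0 hdn) hd0
    have hkQ : k ∣ Nat.card (G ⧸ M) := by
      have hcop : Nat.Coprime k (Nat.card M / d) := by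
        rw [hk, hd]; exact Nat.coprime_div_gcd_div_gcd (hd ▸ hd0)
      have h1 : k ∣ (Nat.card M / d) * Nat.card (G ⧸ M) := by
        have h2 : k * d ∣ (Nat.card M / d) * Nat.card (G ⧸ M) * d := by
          have h3 : Nat.card M / d * Nat.card (G ⧸ M) * d = Nat.card (G ⧸ M) * Nat.card M := by
            rw [mul_comm (Nat.card M / d), mul_assoc, Nat.div_mul_cancel hdM]
          rw [hkd, h3, ← hcardG]; exact hn
        exact Nat.dvd_of_mul_dvd_mul_right hd0 h2
      exact hcop.dvd_of_dvd_mul_left h1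
    have hpre : (QuotientGroup.mk ⁻¹' {q : G ⧸ M | q ^ k = 1}) ⊆ {x : G | x ^ n = 1} := by
      intro x hx
      have hx' : (x : G ⧸ M) ^ k = 1 := hx
      have hxk : x ^ k ∈ M := by
        rw [← QuotientGroup.eq_one_iff, QuotientGroup.mk_pow]; exact hx'
      obtain ⟨e, he⟩ := hpd
      show x ^ n = 1
      rw [← hkd, he, ← mul_assoc, pow_mul, pow_mul, hMp _ hxk, one_pow]
    have hcardpre := QuotientGroup.card_preimage_mk M {q : G ⧸ M | q ^ k = 1}
    have hle : Nat.card (QuotientGroup.mk ⁻¹' {q : G ⧸ M | q ^ k = 1}) ≤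
        Nat.card {x : G | x ^ n = 1} := Nat.card_mono (Set.toFinite _) hpre
    have hfk : k ≤ Nat.card {q : G ⧸ M | q ^ k = 1} := hfrobQ k hkQ hk0
    have hcount' : Nat.card {x : G | x ^ n = 1} = n := hcount
    have hdle : d ≤ Nat.card M := Nat.le_of_dvd (by omega) hdM
    have h1 : Nat.card M * Nat.card {q : G ⧸ M | q ^ k = 1} ≤ k * d := by
      rw [hkd, ← hcardpre, ← hcount']; exact hle
    have hLk : Nat.card {q : G ⧸ M | q ^ k = 1} = k := by
      apply le_antisymm _ hfk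
      have h2 : d * Nat.card {q : G ⧸ M | q ^ k = 1} ≤ d * k := by
        calc d * Nat.card {q : G ⧸ M | q ^ k = 1}
            ≤ Nat.card M * Nat.card {q : G ⧸ M | q ^ k = 1} := Nat.mul_le_mul_right _ hdle
          _ ≤ k * d := h1
          _ = d * k := mul_comm _ _
      exact Nat.le_of_mul_le_mul_left h2 hd0
    have hdM' : d = Nat.card M := by
      apply le_antisymm hdle
      rw [hLk] at h1
      rw [mul_comm] at h1
      exact Nat.le_of_mul_le_mul_left h1 hk0
    have hseteq : QuotientGroup.mk ⁻¹' {q : G ⧸ M | q ^ k = 1} = {x : G | x ^ n = 1} := by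
      apply Set.eq_of_subset_of_ncard_le hpre _ (Set.toFinite _)
      rw [← _root_.Nat.card_coe_set_eq, ← _root_.Nat.card_coe_set_eq, hcardpre, hcount', hLk, ← hdM',
        mul_comm, hkd]
    obtain ⟨Hb, hHb⟩ := ih _ hQlt (G ⧸ M) rfl k hkQ hLk
    refine ⟨Hb.comap (QuotientGroup.mk' M), ?_⟩
    rw [← hseteq, ← hHb]; rfl
  · -- Case 2: `p ∤ n`
    have hcop : Nat.Coprime n (Nat.card M) := by
      obtain ⟨a, ha⟩ := hMpow
      rw [ha]
      exact Nat.Coprime.pow_right _ ((Nat.Prime.coprime_iff_not_dvd hp).mpr hpn).symm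
    have hnQ : n ∣ Nat.card (G ⧸ M) := by
      rw [hcardG] at hn; exact hcop.dvd_of_dvd_mul_right hn
    have hsurj : ∀ q : G ⧸ M, q ^ n = 1 → ∃ y : G, y ^ n = 1 ∧ (y : G ⧸ M) = q := by
      intro q hq
      obtain ⟨x, rfl⟩ := QuotientGroup.mk_surjective q
      have hxn : x ^ n ∈ M := by
        rw [← QuotientGroup.eq_one_iff, QuotientGroup.mk_pow]; exact hq
      have hxnp : x ^ (n * p) = 1 := by rw [pow_mul, hMp _ hxn]
      by_cases hn1 : n = 1
      · subst hn1
        refine ⟨1, one_pow _, ?_⟩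
        rw [pow_one] at hq; rw [hq]; rfl
      obtain ⟨u, -, hu⟩ := Nat.exists_mul_mod_eq_one_of_coprime (k := n) (n := p)
        ((Nat.Prime.coprime_iff_not_dvd hp).mpr hpn) (by omega : 1 < n)
      refine ⟨x ^ (p * u), ?_, ?_⟩
      · rw [← pow_mul, mul_comm (p * u) n, ← mul_assoc, pow_mul, hxnp, one_pow]
      · rw [QuotientGroup.mk_pow, pow_eq_pow_mod _ hq, hu, pow_one]
    have hLQle : Nat.card {q : G ⧸ M // q ^ n = 1} ≤ n := by
      refine le_of_le_of_eq ?_ hcount
      refine Nat.card_le_card_of_surjective (fun x : {x : G // x ^ n = 1} =>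
        (⟨(x.1 : G ⧸ M), by rw [← QuotientGroup.mk_pow, x.2]; rfl⟩ :
          {q : G ⧸ M // q ^ n = 1})) ?_
      rintro ⟨q, hq⟩
      obtain ⟨y, hy, rfl⟩ := hsurj q hq
      exact ⟨⟨y, hy⟩, rfl⟩
    have hLQ : Nat.card {q : G ⧸ M // q ^ n = 1} = n := le_antisymm hLQle (hfrobQ n hnQ hn0)
    obtain ⟨Hb, hHb⟩ := ih _ hQlt (G ⧸ M) rfl n hnQ hLQ
    have hHbcard : Nat.card Hb = n := by
      rw [← hLQ]; exact Nat.card_congr (Equiv.setCongr hHb)
    obtain ⟨K, hK⟩ : ∃ K, K = Hb.comap (QuotientGroup.mk' M) := ⟨_, rfl⟩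
    have hLK : ∀ x : G, x ^ n = 1 → x ∈ K := by
      intro x hx
      rw [hK]
      show (QuotientGroup.mk' M x) ∈ Hb
      have : QuotientGroup.mk' M x ∈ (Hb : Set (G ⧸ M)) := by
        rw [hHb]; show (x : G ⧸ M) ^ n = 1; rw [← QuotientGroup.mk_pow, hx]; rfl
      exact this
    by_cases hKtop : K = ⊤
    · have hQn : Nat.card (G ⧸ M) = n := by
        have hHbtop : Hb = ⊤ := by
          rw [eq_top_iff]; intro q _; obtain ⟨x, rfl⟩ := QuotientGroup.mk_surjective q
          have hx : x ∈ K := by rw [hKtop]; trivial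
          rw [hK] at hx
          exact hx
        rw [← hHbcard, hHbtop, Subgroup.card_top]
      have hcop' : (Nat.card M).Coprime M.index := by
        rw [Subgroup.index_eq_card, hQn]; exact hcop.symm
      obtain ⟨H, hH⟩ := Subgroup.exists_right_complement'_of_coprime hcop'
      have hHcard : Nat.card H = n := by
        have h1 := hH.card_mul_card
        rw [hcardG, hQn, mul_comm] at h1
        exact Nat.eq_of_mul_eq_mul_right (by omega) h1
      refine ⟨H, ?_⟩
      have hsub : (H : Set G) ⊆ {x : G | x ^ n = 1} := by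
        intro x hx
        show x ^ n = 1
        have h1 := pow_card_eq_one' (G := H) (x := ⟨x, hx⟩)
        rw [hHcard] at h1
        exact congrArg Subtype.val h1
      apply Set.eq_of_subset_of_ncard_le hsub _ (Set.toFinite _)
      rw [← _root_.Nat.card_coe_set_eq, ← _root_.Nat.card_coe_set_eq]
      show Nat.card {x : G // x ^ n = 1} ≤ Nat.card H
      rw [hcount, hHcard]
    · have hKlt : Nat.card K < N := by
        rw [← hN, ← Subgroup.card_top (G := G)]
        exact card_lt_card_of_lt (lt_top_iff_ne_top.mpr hKtop)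
      have hKcard : Nat.card K = n * Nat.card M := by rw [hK, card_comap_mk', hHbcard]
      have hnK : n ∣ Nat.card K := by rw [hKcard]; exact dvd_mul_right _ _
      have hcountK : Nat.card {x : K // x ^ n = 1} = n := by
        refine Eq.trans ?_ hcount
        refine Nat.card_congr ⟨fun x => ⟨x.1.1, congrArg Subtype.val x.2⟩,
          fun x => ⟨⟨x.1, hLK x.1 x.2⟩, Subtype.ext x.2⟩, ?_, ?_⟩
        · intro x; rfl
        · intro x; rfl
      obtain ⟨H₁, hH₁⟩ := ih _ hKlt K rfl n hnK hcountK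
      refine ⟨H₁.map K.subtype, ?_⟩
      ext x
      constructor
      · rintro ⟨y, hy, rfl⟩
        have h1 : y ∈ (H₁ : Set K) := hy
        rw [hH₁] at h1
        exact congrArg Subtype.val (show y ^ n = 1 from h1)
      · intro hx
        refine ⟨⟨x, hLK x hx⟩, ?_, rfl⟩
        show _ ∈ (H₁ : Set K)
        rw [hH₁]
        exact Subtype.ext hx

/-- Frobenius' conjecture for solvable groups. -/
theorem frob_solvable {G : Type u} [Group G] [Finite G] [Group.IsSolvable G] (n : ℕ)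
    (hn : n ∣ Nat.card G) (hcount : Nat.card {x : G // x ^ n = 1} = n) :
    ∃ H : Subgroup G, H.Normal ∧ (H : Set G) = {x : G | x ^ n = 1} := by
  obtain ⟨H, hH⟩ := frob_solvable_aux _ G rfl n hn hcount
  refine ⟨H, ⟨fun x hx g => ?_⟩, hH⟩
  have hx' : x ∈ (H : Set G) := hx
  rw [hH] at hx'
  have h1 : g * x * g⁻¹ ∈ (H : Set G) := by
    rw [hH]; show (g * x * g⁻¹) ^ n = 1
    rw [conj_pow, show x ^ n = 1 from hx', mul_one, mul_inv_cancel]
  exact h1

end Cfsg.Agent.H1.FrobSolv
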