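import Cfsg.Agent.H1.Hall
import Cfsg.Agent.H1.Index

/-!
# Sylow systems of finite solvable groups (S0020)
-/

set_option autoImplicit false
open Pointwise

namespace Cfsg.Agent.H1

variable {G : Type*} [Group G]

/-- If `A, B ≤ T` have coprime orders with `|T| = |A| |B|` then `A B = T` as sets. -/
theorem coe_mul_eq_of_card [Finite G] (A B T : Subgroup G) (hA : A ≤ T) (hB : B ≤ T)
    (hcard : Nat.card A * Nat.card B = Nat.card T)
    (hcop : (Nat.card A).Coprime (Nat.card B)) : (A : Set G) * (B : Set G) = (T : Set G) := by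
  apply Set.Subset.antisymm
  · rintro _ ⟨a, ha, b, hb, rfl⟩
    exact T.mul_mem (hA ha) (hB hb)
  · intro t ht
    have hc : Subgroup.IsComplement' (A.subgroupOf T) (B.subgroupOf T) :=
      Subgroup.isComplement'_of_coprime
        (by rw [card_subgroupOf_of_le hA, card_subgroupOf_of_le hB, hcard])
        (by rw [card_subgroupOf_of_le hA, card_subgroupOf_of_le hB]; exact hcop)
    obtain ⟨⟨a, b⟩, hab⟩ := hc.2 ⟨t, ht⟩
    refine ⟨a, a.2, b, b.2, ?_⟩
    have := congrArg Subtype.val hab
    simpa using this

/-- The index of an intersection of subgroups of pairwise coprime prime-power indices. -/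
theorem index_biInf_of_primes [Finite G] (C : ℕ → Subgroup G) (e : ℕ → ℕ)
    (hC : ∀ q : ℕ, q.Prime → (C q).index = q ^ e q) (T : Finset ℕ) (hT : ∀ q ∈ T, q.Prime) :
    (⨅ q ∈ T, C q).index = ∏ q ∈ T, q ^ e q := by
  classical
  induction T using Finset.induction_on with
  | empty => simp
  | insert a T ha ih =>
    have hT' : ∀ q ∈ T, q.Prime := fun q hq => hT q (Finset.mem_insert_of_mem hq)
    have hap : a.Prime := hT a (Finset.mem_insert_self a T)
    rw [Finset.iInf_insert, Finset.prod_insert ha, ← ih hT', ← hC a hap]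
    apply index_inf_of_coprime
    rw [hC a hap, ih hT']
    apply Nat.Coprime.prod_right
    intro q hq
    apply Nat.Coprime.pow
    exact (Nat.coprime_primes hap (hT' q hq)).mpr (fun h => ha (h ▸ hq))

theorem prod_primeFactors_erase (N : ℕ) (hN : N ≠ 0) (p : ℕ) :
    p ^ N.factorization p * ∏ q ∈ N.primeFactors.erase p, q ^ N.factorization q = N := by
  have h1 : ∏ q ∈ N.primeFactors, q ^ N.factorization q = N := by
    have := Nat.prod_factorization_pow_eq_self hN
    rwa [Finsupp.prod, Nat.support_factorization] at this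
  by_cases hp : p ∈ N.primeFactors
  · rw [Finset.mul_prod_erase N.primeFactors (fun q => q ^ N.factorization q) hp, h1]
  · rw [Finset.erase_eq_of_notMem hp, h1]
    have : N.factorization p = 0 := by
      rw [← Finsupp.notMem_support_iff, Nat.support_factorization]; exact hp
    rw [this, pow_zero, one_mul]

/-- A finite solvable group has a Sylow system (= S0020). -/
theorem exists_sylow_system [Finite G] [Group.IsSolvable G] :
    ∃ S : (p : Nat.Primes) → Sylow (p : ℕ) G,
      ∀ p q : Nat.Primes, (S p : Set G) * (S q : Set G) = (S q : Set G) * (S p : Set G) := by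
  classical
  have hN : Nat.card G ≠ 0 := Nat.card_pos.ne'
  -- Hall `q`-complements
  have hex : ∀ q : ℕ, ∃ H : Subgroup G, q.Prime →
      H.index = q ^ (Nat.card G).factorization q := by
    intro q
    by_cases hq : q.Prime
    · obtain ⟨H, hH⟩ := hall_exists (G := G) (Nat.card G / q ^ (Nat.card G).factorization q)
        (q ^ (Nat.card G).factorization q)
        (Nat.div_mul_cancel (Nat.ordProj_dvd (Nat.card G) q)).symm
        (Nat.Coprime.pow_right _ (Nat.coprime_ordCompl hq hN).symm)
      refine ⟨H, fun _ => ?_⟩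
      have h1 := Subgroup.card_mul_index H
      rw [hH] at h1
      have h2 : Nat.card G / q ^ (Nat.card G).factorization q * H.index
          = Nat.card G / q ^ (Nat.card G).factorization q * q ^ (Nat.card G).factorization q := by
        rw [h1, Nat.div_mul_cancel (Nat.ordProj_dvd (Nat.card G) q)]
      exact Nat.eq_of_mul_eq_mul_left (Nat.ordCompl_pos q hN) h2
    · exact ⟨⊥, fun h => absurd h hq⟩
  choose C hC using hex
  -- the Sylow subgroups
  have hprime : ∀ (T : Finset ℕ), T ⊆ (Nat.card G).primeFactors → ∀ q ∈ T, q.Prime :=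
    fun T hT q hq => Nat.prime_of_mem_primeFactors (hT hq)
  have hidx : ∀ (T : Finset ℕ), T ⊆ (Nat.card G).primeFactors →
      (⨅ q ∈ T, C q).index = ∏ q ∈ T, q ^ (Nat.card G).factorization q :=
    fun T hT => index_biInf_of_primes C _ hC T (hprime T hT)
  have hScard : ∀ p : ℕ, Nat.card (⨅ q ∈ (Nat.card G).primeFactors.erase p, C q : Subgroup G)
      = p ^ (Nat.card G).factorization p := by
    intro p
    have h1 := Subgroup.card_mul_index (⨅ q ∈ (Nat.card G).primeFactors.erase p, C q)
    rw [hidx _ (Finset.erase_subset _ _)] at h1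
    have h2 := prod_primeFactors_erase (Nat.card G) hN p
    have hpos : 0 < ∏ q ∈ (Nat.card G).primeFactors.erase p, q ^ (Nat.card G).factorization q := by
      apply Nat.pos_of_ne_zero
      intro h0
      rw [h0, mul_zero] at h2
      exact hN h2.symm
    exact Nat.eq_of_mul_eq_mul_right hpos (h1.trans h2.symm)
  refine ⟨fun p => @Sylow.ofCard G _ _ (p : ℕ) ⟨p.2⟩
    (⨅ q ∈ (Nat.card G).primeFactors.erase (p : ℕ), C q) (hScard p), ?_⟩
  intro p q
  by_cases hpq : (p : ℕ) = q
  · have : p = q := Subtype.ext hpq
    subst this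
    rfl
  · change ((⨅ r ∈ (Nat.card G).primeFactors.erase (p : ℕ), C r : Subgroup G) : Set G) *
      ((⨅ r ∈ (Nat.card G).primeFactors.erase (q : ℕ), C r : Subgroup G) : Set G) =
      ((⨅ r ∈ (Nat.card G).primeFactors.erase (q : ℕ), C r : Subgroup G) : Set G) *
      ((⨅ r ∈ (Nat.card G).primeFactors.erase (p : ℕ), C r : Subgroup G) : Set G)
    have hcop : (Nat.card (⨅ r ∈ (Nat.card G).primeFactors.erase (p : ℕ), C r : Subgroup G)).Coprime
        (Nat.card (⨅ r ∈ (Nat.card G).primeFactors.erase (q : ℕ), C r : Subgroup G)) := by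
      rw [hScard, hScard]
      exact Nat.Coprime.pow _ _ ((Nat.coprime_primes p.2 q.2).mpr hpq)
    have hle1 : (⨅ r ∈ (Nat.card G).primeFactors.erase (p : ℕ), C r : Subgroup G) ≤
        ⨅ r ∈ ((Nat.card G).primeFactors.erase (p : ℕ)).erase (q : ℕ), C r :=
      biInf_mono (fun r hr => Finset.erase_subset _ _ hr)
    have hle2 : (⨅ r ∈ (Nat.card G).primeFactors.erase (q : ℕ), C r : Subgroup G) ≤
        ⨅ r ∈ ((Nat.card G).primeFactors.erase (p : ℕ)).erase (q : ℕ), C r :=
      biInf_mono (fun r hr => by
        rw [Finset.mem_erase, Finset.mem_erase] at hr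
        exact Finset.mem_erase.mpr ⟨hr.1, hr.2.2⟩)
    have hTcard : Nat.card (⨅ r ∈ (Nat.card G).primeFactors.erase (p : ℕ), C r : Subgroup G) *
        Nat.card (⨅ r ∈ (Nat.card G).primeFactors.erase (q : ℕ), C r : Subgroup G) =
        Nat.card (⨅ r ∈ ((Nat.card G).primeFactors.erase (p : ℕ)).erase (q : ℕ), C r :
          Subgroup G) := by
      rw [hScard, hScard]
      have h1 := Subgroup.card_mul_index
        (⨅ r ∈ ((Nat.card G).primeFactors.erase (p : ℕ)).erase (q : ℕ), C r)
      rw [hidx _ ((Finset.erase_subset _ _).trans (Finset.erase_subset _ _))] at h1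
      have h2 := prod_primeFactors_erase (Nat.card G) hN p
      have h3 : (q : ℕ) ^ (Nat.card G).factorization q *
          ∏ r ∈ ((Nat.card G).primeFactors.erase (p : ℕ)).erase (q : ℕ),
            r ^ (Nat.card G).factorization r =
          ∏ r ∈ (Nat.card G).primeFactors.erase (p : ℕ), r ^ (Nat.card G).factorization r := by
        by_cases hq : (q : ℕ) ∈ (Nat.card G).primeFactors.erase (p : ℕ)
        · rw [Finset.mul_prod_erase ((Nat.card G).primeFactors.erase (p : ℕ))
            (fun r => r ^ (Nat.card G).factorization r) hq]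
        · rw [Finset.erase_eq_of_notMem hq]
          have hq' : (q : ℕ) ∉ (Nat.card G).primeFactors := fun h =>
            hq (Finset.mem_erase.mpr ⟨fun h' => hpq h'.symm, h⟩)
          have : (Nat.card G).factorization q = 0 := by
            rw [← Finsupp.notMem_support_iff, Nat.support_factorization]; exact hq'
          rw [this, pow_zero, one_mul]
      rw [← h3, ← mul_assoc] at h2
      have hpos : 0 < ∏ r ∈ ((Nat.card G).primeFactors.erase (p : ℕ)).erase (q : ℕ),
          r ^ (Nat.card G).factorization r := by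
        apply Nat.pos_of_ne_zero
        intro h0
        rw [h0, mul_zero] at h2
        exact hN h2.symm
      exact (Nat.eq_of_mul_eq_mul_right hpos (h1.trans h2.symm)).symm
    rw [coe_mul_eq_of_card _ _ _ hle1 hle2 hTcard hcop,
      coe_mul_eq_of_card _ _ _ hle2 hle1 (by rw [mul_comm]; exact hTcard) hcop.symm]

end Cfsg.Agent.H1
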