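import Cfsg.Agent.H1.Wielandt
import Cfsg.Agent.H1.SylowSystem
import Cfsg.Agent.S0144

/-!
# Hall's converse (S0006) and solvability of groups with a Sylow system (S0021)
-/

set_option autoImplicit false
open Pointwise

namespace Cfsg.Agent.H1

universe u

theorem exists_two_prime_pow (N : ℕ) (hN : N ≠ 0) (h : N.primeFactors.card ≤ 2) :
    ∃ p q a b : ℕ, p.Prime ∧ q.Prime ∧ N = p ^ a * q ^ b := by
  by_cases h0 : N.primeFactors = ∅
  · rw [Nat.primeFactors_eq_empty] at h0
    rcases h0 with h0 | h0
    · exact absurd h0 hN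
    · exact ⟨2, 2, 0, 0, Nat.prime_two, Nat.prime_two, by simp [h0]⟩
  · obtain ⟨p, hp⟩ := Finset.nonempty_iff_ne_empty.mpr h0
    have h1 := prod_primeFactors_erase N hN p
    have hpp : p.Prime := Nat.prime_of_mem_primeFactors hp
    by_cases h2 : N.primeFactors.erase p = ∅
    · rw [h2, Finset.prod_empty, mul_one] at h1
      exact ⟨p, p, N.factorization p, 0, hpp, hpp, by simp [h1]⟩
    · obtain ⟨q, hq⟩ := Finset.nonempty_iff_ne_empty.mpr h2
      have hqq : q.Prime := Nat.prime_of_mem_primeFactors (Finset.mem_of_mem_erase hq)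
      have h3 : (N.primeFactors.erase p).erase q = ∅ := by
        rw [← Finset.card_eq_zero, Finset.card_erase_of_mem hq, Finset.card_erase_of_mem hp]
        omega
      rw [Finset.erase_eq_empty_iff] at h3
      rcases h3 with h3 | h3
      · exact absurd h3 h2
      · rw [h3, Finset.prod_singleton] at h1
        exact ⟨p, q, _, _, hpp, hqq, h1.symm⟩

theorem hall_converse_aux (n : ℕ) : ∀ (G : Type u) [Group G] [Finite G], Nat.card G ≤ n →
    (∀ p : ℕ, p.Prime → ∃ H : Subgroup G, H.index = p ^ (Nat.card G).factorization p) →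
    Group.IsSolvable G := by
  induction n with
  | zero =>
    intro G _ _ hn
    exact absurd hn (by have := Nat.card_pos (α := G); omega)
  | succ n ih =>
    intro G _ _ hn h
    have hN : Nat.card G ≠ 0 := Nat.card_pos.ne'
    by_cases h3 : 2 < (Nat.card G).primeFactors.card
    · rw [Finset.two_lt_card] at h3
      obtain ⟨p₁, hp₁, p₂, hp₂, p₃, hp₃, h12, h13, h23⟩ := h3
      have key : ∀ p ∈ (Nat.card G).primeFactors, ∀ H : Subgroup G,
          H.index = p ^ (Nat.card G).factorization p → Group.IsSolvable H := by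
        intro p hp H hH
        have hpp : p.Prime := Nat.prime_of_mem_primeFactors hp
        have hepos : 0 < (Nat.card G).factorization p :=
          hpp.factorization_pos_of_dvd hN (Nat.dvd_of_mem_primeFactors hp)
        have hcardH : Nat.card H * p ^ (Nat.card G).factorization p = Nat.card G := by
          rw [← hH]; exact H.card_mul_index
        apply ih H
        · have h2 : 2 ≤ p ^ (Nat.card G).factorization p := by
            calc 2 ≤ p := hpp.two_le
              _ = p ^ 1 := (pow_one p).symm
              _ ≤ p ^ (Nat.card G).factorization p := Nat.pow_le_pow_right hpp.pos hepos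
          have h3 : 0 < Nat.card H := Nat.card_pos
          nlinarith
        · intro q hq
          by_cases hqp : q = p
          · subst hqp
            refine ⟨⊤, ?_⟩
            rw [Subgroup.index_top]
            have h0 : (Nat.card H).factorization q = 0 := by
              apply Nat.factorization_eq_zero_of_not_dvd
              intro hdvd
              have h4 : q ^ ((Nat.card G).factorization q + 1) ∣ Nat.card G := by
                have h6 : q * q ^ (Nat.card G).factorization q
                    ∣ Nat.card H * q ^ (Nat.card G).factorization q := mul_dvd_mul hdvd dvd_rfl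
                rw [hcardH] at h6
                rw [pow_succ, mul_comm]
                exact h6
              exact absurd h4 (Nat.pow_succ_factorization_not_dvd hN hq)
            rw [h0, pow_zero]
          · obtain ⟨K, hK⟩ := h q hq
            refine ⟨K.subgroupOf H, ?_⟩
            have hcop : H.index.Coprime K.index := by
              rw [hH, hK]
              exact Nat.Coprime.pow _ _ ((Nat.coprime_primes hpp hq).mpr (Ne.symm hqp))
            change K.relIndex H = _
            rw [relIndex_eq_index_of_coprime H K hcop, hK]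
            congr 1
            rw [← hcardH, Nat.factorization_mul (Nat.card_pos.ne') (pow_ne_zero _ hpp.ne_zero)]
            simp [Nat.factorization_pow, hpp.factorization, hqp]
      have hpr₁ := Nat.prime_of_mem_primeFactors hp₁
      have hpr₂ := Nat.prime_of_mem_primeFactors hp₂
      have hpr₃ := Nat.prime_of_mem_primeFactors hp₃
      obtain ⟨H₁, hH₁⟩ := h p₁ hpr₁
      obtain ⟨H₂, hH₂⟩ := h p₂ hpr₂
      obtain ⟨H₃, hH₃⟩ := h p₃ hpr₃
      have c12 : H₁.index.Coprime H₂.index := by
        rw [hH₁, hH₂]; exact Nat.Coprime.pow _ _ ((Nat.coprime_primes hpr₁ hpr₂).mpr h12)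
      have c13 : H₁.index.Coprime H₃.index := by
        rw [hH₁, hH₃]; exact Nat.Coprime.pow _ _ ((Nat.coprime_primes hpr₁ hpr₃).mpr h13)
      have c23 : H₂.index.Coprime H₃.index := by
        rw [hH₂, hH₃]; exact Nat.Coprime.pow _ _ ((Nat.coprime_primes hpr₂ hpr₃).mpr h23)
      exact wielandt H₁ H₂ H₃ (key p₁ hp₁ H₁ hH₁) (key p₂ hp₂ H₂ hH₂) (key p₃ hp₃ H₃ hH₃)
        (coprime_index H₁ H₂ c12).2 (coprime_index H₁ H₃ c13).2 c23
    · obtain ⟨p, q, a, b, hp, hq, hcard⟩ := exists_two_prime_pow (Nat.card G) hN (by omega)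
      exact Cfsg.Agent.S0144.result p q a b hp hq hcard

/-- Hall's converse: a finite group with a `p`-complement for every prime `p` is solvable
(= S0006). -/
theorem hall_converse {G : Type u} [Group G] [Finite G]
    (h : ∀ p : ℕ, p.Prime → ∃ H : Subgroup G, H.index = p ^ (Nat.card G).factorization p) :
    Group.IsSolvable G :=
  hall_converse_aux (Nat.card G) G le_rfl h

section Permutable

variable {G : Type u} [Group G]

/-- The product of two permutable subgroups, as a subgroup. -/
def mulSubgroup (A B : Subgroup G) (h : (A : Set G) * (B : Set G) = (B : Set G) * (A : Set G)) :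
    Subgroup G where
  carrier := (A : Set G) * (B : Set G)
  one_mem' := ⟨1, A.one_mem, 1, B.one_mem, mul_one 1⟩
  mul_mem' := by
    rintro _ _ ⟨a, ha, b, hb, rfl⟩ ⟨a', ha', b', hb', rfl⟩
    have h1 : b * a' ∈ (A : Set G) * (B : Set G) := by
      rw [h]; exact ⟨b, hb, a', ha', rfl⟩
    obtain ⟨a'', ha'', b'', hb'', h2⟩ := h1
    refine ⟨a * a'', A.mul_mem ha ha'', b'' * b', B.mul_mem hb'' hb', ?_⟩
    change a * a'' * (b'' * b') = a * b * (a' * b')
    have h2' : a'' * b'' = b * a' := h2
    calc a * a'' * (b'' * b') = a * (a'' * b'') * b' := by group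
      _ = a * b * (a' * b') := by rw [h2']; group
  inv_mem' := by
    rintro _ ⟨a, ha, b, hb, rfl⟩
    have h1 : b⁻¹ * a⁻¹ ∈ (A : Set G) * (B : Set G) := by
      rw [h]; exact ⟨b⁻¹, B.inv_mem hb, a⁻¹, A.inv_mem ha, rfl⟩
    have h2 : (a * b)⁻¹ = b⁻¹ * a⁻¹ := by group
    change (a * b)⁻¹ ∈ (A : Set G) * (B : Set G)
    rw [h2]; exact h1

theorem coe_mulSubgroup (A B : Subgroup G)
    (h : (A : Set G) * (B : Set G) = (B : Set G) * (A : Set G)) :
    (mulSubgroup A B h : Set G) = (A : Set G) * (B : Set G) := rfl

theorem left_le_mulSubgroup (A B : Subgroup G)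
    (h : (A : Set G) * (B : Set G) = (B : Set G) * (A : Set G)) : A ≤ mulSubgroup A B h :=
  fun a ha => ⟨a, ha, 1, B.one_mem, mul_one a⟩

theorem right_le_mulSubgroup (A B : Subgroup G)
    (h : (A : Set G) * (B : Set G) = (B : Set G) * (A : Set G)) : B ≤ mulSubgroup A B h :=
  fun b hb => ⟨1, A.one_mem, b, hb, one_mul b⟩

theorem card_mulSubgroup_le [Finite G] (A B : Subgroup G)
    (h : (A : Set G) * (B : Set G) = (B : Set G) * (A : Set G)) :
    Nat.card (mulSubgroup A B h) ≤ Nat.card A * Nat.card B := by
  have h1 : Nat.card (mulSubgroup A B h) = Nat.card ((A : Set G) * (B : Set G) : Set G) := rfl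
  rw [h1]
  exact Set.natCard_mul_le

theorem exists_sup_of_permutable [Finite G] (T : ℕ → Subgroup G)
    (hT : ∀ p q, (T p : Set G) * (T q : Set G) = (T q : Set G) * (T p : Set G)) (s : Finset ℕ) :
    ∃ J : Subgroup G, (∀ q ∈ s, T q ≤ J) ∧ Nat.card J ≤ ∏ q ∈ s, Nat.card (T q) ∧
      ∀ r, (J : Set G) * (T r : Set G) = (T r : Set G) * (J : Set G) := by
  classical
  induction s using Finset.induction_on with
  | empty =>
    refine ⟨⊥, by simp, by simp, fun r => ?_⟩
    rw [Subgroup.coe_bot, Set.singleton_one, one_mul, mul_one]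
  | insert a s ha ih =>
    obtain ⟨J, hJ1, hJ2, hJ3⟩ := ih
    have hperm : (T a : Set G) * (J : Set G) = (J : Set G) * (T a : Set G) := (hJ3 a).symm
    refine ⟨mulSubgroup (T a) J hperm, ?_, ?_, ?_⟩
    · intro q hq
      rw [Finset.mem_insert] at hq
      rcases hq with rfl | hq
      · exact left_le_mulSubgroup _ _ _
      · exact (hJ1 q hq).trans (right_le_mulSubgroup _ _ _)
    · rw [Finset.prod_insert ha]
      exact (card_mulSubgroup_le _ _ _).trans (Nat.mul_le_mul_left _ hJ2)
    · intro r
      rw [coe_mulSubgroup, mul_assoc, hJ3 r, ← mul_assoc, hT a r, mul_assoc]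

theorem prod_prime_pow_dvd (t : Finset ℕ) (e : ℕ → ℕ) (M : ℕ) (ht : ∀ q ∈ t, q.Prime)
    (h : ∀ q ∈ t, q ^ e q ∣ M) : ∏ q ∈ t, q ^ e q ∣ M := by
  classical
  induction t using Finset.induction_on with
  | empty => simp
  | insert a t ha ih =>
    have ht' : ∀ q ∈ t, q.Prime := fun q hq => ht q (Finset.mem_insert_of_mem hq)
    have hap : a.Prime := ht a (Finset.mem_insert_self a t)
    rw [Finset.prod_insert ha]
    apply Nat.Coprime.mul_dvd_of_dvd_of_dvd
    · apply Nat.Coprime.prod_right
      intro q hq
      apply Nat.Coprime.pow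
      exact (Nat.coprime_primes hap (ht' q hq)).mpr (fun h => ha (h ▸ hq))
    · exact h a (Finset.mem_insert_self a t)
    · exact ih ht' (fun q hq => h q (Finset.mem_insert_of_mem hq))

/-- A finite group with pairwise permutable Sylow subgroups, one for each prime, is solvable
(= S0021). -/
theorem isSolvable_of_sylow_system [Finite G]
    (S : (p : Nat.Primes) → Sylow (p : ℕ) G)
    (hS : ∀ p q : Nat.Primes, (S p : Set G) * (S q : Set G) = (S q : Set G) * (S p : Set G)) :
    Group.IsSolvable G := by
  classical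
  set T : ℕ → Subgroup G := fun q => if h : q.Prime then (S ⟨q, h⟩ : Subgroup G) else ⊥ with hTdef
  have hT : ∀ p q, (T p : Set G) * (T q : Set G) = (T q : Set G) * (T p : Set G) := by
    intro p q
    by_cases hp : p.Prime
    · by_cases hq : q.Prime
      · simp only [hTdef, dif_pos hp, dif_pos hq]
        exact hS ⟨p, hp⟩ ⟨q, hq⟩
      · simp only [hTdef, dif_neg hq]
        rw [Subgroup.coe_bot, Set.singleton_one, one_mul, mul_one]
    · simp only [hTdef, dif_neg hp]
      rw [Subgroup.coe_bot, Set.singleton_one, one_mul, mul_one]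
  have hN : Nat.card G ≠ 0 := Nat.card_pos.ne'
  have hTcard : ∀ q, q.Prime → Nat.card (T q) = q ^ (Nat.card G).factorization q := by
    intro q hq
    have : Fact q.Prime := ⟨hq⟩
    simp only [hTdef, dif_pos hq]
    exact (S ⟨q, hq⟩).card_eq_multiplicity
  apply hall_converse
  intro p hp
  obtain ⟨J, hJ1, hJ2, -⟩ := exists_sup_of_permutable T hT ((Nat.card G).primeFactors.erase p)
  refine ⟨J, ?_⟩
  have hprod := prod_primeFactors_erase (Nat.card G) hN p
  have hprimes : ∀ q ∈ (Nat.card G).primeFactors.erase p, q.Prime := fun q hq =>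
    Nat.prime_of_mem_primeFactors (Finset.mem_of_mem_erase hq)
  have h1 : ∏ q ∈ (Nat.card G).primeFactors.erase p, Nat.card (T q)
      = ∏ q ∈ (Nat.card G).primeFactors.erase p, q ^ (Nat.card G).factorization q :=
    Finset.prod_congr rfl (fun q hq => hTcard q (hprimes q hq))
  rw [h1] at hJ2
  have h2 : ∏ q ∈ (Nat.card G).primeFactors.erase p, q ^ (Nat.card G).factorization q
      ∣ Nat.card J := by
    apply prod_prime_pow_dvd _ _ _ hprimes
    intro q hq
    rw [← hTcard q (hprimes q hq)]
    exact Subgroup.card_dvd_of_le (hJ1 q hq)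
  have h3 : Nat.card J = ∏ q ∈ (Nat.card G).primeFactors.erase p,
      q ^ (Nat.card G).factorization q :=
    le_antisymm hJ2 (Nat.le_of_dvd Nat.card_pos h2)
  have h4 : Nat.card J * J.index = Nat.card G := J.card_mul_index
  rw [h3] at h4
  have hpos : 0 < ∏ q ∈ (Nat.card G).primeFactors.erase p, q ^ (Nat.card G).factorization q := by
    rw [← h3]; exact Nat.card_pos
  exact Nat.eq_of_mul_eq_mul_right hpos ((mul_comm _ _).trans (h4.trans hprod.symm))

end Permutable

end Cfsg.Agent.H1
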