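import Cfsg.Agent.H1.Hall
import Cfsg.Agent.H1.Index

/-!
# Products of normal Hall subgroups of the factors of a factorised solvable group (S0561)
-/

set_option autoImplicit false
open Pointwise

namespace Cfsg.Agent.H1

universe u

theorem coprime_of_mul_eq_lcm (a b ia ib : ℕ) (ha : 0 < a) (hb : 0 < b)
    (h1 : ia * a = Nat.lcm a b) (h2 : ib * b = Nat.lcm a b) : ia.Coprime ib := by
  obtain ⟨a', b', hcop, ha', hb'⟩ := Nat.exists_coprime a b
  have hd : 0 < Nat.gcd a b := Nat.gcd_pos_of_pos_left b ha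
  have hgl := Nat.gcd_mul_lcm a b
  set d := Nat.gcd a b with hdd
  have ha'pos : 0 < a' := by
    rcases Nat.eq_zero_or_pos a' with h | h
    · rw [h, zero_mul] at ha'; omega
    · exact h
  have hb'pos : 0 < b' := by
    rcases Nat.eq_zero_or_pos b' with h | h
    · rw [h, zero_mul] at hb'; omega
    · exact h
  have hl : Nat.lcm a b = a' * b' * d := by
    have h3 : d * Nat.lcm a b = d * (a' * b' * d) := by
      rw [hgl]
      calc a * b = (a' * d) * (b' * d) := by rw [← ha', ← hb']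
        _ = d * (a' * b' * d) := by ring
    exact Nat.eq_of_mul_eq_mul_left hd h3
  have hia : ia = b' := by
    have h3 : ia * (a' * d) = b' * (a' * d) := by
      calc ia * (a' * d) = ia * a := by rw [← ha']
        _ = a' * b' * d := by rw [h1, hl]
        _ = b' * (a' * d) := by ring
    exact Nat.eq_of_mul_eq_mul_right (Nat.mul_pos ha'pos hd) h3
  have hib : ib = a' := by
    have h3 : ib * (b' * d) = a' * (b' * d) := by
      calc ib * (b' * d) = ib * b := by rw [← hb']
        _ = a' * b' * d := by rw [h2, hl]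
        _ = a' * (b' * d) := by ring
    exact Nat.eq_of_mul_eq_mul_right (Nat.mul_pos hb'pos hd) h3
  rw [hia, hib]
  exact hcop.symm

/-- If `G = HK` is solvable and `A`, `B` are Hall subgroups of `G` normalised by `H`, `K`
respectively, then `AB` is a subgroup. -/
theorem hall_mul_of_factorization {G : Type u} [Group G] [Finite G] [Group.IsSolvable G]
    (H K A B : Subgroup G) (hHK : ∀ g : G, ∃ h ∈ H, ∃ k ∈ K, g = h * k)
    (hAn : H ≤ Subgroup.normalizer (A : Set G)) (hBn : K ≤ Subgroup.normalizer (B : Set G))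
    (hAh : (Nat.card A).Coprime A.index) (hBh : (Nat.card B).Coprime B.index) :
    ∃ S : Subgroup G, (S : Set G) = (A : Set G) * (B : Set G) := by
  have hapos : 0 < Nat.card A := Nat.card_pos
  have hbpos : 0 < Nat.card B := Nat.card_pos
  have hcA := Subgroup.card_mul_index A
  have hcB := Subgroup.card_mul_index B
  have hmdvd : Nat.lcm (Nat.card A) (Nat.card B) ∣ Nat.card G :=
    Nat.lcm_dvd (Subgroup.card_subgroup_dvd_card A) (Subgroup.card_subgroup_dvd_card B)
  obtain ⟨n, hn⟩ := hmdvd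
  have hAn' : (Nat.card A).Coprime n := by
    apply Nat.Coprime.coprime_dvd_right _ hAh
    obtain ⟨c, hc⟩ := Nat.dvd_lcm_left (Nat.card A) (Nat.card B)
    refine ⟨c, ?_⟩
    have h3 : Nat.card A * A.index = Nat.card A * (n * c) := by
      rw [hcA, hn, hc]; ring
    exact Nat.eq_of_mul_eq_mul_left hapos h3
  have hBn' : (Nat.card B).Coprime n := by
    apply Nat.Coprime.coprime_dvd_right _ hBh
    obtain ⟨c, hc⟩ := Nat.dvd_lcm_right (Nat.card A) (Nat.card B)
    refine ⟨c, ?_⟩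
    have h3 : Nat.card B * B.index = Nat.card B * (n * c) := by
      rw [hcB, hn, hc]; ring
    exact Nat.eq_of_mul_eq_mul_left hbpos h3
  have hmn : (Nat.lcm (Nat.card A) (Nat.card B)).Coprime n :=
    Nat.Coprime.coprime_dvd_left (Nat.lcm_dvd_mul _ _) (Nat.Coprime.mul_left hAn' hBn')
  obtain ⟨T₁, hT₁, hAT₁⟩ := hall_le _ n hn hmn A hAn'
  obtain ⟨T₂, hT₂, hBT₂⟩ := hall_le _ n hn hmn B hBn'
  obtain ⟨g, hg⟩ := hall_conj _ n hn hmn T₂ T₁ hT₂ hT₁
  obtain ⟨h, hh, k, hk, rfl⟩ := hHK g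
  -- the common Hall subgroup
  have hAT : A ≤ MulAut.conj h⁻¹ • T₁ := by
    have h1 : MulAut.conj h⁻¹ • A = A :=
      (le_normalizer_iff_conj_smul H A).mp hAn _ (H.inv_mem hh)
    rw [← h1]
    exact Subgroup.pointwise_smul_le_pointwise_smul_iff.mpr hAT₁
  have hBT : B ≤ MulAut.conj h⁻¹ • T₁ := by
    have h1 : MulAut.conj k • B = B := (le_normalizer_iff_conj_smul K B).mp hBn _ hk
    rw [← hg, conj_mul_smul, conj_inv_smul_conj_smul, ← h1]
    exact Subgroup.pointwise_smul_le_pointwise_smul_iff.mpr hBT₂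
  have hTcard : Nat.card (MulAut.conj h⁻¹ • T₁ : Subgroup G)
      = Nat.lcm (Nat.card A) (Nat.card B) := by
    rw [card_conj_smul, hT₁]
  set T : Subgroup G := MulAut.conj h⁻¹ • T₁ with hT
  refine ⟨T, ?_⟩
  have hiA := Subgroup.card_mul_index (A.subgroupOf T)
  have hiB := Subgroup.card_mul_index (B.subgroupOf T)
  rw [card_subgroupOf_of_le hAT, hTcard, mul_comm] at hiA
  rw [card_subgroupOf_of_le hBT, hTcard, mul_comm] at hiB
  have hcop := coprime_of_mul_eq_lcm _ _ _ _ hapos hbpos hiA hiB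
  apply Set.Subset.antisymm
  · intro t ht
    obtain ⟨x, hx, y, hy, hxy⟩ := (coprime_index (A.subgroupOf T) (B.subgroupOf T) hcop).2 ⟨t, ht⟩
    refine ⟨x, hx, y, hy, ?_⟩
    have := congrArg Subtype.val hxy
    exact this.symm
  · rintro _ ⟨a, ha, b, hb, rfl⟩
    exact T.mul_mem (hAT ha) (hBT hb)

/-- Conjugate version (= S0561). -/
theorem hall_mul_of_factorization_conj {G : Type u} [Group G] [Finite G] [Group.IsSolvable G]
    (H K A B : Subgroup G) (hHK : ∀ g : G, ∃ h ∈ H, ∃ k ∈ K, g = h * k)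
    (hA : A ≤ H) (hAn : (A.subgroupOf H).Normal) (hB : B ≤ K) (hBn : (B.subgroupOf K).Normal)
    (hAh : (Nat.card A).Coprime A.index) (hBh : (Nat.card B).Coprime B.index) (x y : G) :
    ∃ S : Subgroup G, (S : Set G) = ((MulAut.conj x • A : Subgroup G) : Set G)
      * ((MulAut.conj y • B : Subgroup G) : Set G) := by
  have hAn' : H ≤ Subgroup.normalizer (A : Set G) :=
    (Subgroup.normal_subgroupOf_iff_le_normalizer hA).mp hAn
  have hBn' : K ≤ Subgroup.normalizer (B : Set G) :=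
    (Subgroup.normal_subgroupOf_iff_le_normalizer hB).mp hBn
  have hidx : ∀ (z : G) (C : Subgroup G), (MulAut.conj z • C : Subgroup G).index = C.index := by
    intro z C
    have h1 := Subgroup.card_mul_index (MulAut.conj z • C : Subgroup G)
    rw [card_conj_smul, ← Subgroup.card_mul_index C] at h1
    exact Nat.eq_of_mul_eq_mul_left Nat.card_pos h1
  apply hall_mul_of_factorization (MulAut.conj x • H) (MulAut.conj y • K)
  · intro g
    obtain ⟨h₀, hh₀, k₀, hk₀, h0⟩ := hHK (x⁻¹ * y)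
    obtain ⟨h₁, hh₁, k₁, hk₁, h1⟩ := hHK (x⁻¹ * g * y)
    refine ⟨x * (h₁ * h₀⁻¹) * x⁻¹, conj_mem_conj_smul x _ H (H.mul_mem hh₁ (H.inv_mem hh₀)),
      y * (k₀⁻¹ * k₁) * y⁻¹, conj_mem_conj_smul y _ K (K.mul_mem (K.inv_mem hk₀) hk₁), ?_⟩
    have h2 : g = x * (x⁻¹ * g * y) * y⁻¹ := by group
    have h3 : x * (h₁ * h₀⁻¹) * x⁻¹ * (y * (k₀⁻¹ * k₁) * y⁻¹)
        = x * h₁ * (h₀⁻¹ * (x⁻¹ * y) * k₀⁻¹) * k₁ * y⁻¹ := by group
    rw [h3, h0, h2, h1]
    group
  · exact conj_smul_le_normalizer x H A hAn'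
  · exact conj_smul_le_normalizer y K B hBn'
  · rw [card_conj_smul, hidx]; exact hAh
  · rw [card_conj_smul, hidx]; exact hBh

end Cfsg.Agent.H1
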