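import Cfsg.Agent.H1.HallHigman
import Cfsg.Agent.H1.PCore
import Cfsg.Agent.S3734

/-!
# A module lemma for solvable groups with `O₂(L/C_L(V)) = 1`

No four-group with one common fixed space; no over-offenders.  (For the `T = S` case of S2951/S2952.)
-/

set_option autoImplicit false

namespace Cfsg.Agent.H1.Jt

variable {H : Type*} [Group H]

/-- `O₂(H) = 1` and `H` solvable: `C_H(O_{2'}(H)) ≤ O_{2'}(H)`. -/
theorem centralizer_pPrimeCore_le [Finite H] [Group.IsSolvable H] (h : Cfsg.pCore 2 H = ⊥) :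
    Subgroup.centralizer (Cfsg.pPrimeCore 2 H : Set H) ≤ Cfsg.pPrimeCore 2 H := by
  have hF : Cfsg.fittingSubgroup H ≤ Cfsg.pPrimeCore 2 H := by
    rw [fitting_eq_iSup_pCore]
    apply iSup_le
    intro r
    by_cases hr : (r : ℕ) = 2
    · rw [hr, h]; exact bot_le
    · have hfr : Fact (r : ℕ).Prime := ⟨r.2⟩
      have hcop : (Nat.card (Cfsg.pCore (r : ℕ) H)).Coprime 2 := by
        obtain ⟨k, hk⟩ := IsPGroup.iff_card.mp (pCore_isPGroup (G := H) (r : ℕ))
        rw [hk]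
        exact Nat.Coprime.pow_left k ((Nat.coprime_primes r.2 Nat.prime_two).mpr hr)
      exact le_pPrimeCore 2 (Cfsg.pCore (r : ℕ) H) hcop
  exact (Subgroup.centralizer_le (SetLike.coe_subset_coe.mpr hF)).trans
    (centralizer_fitting_le.trans hF)

/-- `O₂(H/C_H(V)) = 1` when `C_H(V)` normalizes a Sylow 2-subgroup and every normal 2-subgroup of `H`
centralizes `V`. -/
theorem pCore_quot_eq_bot [Finite H] (V : Subgroup H) [V.Normal] (S : Sylow 2 H)
    (hC : Subgroup.centralizer (V : Set H) ≤ Subgroup.normalizer ((S : Subgroup H) : Set H))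
    (hQ : ∀ N : Subgroup H, N.Normal → IsPGroup 2 ↥N → N ≤ Subgroup.centralizer (V : Set H)) :
    Cfsg.pCore 2 (H ⧸ Subgroup.centralizer (V : Set H)) = ⊥ := by
  classical
  have : Fact (Nat.Prime 2) := ⟨Nat.prime_two⟩
  set C : Subgroup H := Subgroup.centralizer (V : Set H) with hCdef
  set π := QuotientGroup.mk' C with hπ
  have hπs : Function.Surjective π := QuotientGroup.mk'_surjective C
  set Pb := Cfsg.pCore 2 (H ⧸ C) with hPb
  have hPbS : Pb ≤ (S : Subgroup H).map π := pCore_le_sylow 2 (S.mapSurjective hπs)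
  set R : Subgroup H := Pb.comap π with hR
  have hRn : R.Normal := (pCore_normal 2).comap π
  set P : Subgroup H := R ⊓ (S : Subgroup H) with hP
  have hP2 : IsPGroup 2 ↥P := S.isPGroup'.to_le inf_le_right
  have hCR : C ≤ R := by
    intro c hc
    show π c ∈ Pb
    have : π c = 1 := (QuotientGroup.eq_one_iff c).mpr hc
    rw [this]; exact one_mem _
  have hRPC : ∀ x ∈ R, ∃ p ∈ P, ∃ c ∈ C, x = p * c := by
    intro x hx
    obtain ⟨s, hs, hsx⟩ := hPbS (show π x ∈ Pb from hx)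
    have hsR : s ∈ R := by show π s ∈ Pb; rw [hsx]; exact hx
    refine ⟨s, ⟨hsR, hs⟩, s⁻¹ * x, ?_, by group⟩
    have : π (s⁻¹ * x) = 1 := by rw [map_mul, map_inv, hsx]; group
    exact (QuotientGroup.eq_one_iff _).mp this
  have hCP : ∀ c ∈ C, ∀ p ∈ P, c * p * c⁻¹ ∈ P := by
    intro c hc p hp
    exact ⟨hRn.conj_mem p hp.1 c, (Subgroup.mem_normalizer_iff.mp (hC hc) p).mp hp.2⟩
  have hCS : ∀ U : Subgroup H, IsPGroup 2 ↥U → U ≤ C → U ≤ (S : Subgroup H) := by
    intro U hU hUC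
    have h1 : IsPGroup 2 ↥(U ⊔ (S : Subgroup H)) :=
      IsPGroup.to_sup_of_normal_right' hU S.isPGroup' (hUC.trans hC)
    have h2 := S.is_maximal' h1 le_sup_right
    rw [← h2]; exact le_sup_left
  have hRP : R ≤ Subgroup.normalizer (P : Set H) := by
    intro x hx
    obtain ⟨p, hp, c, hc, rfl⟩ := hRPC x hx
    refine Subgroup.mul_mem _ (Subgroup.le_normalizer hp) ?_
    rw [Subgroup.mem_normalizer_iff]
    intro q
    constructor
    · intro hq; exact hCP c hc q hq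
    · intro hq
      have := hCP c⁻¹ (inv_mem hc) _ hq
      simpa [mul_assoc] using this
  have hPn : P.Normal := by
    constructor
    intro p hp l
    set P' : Subgroup H := P.map (MulAut.conj l).toMonoidHom with hP'
    have hP'2 : IsPGroup 2 ↥P' := hP2.map _
    have hP'R : P' ≤ R := by
      rintro _ ⟨q, hq, rfl⟩
      exact hRn.conj_mem q hq.1 l
    have h2 : IsPGroup 2 ↥(P' ⊔ P) := IsPGroup.to_sup_of_normal_right' hP'2 hP2 (hP'R.trans hRP)
    have hmem : l * p * l⁻¹ ∈ P' ⊔ P := Subgroup.mem_sup_left ⟨p, hp, rfl⟩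
    obtain ⟨q, hq, c, hc, hqc⟩ := hRPC (l * p * l⁻¹) (hRn.conj_mem p hp.1 l)
    have hcU : c ∈ (P' ⊔ P) ⊓ C := by
      refine Subgroup.mem_inf.mpr ⟨?_, hc⟩
      have : c = q⁻¹ * (l * p * l⁻¹) := by rw [hqc]; group
      rw [this]
      exact mul_mem (inv_mem (Subgroup.mem_sup_right hq)) hmem
    have hcS : c ∈ (S : Subgroup H) := hCS _ (h2.to_le inf_le_left) inf_le_right hcU
    have hcP : c ∈ P := ⟨hCR hc, hcS⟩
    rw [hqc]; exact mul_mem hq hcP
  have hPC : P ≤ C := hQ P hPn hP2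
  rw [eq_bot_iff]
  intro xb hxb
  obtain ⟨x, rfl⟩ := hπs xb
  obtain ⟨p, hp, c, hc, hx⟩ := hRPC x hxb
  rw [Subgroup.mem_bot]
  exact (QuotientGroup.eq_one_iff _).mpr (by rw [hx]; exact mul_mem (hPC hp) hc)

theorem isPGroup_two_of_sq (K : Subgroup H) (h : ∀ a ∈ K, a * a = 1) : IsPGroup 2 ↥K := by
  intro a
  refine ⟨1, Subtype.ext ?_⟩
  simpa [pow_two] using h a a.2

/-- Core (type-level): an elementary abelian 2-subgroup `A ≠ 1` acting faithfully on `V` has a
"hyperplane" `B` with `C_V(B) ≠ C_V(A)`. -/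
theorem core [Finite H] [Group.IsSolvable H] (V : Subgroup H) [hVn : V.Normal]
    (hV2 : ∀ v ∈ V, v * v = 1) (hVc : ∀ v ∈ V, ∀ w ∈ V, v * w = w * v)
    (hO : Cfsg.pCore 2 (H ⧸ Subgroup.centralizer (V : Set H)) = ⊥)
    (A : Subgroup H) (hA2 : ∀ a ∈ A, a * a = 1) (hAc : ∀ a ∈ A, ∀ b ∈ A, a * b = b * a)
    (hAV : A ⊓ Subgroup.centralizer (V : Set H) = ⊥) (hA : A ≠ ⊥) :
    ∃ B : Subgroup H, ∃ a ∈ A, B ≤ A ∧ a ∉ B ∧ B ⊔ Subgroup.zpowers a = A ∧
      ∃ v ∈ V, (∀ b ∈ B, b * v = v * b) ∧ a * v ≠ v * a := by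
  classical
  have hp2 : Fact (Nat.Prime 2) := ⟨Nat.prime_two⟩
  set C : Subgroup H := Subgroup.centralizer (V : Set H) with hCdef
  set π := QuotientGroup.mk' C with hπ
  have hπs : Function.Surjective π := QuotientGroup.mk'_surjective C
  have hker : ∀ x : H, π x = 1 ↔ x ∈ C := fun x => QuotientGroup.eq_one_iff x
  have hsolv : Group.IsSolvable (H ⧸ C) := Group.isSolvable_of_surjective hπs
  set N := Cfsg.pPrimeCore 2 (H ⧸ C) with hN
  have hNn : N.Normal := pPrimeCore_normal 2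
  have hNodd : (Nat.card N).Coprime 2 := pPrimeCore_card_coprime 2
  have hNcent : Subgroup.centralizer (N : Set (H ⧸ C)) ≤ N := centralizer_pPrimeCore_le hO
  set Ab : Subgroup (H ⧸ C) := A.map π with hAb
  have hAbc : ∀ a ∈ Ab, ∀ b ∈ Ab, a * b = b * a := by
    rintro _ ⟨a, ha, rfl⟩ _ ⟨b, hb, rfl⟩
    rw [← map_mul, ← map_mul, hAc a ha b hb]
  have hAbcomm : IsMulCommutative Ab := ⟨⟨fun a b => Subtype.ext (hAbc a a.2 b b.2)⟩⟩
  have hA2g : IsPGroup 2 ↥A := isPGroup_two_of_sq A hA2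
  have hV2g : IsPGroup 2 ↥V := isPGroup_two_of_sq V hV2
  have hAb2 : IsPGroup 2 ↥Ab := hA2g.map π
  have hcop : (Nat.card Ab).Coprime (Nat.card N) := by
    obtain ⟨k, hk⟩ := IsPGroup.iff_card.mp hAb2
    rw [hk]
    exact Nat.Coprime.pow_left k hNodd.symm
  have hAN : Ab ≤ Subgroup.normalizer (N : Set (H ⧸ C)) := by
    intro x _
    rw [Subgroup.mem_normalizer_iff]
    intro n
    constructor
    · intro hn; exact hNn.conj_mem n hn x
    · intro hn
      have := hNn.conj_mem _ hn x⁻¹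
      simpa [mul_assoc] using this
  have hgen := (Cfsg.Agent.S3734.result Ab N hAbcomm hAN hcop).1
  have hAbN : ¬ Ab ≤ Subgroup.centralizer (N : Set (H ⧸ C)) := by
    intro hle
    have h1 : Ab ≤ N := hle.trans hNcent
    have h2 : Nat.card Ab ∣ Nat.card N := Subgroup.card_dvd_of_le h1
    have h3 : Nat.card Ab = 1 := Nat.Coprime.eq_one_of_dvd hcop h2
    have h4 : Ab = ⊥ := Subgroup.card_eq_one.mp h3
    have h5 : A ≤ C := by
      intro a ha
      have : π a ∈ Ab := ⟨a, ha, rfl⟩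
      rw [h4, Subgroup.mem_bot] at this
      exact (hker a).mp this
    have h6 : A ≤ A ⊓ C := le_inf le_rfl h5
    rw [hAV] at h6
    exact hA (le_bot_iff.mp h6)
  have hex : ∃ Bb : Subgroup (H ⧸ C), Bb ≤ Ab ∧ (∃ a ∈ Ab, Bb ⊔ Subgroup.zpowers a = Ab) ∧
      ∃ xb ∈ N, xb ∈ Subgroup.centralizer (Bb : Set (H ⧸ C)) ∧ ∃ ab ∈ Ab, ab * xb ≠ xb * ab := by
    by_contra hcon
    push_neg at hcon
    apply hAbN
    have hNA : N ≤ Subgroup.centralizer (Ab : Set (H ⧸ C)) := by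
      refine hgen.ge.trans (iSup₂_le fun Bb hBb => ?_)
      intro x hx
      rw [Subgroup.mem_centralizer_iff]
      intro a ha
      exact hcon Bb hBb.1 hBb.2 x hx.1 hx.2 a ha
    exact Subgroup.le_centralizer_iff.mp hNA
  obtain ⟨Bb, hBbA, ⟨a0, ha0, hsup⟩, xb, hxN, hxB, ab, hab, hne⟩ := hex
  have ha0x : a0 * xb ≠ xb * a0 := by
    intro hcomm
    apply hne
    have hle : Ab ≤ Subgroup.centralizer ({xb} : Set (H ⧸ C)) := by
      rw [← hsup]
      apply sup_le
      · intro b hb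
        rw [Subgroup.mem_centralizer_iff]
        intro h hh
        rw [Set.mem_singleton_iff] at hh
        subst hh
        exact ((Subgroup.mem_centralizer_iff.mp hxB) b hb).symm
      · rw [Subgroup.zpowers_le, Subgroup.mem_centralizer_iff]
        intro h hh
        rw [Set.mem_singleton_iff] at hh
        subst hh
        exact hcomm.symm
    exact ((Subgroup.mem_centralizer_iff.mp (hle hab)) xb rfl).symm
  obtain ⟨a, haA, rfl⟩ := ha0
  obtain ⟨x, rfl⟩ := hπs xb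
  have ha0mem : π a ∈ Ab := ⟨a, haA, rfl⟩
  have hdecomp : ∀ y ∈ Bb ⊔ Subgroup.zpowers (π a), ∃ b ∈ Bb, ∃ i : ℤ, y = b * (π a) ^ i := by
    intro y hy
    rw [Subgroup.sup_eq_closure] at hy
    induction hy using Subgroup.closure_induction with
    | mem y hy =>
      rcases hy with hy | hy
      · exact ⟨y, hy, 0, by simp⟩
      · obtain ⟨i, rfl⟩ := Subgroup.mem_zpowers_iff.mp hy
        exact ⟨1, one_mem _, i, by simp⟩
    | one => exact ⟨1, one_mem _, 0, by simp⟩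
    | mul y z _ _ hy hz =>
      obtain ⟨b, hb, i, rfl⟩ := hy
      obtain ⟨b', hb', j, rfl⟩ := hz
      refine ⟨b * b', mul_mem hb hb', i + j, ?_⟩
      have hc : Commute (π a ^ i) b' :=
        (show Commute (π a) b' from hAbc _ ha0mem _ (hBbA hb')).zpow_left i
      rw [zpow_add]
      calc b * π a ^ i * (b' * π a ^ j) = b * (π a ^ i * b') * π a ^ j := by group
        _ = b * (b' * π a ^ i) * π a ^ j := by rw [hc.eq]
        _ = b * b' * (π a ^ i * π a ^ j) := by group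
    | inv y _ hy =>
      obtain ⟨b, hb, i, rfl⟩ := hy
      refine ⟨b⁻¹, inv_mem hb, -i, ?_⟩
      have hc : Commute (π a ^ i) b :=
        (show Commute (π a) b from hAbc _ ha0mem _ (hBbA hb)).zpow_left i
      rw [mul_inv_rev, zpow_neg]
      exact (hc.inv_left.inv_right).eq
  set B : Subgroup H := Bb.comap π ⊓ A with hB
  have haB : a ∉ B := by
    intro h
    exact ha0x ((Subgroup.mem_centralizer_iff.mp hxB) (π a) h.1)
  have hBsup : B ⊔ Subgroup.zpowers a = A := by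
    apply le_antisymm
    · exact sup_le inf_le_right (by rw [Subgroup.zpowers_le]; exact haA)
    · intro a' ha'
      have h1 : π a' ∈ Bb ⊔ Subgroup.zpowers (π a) := by rw [hsup]; exact ⟨a', ha', rfl⟩
      obtain ⟨b, hb, i, hi⟩ := hdecomp (π a') h1
      have h2 : a' * a ^ (-i) ∈ B := by
        refine ⟨?_, mul_mem ha' (zpow_mem haA _)⟩
        show π (a' * a ^ (-i)) ∈ Bb
        rw [map_mul, map_zpow, hi, zpow_neg, mul_assoc, mul_inv_cancel, mul_one]
        exact hb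
      have h3 : a' = (a' * a ^ (-i)) * a ^ i := by rw [zpow_neg]; group
      rw [h3]
      exact mul_mem (Subgroup.mem_sup_left h2)
        (Subgroup.mem_sup_right (Subgroup.zpow_mem_zpowers a i))
  refine ⟨B, a, haA, inf_le_right, haB, hBsup, ?_⟩
  by_contra hcon
  push_neg at hcon
  set y : H := x * a * x⁻¹ * a⁻¹ with hy
  have hπy : π y = π x * π a * (π x)⁻¹ * (π a)⁻¹ := by simp [hy]
  have hπyne : π y ≠ 1 := by
    rw [hπy]
    intro h
    apply ha0x
    have h' : π x * π a = π a * π x := by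
      have := congrArg (fun t => t * π a * π x) h
      simpa [mul_assoc] using this
    exact h'.symm
  have hπyN : π y ∈ N := by
    rw [hπy]
    have h1 : π a * (π x)⁻¹ * (π a)⁻¹ ∈ N := hNn.conj_mem _ (inv_mem hxN) _
    have : π x * π a * (π x)⁻¹ * (π a)⁻¹ = π x * (π a * (π x)⁻¹ * (π a)⁻¹) := by group
    rw [this]; exact mul_mem hxN h1
  have hyC : y ∉ C := fun h => hπyne ((hker y).mpr h)
  have hbx : ∀ b ∈ B, π b * π x = π x * π b :=
    fun b hb => (Subgroup.mem_centralizer_iff.mp hxB) (π b) hb.1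
  have hba : ∀ b ∈ B, π b * π a = π a * π b :=
    fun b hb => hAbc _ ⟨b, hb.2, rfl⟩ _ ⟨a, haA, rfl⟩
  have hby : ∀ b ∈ B, π b * π y = π y * π b := by
    intro b hb
    have c1 : Commute (π b) (π x) := hbx b hb
    have c2 : Commute (π b) (π a) := hba b hb
    rw [hπy]
    exact (((c1.mul_right c2).mul_right c1.inv_right).mul_right c2.inv_right).eq
  have hconj : ∀ (g : H) (b : H), π b * π g = π g * π b → ∀ v ∈ V,
      b * (g * v * g⁻¹) * b⁻¹ = g * (b * v * b⁻¹) * g⁻¹ := by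
    intro g b hbg v hv
    have hc : g⁻¹ * b * g * b⁻¹ ∈ C := by
      apply (hker _).mp
      simp only [map_mul, map_inv]
      rw [mul_assoc (π g)⁻¹, hbg]; group
    have hv' : b * v * b⁻¹ ∈ V := hVn.conj_mem v hv b
    have hcv := (Subgroup.mem_centralizer_iff.mp hc) (b * v * b⁻¹) hv'
    have h1 : b * (g * v * g⁻¹) * b⁻¹ =
        g * ((g⁻¹ * b * g * b⁻¹) * (b * v * b⁻¹) * (g⁻¹ * b * g * b⁻¹)⁻¹) * g⁻¹ := by group
    rw [h1, ← hcv]; group
  have hV1 : ∀ v ∈ V, (∀ b ∈ B, b * v = v * b) → y * v = v * y := by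
    intro v hv hvB
    have ha_v : a * v = v * a := hcon v hv hvB
    have hw : x⁻¹ * v * x ∈ V := by simpa using hVn.conj_mem v hv x⁻¹
    have hwB : ∀ b ∈ B, b * (x⁻¹ * v * x) = (x⁻¹ * v * x) * b := by
      intro b hb
      have hcomm : π b * π x⁻¹ = π x⁻¹ * π b := by
        rw [map_inv]
        exact (Commute.inv_right (show Commute (π b) (π x) from hbx b hb)).eq
      have h1 := hconj x⁻¹ b hcomm v hv
      have h2 : b * v * b⁻¹ = v := by rw [hvB b hb]; group
      rw [h2] at h1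
      have h1' : b * (x⁻¹ * v * x) * b⁻¹ = x⁻¹ * v * x := by simpa using h1
      calc b * (x⁻¹ * v * x) = (b * (x⁻¹ * v * x) * b⁻¹) * b := by group
        _ = (x⁻¹ * v * x) * b := by rw [h1']
    have ha_w : a * (x⁻¹ * v * x) = (x⁻¹ * v * x) * a := hcon _ hw hwB
    have e1 : a⁻¹ * v = v * a⁻¹ := by
      have := congrArg (fun t => a⁻¹ * t * a⁻¹) ha_v
      simpa [mul_assoc] using this.symm
    calc y * v = x * a * x⁻¹ * (a⁻¹ * v) := by rw [hy]; group
      _ = x * a * x⁻¹ * (v * a⁻¹) := by rw [e1]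
      _ = x * (a * (x⁻¹ * v * x)) * x⁻¹ * a⁻¹ := by group
      _ = x * ((x⁻¹ * v * x) * a) * x⁻¹ * a⁻¹ := by rw [ha_w]
      _ = v * y := by rw [hy]; group
  obtain ⟨v0, hv0, hv0y⟩ : ∃ v ∈ V, y * v ≠ v * y := by
    by_contra h
    push_neg at h
    exact hyC (Subgroup.mem_centralizer_iff.mpr (fun v hv => (h v hv).symm))
  let W : Subgroup H :=
    { carrier := {w | ∃ v ∈ V, w = v * (y * v * y⁻¹)}
      one_mem' := ⟨1, one_mem _, by group⟩
      mul_mem' := by
        rintro _ _ ⟨v, hv, rfl⟩ ⟨v', hv', rfl⟩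
        refine ⟨v * v', mul_mem hv hv', ?_⟩
        have h1 : y * v * y⁻¹ ∈ V := hVn.conj_mem v hv y
        have h2 := hVc _ h1 _ hv'
        calc v * (y * v * y⁻¹) * (v' * (y * v' * y⁻¹))
            = v * ((y * v * y⁻¹) * v') * (y * v' * y⁻¹) := by group
          _ = v * (v' * (y * v * y⁻¹)) * (y * v' * y⁻¹) := by rw [h2]
          _ = v * v' * (y * (v * v') * y⁻¹) := by group
      inv_mem' := by
        rintro _ ⟨v, hv, rfl⟩
        refine ⟨v, hv, ?_⟩
        have h1 : v * (y * v * y⁻¹) ∈ V := mul_mem hv (hVn.conj_mem v hv y)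
        exact inv_eq_of_mul_eq_one_left (hV2 _ h1) }
  have hWmem : ∀ w : H, w ∈ W ↔ ∃ v ∈ V, w = v * (y * v * y⁻¹) := fun w => Iff.rfl
  have hWV : W ≤ V := by
    rintro _ ⟨v, hv, rfl⟩
    exact mul_mem hv (hVn.conj_mem v hv y)
  have hWne : W ≠ ⊥ := by
    intro h
    have h1 : v0 * (y * v0 * y⁻¹) ∈ W := ⟨v0, hv0, rfl⟩
    rw [h, Subgroup.mem_bot] at h1
    apply hv0y
    have h2 : y * v0 * y⁻¹ = v0 := by
      have := congrArg (fun t => v0 * t) h1
      simp only [← mul_assoc, hV2 v0 hv0, one_mul, mul_one] at this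
      exact this
    calc y * v0 = (y * v0 * y⁻¹) * y := by group
      _ = v0 * y := by rw [h2]
  have hBW : ∀ b ∈ B, ∀ w ∈ W, b * w * b⁻¹ ∈ W := by
    rintro b hb _ ⟨v, hv, rfl⟩
    refine ⟨b * v * b⁻¹, hVn.conj_mem v hv b, ?_⟩
    rw [← hconj y b (hby b hb) v hv]; group
  letI : MulAction ↥B ↥W :=
    { smul := fun b w => ⟨(b : H) * (w : H) * (b : H)⁻¹, hBW b b.2 w w.2⟩
      one_smul := fun w => Subtype.ext (by
        show ((1 : ↥B) : H) * (w : H) * ((1 : ↥B) : H)⁻¹ = w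
        simp)
      mul_smul := fun b b' w => Subtype.ext (by
        show ((b * b' : ↥B) : H) * (w : H) * ((b * b' : ↥B) : H)⁻¹ =
          (b : H) * ((b' : H) * (w : H) * (b' : H)⁻¹) * (b : H)⁻¹
        simp [mul_assoc]) }
  have hB2 : IsPGroup 2 ↥B := hA2g.to_le inf_le_right
  have hW2 : IsPGroup 2 ↥W := hV2g.to_le hWV
  have hWcard : 2 ∣ Nat.card ↥W := by
    obtain ⟨k, hk⟩ := IsPGroup.iff_card.mp hW2
    rw [hk]
    have hk0 : k ≠ 0 := by
      rintro rfl
      rw [pow_zero] at hk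
      exact hWne (Subgroup.card_eq_one.mp hk)
    exact dvd_pow_self 2 hk0
  have h1fix : (1 : ↥W) ∈ MulAction.fixedPoints ↥B ↥W := by
    intro b
    apply Subtype.ext
    show (b : H) * ((1 : ↥W) : H) * (b : H)⁻¹ = ((1 : ↥W) : H)
    simp
  obtain ⟨w, hwfix, hw1⟩ :=
    hB2.exists_fixed_point_of_prime_dvd_card_of_fixed_point ↥W hWcard h1fix
  obtain ⟨v, hv, hwv⟩ := (hWmem (w : H)).mp w.2
  have hwV : (w : H) ∈ V := hWV w.2
  have hwB : ∀ b ∈ B, b * (w : H) = (w : H) * b := by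
    intro b hb
    have h1 := hwfix ⟨b, hb⟩
    have h2 : b * (w : H) * b⁻¹ = (w : H) := congrArg Subtype.val h1
    calc b * (w : H) = (b * (w : H) * b⁻¹) * b := by group
      _ = (w : H) * b := by rw [h2]
  have hyw_comm : y * (w : H) = (w : H) * y := hV1 _ hwV hwB
  have hyw : y * (w : H) * y⁻¹ = (w : H) := by rw [hyw_comm]; group
  have hyv : y * v * y⁻¹ = v * (w : H) := by
    rw [hwv, ← mul_assoc, hV2 v hv, one_mul]
  have hind : ∀ i : ℕ, y ^ i * v * (y ^ i)⁻¹ = v * (w : H) ^ i := by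
    intro i
    induction i with
    | zero => simp
    | succ i ih =>
      calc y ^ (i + 1) * v * (y ^ (i + 1))⁻¹ = y * (y ^ i * v * (y ^ i)⁻¹) * y⁻¹ := by
            rw [pow_succ']; group
        _ = y * (v * (w : H) ^ i) * y⁻¹ := by rw [ih]
        _ = (y * v * y⁻¹) * (y * (w : H) * y⁻¹) ^ i := by rw [conj_pow]; group
        _ = v * (w : H) * (w : H) ^ i := by rw [hyv, hyw]
        _ = v * (w : H) ^ (i + 1) := by rw [pow_succ']; group
  set n := orderOf (π y) with hn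
  have hnodd : Odd n := by
    have h1 : n ∣ Nat.card N := Subgroup.orderOf_dvd_natCard N hπyN
    have h2 : (n).Coprime 2 := Nat.Coprime.coprime_dvd_left h1 hNodd
    exact Nat.Coprime.odd_of_right h2
  have hynC : y ^ n ∈ C := by
    apply (hker _).mp
    rw [map_pow, hn, pow_orderOf_eq_one]
  have hn1 := hind n
  have hcen : y ^ n * v * (y ^ n)⁻¹ = v := by
    have := (Subgroup.mem_centralizer_iff.mp hynC) v hv
    rw [← this]; group
  rw [hcen] at hn1
  have hwn : (w : H) ^ n = 1 := by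
    have := congrArg (fun t => v⁻¹ * t) hn1
    simpa using this.symm
  obtain ⟨m, hm⟩ := hnodd
  have hw2 : (w : H) * (w : H) = 1 := hV2 _ hwV
  have hwone : (w : H) = 1 := by
    rw [hm, pow_succ, pow_mul, pow_two, hw2, one_pow, one_mul] at hwn
    exact hwn
  exact hw1 (Subtype.ext hwone.symm)

section SubgroupLevel

variable {G : Type*} [Group G]

/-- "`O₂(L/C_L(V)) = 1`", for subgroups `V ≤ L` of `G` with `L ≤ N_G(V)`. -/
def NoTwoCoreMod (L V : Subgroup G) : Prop :=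
  ∀ _ : (V.subgroupOf L).Normal,
    Cfsg.pCore 2 (↥L ⧸ Subgroup.centralizer ((V.subgroupOf L : Subgroup ↥L) : Set ↥L)) = ⊥

theorem subgroupOf_normal_of_le_normalizer (L V : Subgroup G)
    (hLV : L ≤ Subgroup.normalizer (V : Set G)) : (V.subgroupOf L).Normal := by
  constructor
  intro v hv l
  rw [Subgroup.mem_subgroupOf] at hv ⊢
  have := (Subgroup.mem_normalizer_iff.mp (hLV l.2) (v : G)).mp hv
  simpa using this

theorem mem_centralizer_subgroupOf (L V : Subgroup G) (hVL : V ≤ L) (c : ↥L) :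
    c ∈ Subgroup.centralizer ((V.subgroupOf L : Subgroup ↥L) : Set ↥L) ↔
      (c : G) ∈ Subgroup.centralizer (V : Set G) := by
  rw [Subgroup.mem_centralizer_iff, Subgroup.mem_centralizer_iff]
  constructor
  · intro h v hv
    have := h ⟨v, hVL hv⟩ (Subgroup.mem_subgroupOf.mpr hv)
    exact congrArg Subtype.val this
  · intro h v hv
    exact Subtype.ext (h (v : G) (Subgroup.mem_subgroupOf.mp hv))

/-- How the `T = S` case supplies `NoTwoCoreMod`: `C_L(V)` normalizes a Sylow 2-subgroup of `G` lying in `L`,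
and every 2-subgroup normalized by `L` centralizes `V`. -/
theorem noTwoCoreMod_of [Finite G] (L V : Subgroup G) (S : Sylow 2 G)
    (hSL : (S : Subgroup G) ≤ L) (hVL : V ≤ L) (hLV : L ≤ Subgroup.normalizer (V : Set G))
    (hC : L ⊓ Subgroup.centralizer (V : Set G) ≤ Subgroup.normalizer ((S : Subgroup G) : Set G))
    (hQ : ∀ N : Subgroup G, N ≤ L → IsPGroup 2 ↥N → L ≤ Subgroup.normalizer (N : Set G) →
      N ≤ Subgroup.centralizer (V : Set G)) : NoTwoCoreMod L V := by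
  intro hVn
  refine pCore_quot_eq_bot (V.subgroupOf L) (S.subtype hSL) ?_ ?_
  · intro c hc
    have h1 : (c : G) ∈ Subgroup.normalizer ((S : Subgroup G) : Set G) :=
      hC ⟨c.2, (mem_centralizer_subgroupOf L V hVL c).mp hc⟩
    rw [Subgroup.mem_normalizer_iff] at h1 ⊢
    intro s
    show s ∈ (S : Subgroup G).subgroupOf L ↔ c * s * c⁻¹ ∈ (S : Subgroup G).subgroupOf L
    rw [Subgroup.mem_subgroupOf, Subgroup.mem_subgroupOf]
    simpa using h1 (s : G)
  · intro N hNn hN2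
    have h1 : N.map L.subtype ≤ Subgroup.centralizer (V : Set G) := by
      apply hQ
      · rintro _ ⟨n, _, rfl⟩; exact n.2
      · exact hN2.map _
      · intro l hl
        rw [Subgroup.mem_normalizer_iff]
        intro g
        constructor
        · rintro ⟨n, hn, rfl⟩
          exact ⟨⟨l, hl⟩ * n * ⟨l, hl⟩⁻¹, hNn.conj_mem n hn _, by simp⟩
        · rintro ⟨n, hn, hng⟩
          refine ⟨⟨l, hl⟩⁻¹ * n * ⟨l, hl⟩, by simpa using hNn.conj_mem n hn ⟨l, hl⟩⁻¹, ?_⟩
          simp only [Subgroup.coe_subtype, Subgroup.coe_mul, Subgroup.coe_inv] at hng ⊢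
          rw [hng]; group
    intro n hn
    exact (mem_centralizer_subgroupOf L V hVL n).mpr (h1 ⟨n, hn, rfl⟩)

/-- (MI') A nontrivial elementary abelian 2-subgroup `A` of `L` acting faithfully on `V` has a subgroup `B`
with `A = B⟨a⟩`, `a ∉ B`, and `C_V(B) ≠ C_V(A)`. -/
theorem hyperplane_fix [Finite G] (L V A : Subgroup G) (hVL : V ≤ L)
    (hLV : L ≤ Subgroup.normalizer (V : Set G)) (hsolv : Group.IsSolvable ↥L)
    (hV2 : ∀ v ∈ V, v * v = 1) (hVc : ∀ v ∈ V, ∀ w ∈ V, v * w = w * v)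
    (hO : NoTwoCoreMod L V)
    (hAL : A ≤ L) (hA2 : ∀ a ∈ A, a * a = 1) (hAc : ∀ a ∈ A, ∀ b ∈ A, a * b = b * a)
    (hAV : A ⊓ Subgroup.centralizer (V : Set G) = ⊥) (hA : A ≠ ⊥) :
    ∃ B : Subgroup G, ∃ a ∈ A, B ≤ A ∧ a ∉ B ∧ B ⊔ Subgroup.zpowers a = A ∧
      ∃ v ∈ V, (∀ b ∈ B, b * v = v * b) ∧ a * v ≠ v * a := by
  have hVn : (V.subgroupOf L).Normal := subgroupOf_normal_of_le_normalizer L V hLV
  obtain ⟨B', a', ha', hB'A, ha'B, hsup, v', hv', hvB, hva⟩ := core (H := ↥L) (V.subgroupOf L)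
    (fun v hv => Subtype.ext (hV2 (v : G) (Subgroup.mem_subgroupOf.mp hv)))
    (fun v hv w hw => Subtype.ext (hVc (v : G) (Subgroup.mem_subgroupOf.mp hv) (w : G)
      (Subgroup.mem_subgroupOf.mp hw)))
    (hO hVn) (A.subgroupOf L)
    (fun a ha => Subtype.ext (hA2 (a : G) (Subgroup.mem_subgroupOf.mp ha)))
    (fun a ha b hb => Subtype.ext (hAc (a : G) (Subgroup.mem_subgroupOf.mp ha) (b : G)
      (Subgroup.mem_subgroupOf.mp hb)))
    (by
      rw [eq_bot_iff]
      intro x hx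
      have h1 : (x : G) ∈ A ⊓ Subgroup.centralizer (V : Set G) :=
        ⟨Subgroup.mem_subgroupOf.mp hx.1, (mem_centralizer_subgroupOf L V hVL x).mp hx.2⟩
      rw [hAV, Subgroup.mem_bot] at h1
      rw [Subgroup.mem_bot]
      exact Subtype.ext h1)
    (by
      intro h
      apply hA
      rw [eq_bot_iff]
      intro a ha
      have : (⟨a, hAL ha⟩ : ↥L) ∈ A.subgroupOf L := Subgroup.mem_subgroupOf.mpr ha
      rw [h, Subgroup.mem_bot] at this
      rw [Subgroup.mem_bot]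
      exact congrArg Subtype.val this)
  refine ⟨B'.map L.subtype, (a' : G), Subgroup.mem_subgroupOf.mp ha', ?_, ?_, ?_, (v' : G),
    Subgroup.mem_subgroupOf.mp hv', ?_, ?_⟩
  · rintro _ ⟨b, hb, rfl⟩
    exact Subgroup.mem_subgroupOf.mp (hB'A hb)
  · rintro ⟨b, hb, hba⟩
    have : b = a' := Subtype.ext hba
    exact ha'B (this ▸ hb)
  · have h1 : (B' ⊔ Subgroup.zpowers a').map L.subtype = (A.subgroupOf L).map L.subtype := by
      rw [hsup]
    rw [Subgroup.map_sup, MonoidHom.map_zpowers, Subgroup.map_subgroupOf_eq_of_le hAL] at h1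
    exact h1
  · rintro _ ⟨b, hb, rfl⟩
    exact congrArg Subtype.val (hvB b hb)
  · intro h
    exact hva (Subtype.ext h)

/-- (Q4), coordinate-free: an elementary abelian 2-subgroup `A` of `L`, faithful on `V`, all of whose
nonidentity elements have the same fixed points on `V`, has order at most 2. -/
theorem common_fix [Finite G] (L V A : Subgroup G) (hVL : V ≤ L)
    (hLV : L ≤ Subgroup.normalizer (V : Set G)) (hsolv : Group.IsSolvable ↥L)
    (hV2 : ∀ v ∈ V, v * v = 1) (hVc : ∀ v ∈ V, ∀ w ∈ V, v * w = w * v)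
    (hO : NoTwoCoreMod L V)
    (hAL : A ≤ L) (hA2 : ∀ a ∈ A, a * a = 1) (hAc : ∀ a ∈ A, ∀ b ∈ A, a * b = b * a)
    (hAV : A ⊓ Subgroup.centralizer (V : Set G) = ⊥)
    (hF : ∀ a ∈ A, a ≠ 1 → ∀ b ∈ A, b ≠ 1 → ∀ v ∈ V, (a * v = v * a ↔ b * v = v * b)) :
    ∀ a ∈ A, ∀ b ∈ A, a ≠ 1 → b ≠ 1 → a = b := by
  intro a ha b hb ha1 hb1
  have hA : A ≠ ⊥ := fun h => ha1 (by rw [h, Subgroup.mem_bot] at ha; exact ha)
  obtain ⟨B, a₁, ha₁, hBA, ha₁B, hsup, v, hv, hvB, hva⟩ :=
    hyperplane_fix L V A hVL hLV hsolv hV2 hVc hO hAL hA2 hAc hAV hA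
  have ha₁1 : a₁ ≠ 1 := fun h => ha₁B (h ▸ one_mem B)
  have hB : B = ⊥ := by
    rw [eq_bot_iff]
    intro b' hb'
    rw [Subgroup.mem_bot]
    by_contra hb'1
    exact hva (((hF b' (hBA hb') hb'1 a₁ ha₁ ha₁1) v hv).mp (hvB b' hb'))
  rw [hB, bot_sup_eq] at hsup
  have hAel : ∀ g ∈ A, g = 1 ∨ g = a₁ := by
    intro g hg
    rw [← hsup] at hg
    obtain ⟨i, rfl⟩ := Subgroup.mem_zpowers_iff.mp hg
    rcases Int.even_or_odd' i with ⟨k, rfl | rfl⟩
    · left; rw [zpow_mul, zpow_two, hA2 a₁ ha₁, one_zpow]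
    · right; rw [zpow_add, zpow_mul, zpow_two, hA2 a₁ ha₁, one_zpow, one_mul, zpow_one]
  rcases hAel a ha with h | h
  · exact absurd h ha1
  · rcases hAel b hb with h' | h'
    · exact absurd h' hb1
    · rw [h, h']

end SubgroupLevel

end Cfsg.Agent.H1.Jt
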