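import Cfsg.Agent.H59.JzKillDefs
import Cfsg.Agent.H1.JtMod
import Cfsg.Agent.H63.SnIfV
import Cfsg.Agent.H59.SoConj
import Cfsg.Agent.H51.Amalgam

/-!
# JZ-KILL piece K-FOUR (S2951 / S2952): no four-group of `N_G(V)`, `V = Ω₁Z(O₂(L))`, whose three
involutions have the same fixed points on `V`
-/

set_option autoImplicit false
open Cfsg

namespace Cfsg.Agent.H1.JzK

open Cfsg.Agent.H64.Jz Cfsg.Agent.H59.JzK

universe u

/-- The four-group `{1, a, b, ab}` of two commuting involutions. -/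
def fourGroup {G : Type u} [Group G] (a b : G) (ha : a * a = 1) (hb : b * b = 1)
    (hab : a * b = b * a) : Subgroup G where
  carrier := {1, a, b, a * b}
  one_mem' := by simp
  mul_mem' := by
    intro x y hx hy
    have h1 : ∀ z, a * (a * z) = z := fun z => by rw [← mul_assoc, ha, one_mul]
    have h2 : ∀ z, b * (b * z) = z := fun z => by rw [← mul_assoc, hb, one_mul]
    have h3 : ∀ z, b * (a * z) = a * (b * z) := fun z => by rw [← mul_assoc, ← hab, mul_assoc]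
    simp only [Set.mem_insert_iff, Set.mem_singleton_iff] at hx hy ⊢
    rcases hx with hx | hx | hx | hx <;> rcases hy with hy | hy | hy | hy <;>
      simp [hx, hy, mul_assoc, h1, h2, h3, hab.symm, ha, hb]
  inv_mem' := by
    intro x hx
    have ea : a⁻¹ = a := inv_eq_of_mul_eq_one_left ha
    have eb : b⁻¹ = b := inv_eq_of_mul_eq_one_left hb
    simp only [Set.mem_insert_iff, Set.mem_singleton_iff] at hx ⊢
    rcases hx with hx | hx | hx | hx
    · simp [hx]
    · simp [hx, ea]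
    · simp [hx, eb]
    · right; right; right
      rw [hx, mul_inv_rev, ea, eb, hab]

theorem mem_fourGroup {G : Type u} [Group G] (a b : G) (ha : a * a = 1) (hb : b * b = 1)
    (hab : a * b = b * a) (x : G) :
    x ∈ fourGroup a b ha hb hab ↔ x = 1 ∨ x = a ∨ x = b ∨ x = a * b := Iff.rfl

theorem map_conj_eq_of_mem_normalizer {G : Type u} [Group G] {X : Subgroup G} {g : G}
    (hg : g ∈ Subgroup.normalizer (X : Set G)) : X.map (MulAut.conj g).toMonoidHom = X := by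
  ext x
  constructor
  · rintro ⟨y, hy, rfl⟩
    exact (Subgroup.mem_normalizer_iff.mp hg y).mp hy
  · intro hx
    refine ⟨g⁻¹ * x * g, ?_, by simp [mul_assoc]⟩
    exact (Subgroup.mem_normalizer_iff.mp hg _).mpr (by simpa [mul_assoc] using hx)

theorem mem_normalizer_of_map_conj {G : Type u} [Group G] (X : Subgroup G) (g : G)
    (h : X.map (MulAut.conj g).toMonoidHom = X) (h' : X.map (MulAut.conj g⁻¹).toMonoidHom = X) :
    g ∈ Subgroup.normalizer (X : Set G) := by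
  rw [Subgroup.mem_normalizer_iff]
  intro x
  constructor
  · intro hx
    have h2 : (MulAut.conj g).toMonoidHom x ∈ X.map (MulAut.conj g).toMonoidHom :=
      Subgroup.mem_map_of_mem _ hx
    rw [h] at h2
    simpa using h2
  · intro hx
    have h2 : (MulAut.conj g⁻¹).toMonoidHom (g * x * g⁻¹) ∈ X.map (MulAut.conj g⁻¹).toMonoidHom :=
      Subgroup.mem_map_of_mem _ hx
    rw [h'] at h2
    simpa [mul_assoc] using h2

/-- K-FOUR. -/
theorem kFour : StKFour.{u} := by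
  intro G _ _ S M K L T' K' L' hR b₁ hb₁ b₂ hb₂ hb₁2 hb₂2 hcomm hsame
  classical
  by_contra hcon
  push_neg at hcon
  obtain ⟨hn1, hn2, hn12⟩ := hcon
  obtain ⟨hB, -, hB', -⟩ := hR
  obtain ⟨⟨hc2, hsolv, hZ⟩, -, -, -, -, -, -, hLmax, -⟩ := hB
  obtain ⟨-, -, -, hNJL, -, -, -, -, -⟩ := hB'
  have hS2 : IsPGroup 2 ↥(S : Subgroup G) := S.isPGroup'
  -- `S ≤ L`
  have hSL : (S : Subgroup G) ≤ L := by
    refine le_trans ?_ hNJL
    intro s hs
    exact mem_normalizer_of_map_conj _ s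
      (Cfsg.Agent.H59.So.thompson_map_conj_self (T := (S : Subgroup G)) hs)
      (Cfsg.Agent.H59.So.thompson_map_conj_self (T := (S : Subgroup G)) (inv_mem hs))
  -- `Q = O₂(L)`
  have hQ2 : IsPGroup 2 ↥(pCoreOf 2 L) := Cfsg.Agent.H51.pCoreOf_isPGroup 2 L
  have hQL : pCoreOf 2 L ≤ L := Cfsg.Agent.H51.pCoreOf_le 2 L
  have hLQ : L ≤ Subgroup.normalizer (pCoreOf 2 L : Set G) := Cfsg.Agent.H51.le_normalizer_pCoreOf 2 L
  obtain ⟨T₀, hT₀2, hT₀ne, hLT₀⟩ := hLmax.1
  have hT₀Q : T₀ ≤ pCoreOf 2 L :=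
    Cfsg.Agent.H51.le_pCoreOf 2 (by rw [hLT₀]; exact Subgroup.le_normalizer) hLT₀.le hT₀2
  have hQne : pCoreOf 2 L ≠ ⊥ := fun h => hT₀ne (le_bot_iff.mp (h ▸ hT₀Q))
  have hNQ : Subgroup.normalizer (pCoreOf 2 L : Set G) = L :=
    hLmax.2 _ ⟨pCoreOf 2 L, hQ2, hQne, rfl⟩ hLQ
  have hchar : IsOfCharacteristicTwo ↥L := hLT₀ ▸ hc2.2 T₀ hT₀2 hT₀ne
  have hCQ : Subgroup.centralizer (pCoreOf 2 L : Set G) ≤ pCoreOf 2 L := by
    intro x hx
    have hxL : x ∈ L := by
      have : x ∈ Subgroup.normalizer (pCoreOf 2 L : Set G) :=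
        Subgroup.centralizer_le_normalizer _ hx
      rwa [hNQ] at this
    have h1 : (⟨x, hxL⟩ : ↥L) ∈ Subgroup.centralizer (pCore 2 ↥L : Set ↥L) := by
      rw [Subgroup.mem_centralizer_iff]
      intro q hq
      apply Subtype.ext
      have hqQ : (q : G) ∈ pCoreOf 2 L := ⟨q, hq, rfl⟩
      exact (Subgroup.mem_centralizer_iff.mp hx) (q : G) hqQ
    exact ⟨⟨x, hxL⟩, hchar h1, rfl⟩
  have hQS : pCoreOf 2 L ≤ (S : Subgroup G) := by
    have h1 : IsPGroup 2 ↥((S : Subgroup G) ⊔ pCoreOf 2 L) :=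
      IsPGroup.to_sup_of_normal_right' hS2 hQ2 (hSL.trans hLQ)
    have h2 := S.is_maximal' h1 le_sup_left
    rw [← h2]; exact le_sup_right
  -- `V`
  have hVmem : ∀ v ∈ Vof L, v ∈ pCoreOf 2 L ∧ v ∈ Subgroup.centralizer (pCoreOf 2 L : Set G) ∧
      v ^ 2 = 1 := fun v hv => Cfsg.Agent.H63.Sn.mem_omegaCenterOf (pCoreOf 2 L) hv
  have hVQ : Vof L ≤ pCoreOf 2 L := fun v hv => (hVmem v hv).1
  have hVL : Vof L ≤ L := hVQ.trans hQL
  have hV2 : ∀ v ∈ Vof L, v * v = 1 := fun v hv => by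
    have := (hVmem v hv).2.2
    rwa [pow_two] at this
  have hVc : ∀ v ∈ Vof L, ∀ w ∈ Vof L, v * w = w * v := fun v hv w hw =>
    ((Subgroup.mem_centralizer_iff.mp (hVmem v hv).2.1) w (hVQ hw)).symm
  have hLV : L ≤ Subgroup.normalizer (Vof L : Set G) := by
    intro l hl
    have key : ∀ g ∈ L, (Vof L).map (MulAut.conj g).toMonoidHom = Vof L := by
      intro g hg
      have h1 := Cfsg.Agent.H59.So.omegaCenterOf_map_conj g (pCoreOf 2 L)
      rw [map_conj_eq_of_mem_normalizer (hLQ hg)] at h1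
      exact h1.symm
    exact mem_normalizer_of_map_conj _ l (key l hl) (key l⁻¹ (inv_mem hl))
  by_cases hVbot : Vof L = ⊥
  · apply hn1
    rw [Subgroup.mem_centralizer_iff]
    intro h hh
    have hh' : h ∈ Vof L := hh
    rw [hVbot, Subgroup.mem_bot] at hh'
    subst hh'
    simp
  have hV2g : IsPGroup 2 ↥(Vof L) := hQ2.to_le hVQ
  have hNV : Subgroup.normalizer (Vof L : Set G) = L :=
    hLmax.2 _ ⟨Vof L, hV2g, hVbot, rfl⟩ hLV
  rw [hNV] at hb₁ hb₂
  -- `Ω₁Z(S) ≤ V`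
  have hZV : omegaCenterOf (S : Subgroup G) ≤ Vof L := by
    apply Cfsg.Agent.H51.omegaOne_mono 2
    intro x hx
    have hxc : x ∈ Subgroup.centralizer (pCoreOf 2 L : Set G) :=
      Subgroup.centralizer_le (SetLike.coe_subset_coe.mpr hQS) hx.2
    exact ⟨hCQ hxc, hxc⟩
  have hC : L ⊓ Subgroup.centralizer (Vof L : Set G) ≤
      Subgroup.normalizer ((S : Subgroup G) : Set G) := by
    intro x hx
    exact hZ S (Subgroup.centralizer_le (SetLike.coe_subset_coe.mpr hZV) hx.2)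
  have hQ' : ∀ N : Subgroup G, N ≤ L → IsPGroup 2 ↥N → L ≤ Subgroup.normalizer (N : Set G) →
      N ≤ Subgroup.centralizer (Vof L : Set G) := by
    intro N hNL hN2 hLN n hn
    have hnQ : n ∈ pCoreOf 2 L := Cfsg.Agent.H51.le_pCoreOf 2 hNL hLN hN2 hn
    rw [Subgroup.mem_centralizer_iff]
    intro v hv
    exact ((Subgroup.mem_centralizer_iff.mp (hVmem v hv).2.1) n hnQ).symm
  have hO := Cfsg.Agent.H1.Jt.noTwoCoreMod_of L (Vof L) S hSL hVL hLV hC hQ'
  have hsolvL : Group.IsSolvable ↥L := hsolv L hLmax.1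
  -- the four-group
  have hAmem := mem_fourGroup b₁ b₂ hb₁2 hb₂2 hcomm
  have hb12L : b₁ * b₂ ∈ L := mul_mem hb₁ hb₂
  have h1 : ∀ z, b₁ * (b₁ * z) = z := fun z => by rw [← mul_assoc, hb₁2, one_mul]
  have h2 : ∀ z, b₂ * (b₂ * z) = z := fun z => by rw [← mul_assoc, hb₂2, one_mul]
  have h3 : ∀ z, b₂ * (b₁ * z) = b₁ * (b₂ * z) := fun z => by
    rw [← mul_assoc, ← hcomm, mul_assoc]
  have hone : (1 : G) ∈ Subgroup.centralizer (Vof L : Set G) := one_mem _
  have hb₁ne : b₁ ≠ 1 := fun h => hn1 (h ▸ hone)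
  have hb₂ne : b₂ ≠ 1 := fun h => hn2 (h ▸ hone)
  have hkey : ∀ x ∈ fourGroup b₁ b₂ hb₁2 hb₂2 hcomm, x ≠ 1 → ∀ v ∈ Vof L,
      (x * v = v * x ↔ b₁ * v = v * b₁) := by
    intro x hx hx1 v hv
    rcases (hAmem x).mp hx with h | h | h | h
    · exact absurd h hx1
    · rw [h]
    · rw [h]; exact (hsame v hv).1.symm
    · rw [h]; exact (hsame v hv).2.symm
  have hfin := Cfsg.Agent.H1.Jt.common_fix L (Vof L) (fourGroup b₁ b₂ hb₁2 hb₂2 hcomm) hVL hLV
    hsolvL hV2 hVc hO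
    (by
      intro x hx
      rcases (hAmem x).mp hx with h | h | h | h
      · rw [h]; exact one_mem _
      · rw [h]; exact hb₁
      · rw [h]; exact hb₂
      · rw [h]; exact hb12L)
    (by
      intro x hx
      rcases (hAmem x).mp hx with h | h | h | h <;>
        simp [h, mul_assoc, h1, h2, h3, hcomm.symm, hb₁2, hb₂2])
    (by
      intro x hx y hy
      rcases (hAmem x).mp hx with h | h | h | h <;> rcases (hAmem y).mp hy with h' | h' | h' | h' <;>
        simp [h, h', mul_assoc, h1, h2, h3, hcomm.symm, hb₁2, hb₂2])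
    (by
      rw [eq_bot_iff]
      intro x hx
      rw [Subgroup.mem_bot]
      rcases (hAmem x).mp hx.1 with h | h | h | h
      · exact h
      · exact absurd (h ▸ hx.2) hn1
      · exact absurd (h ▸ hx.2) hn2
      · exact absurd (h ▸ hx.2) hn12)
    (by
      intro x hx hx1 y hy hy1 v hv
      exact (hkey x hx hx1 v hv).trans (hkey y hy hy1 v hv).symm)
    b₁ ((hAmem b₁).mpr (Or.inr (Or.inl rfl))) b₂ ((hAmem b₂).mpr (Or.inr (Or.inr (Or.inl rfl))))
    hb₁ne hb₂ne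
  apply hn12
  rw [← hfin, hb₁2]
  exact hone

example : Cfsg.Agent.H59.JzK.StKFour.{u} := kFour

end Cfsg.Agent.H1.JzK

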