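import Cfsg.Agent.H84.JkCent
import Cfsg.Agent.H1.JkFour
import Cfsg.Agent.H1.Basic

/-!
# JZ-KILL sub-piece K-MI (S2951 / S2952): no over-offenders on `V = Ω₁Z(O₂(L))`
-/

set_option autoImplicit false
open Cfsg

namespace Cfsg.Agent.H1.Jt

universe u

/-- (MI) No over-offenders: an elementary abelian 2-subgroup `A` of `L` acting faithfully on `V` has
`|A| · |C_V(A)| ≤ |V|`. -/
theorem no_over_offender {G : Type u} [Group G] [Finite G] (L V : Subgroup G) (hVL : V ≤ L)
    (hLV : L ≤ Subgroup.normalizer (V : Set G)) (hsolv : Group.IsSolvable ↥L)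
    (hV2 : ∀ v ∈ V, v * v = 1) (hVc : ∀ v ∈ V, ∀ w ∈ V, v * w = w * v)
    (hO : NoTwoCoreMod L V) :
    ∀ (n : ℕ) (A : Subgroup G), Nat.card ↥A ≤ n → A ≤ L → (∀ a ∈ A, a * a = 1) →
      (∀ a ∈ A, ∀ b ∈ A, a * b = b * a) → A ⊓ Subgroup.centralizer (V : Set G) = ⊥ →
      Nat.card ↥A * Nat.card ↥(V ⊓ Subgroup.centralizer (A : Set G)) ≤ Nat.card ↥V := by
  classical
  intro n
  induction n with
  | zero =>
    intro A hn
    have : 0 < Nat.card ↥A := Nat.card_pos
    omega
  | succ n ih =>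
    intro A hn hAL hA2 hAc hAV
    by_cases hA : A = ⊥
    · subst hA
      have h1 : V ⊓ Subgroup.centralizer (((⊥ : Subgroup G) : Subgroup G) : Set G) = V := by
        apply inf_eq_left.mpr
        intro v _
        rw [Subgroup.mem_centralizer_iff]
        intro h hh
        have hh' : h ∈ (⊥ : Subgroup G) := hh
        rw [Subgroup.mem_bot] at hh'
        subst hh'
        simp
      rw [h1, Subgroup.card_bot, one_mul]
    · obtain ⟨B, a, haA, hBA, haB, hsup, v, hv, hvB, hva⟩ :=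
        hyperplane_fix L V A hVL hLV hsolv hV2 hVc hO hAL hA2 hAc hAV hA
      have hBlt : B < A := lt_of_le_of_ne hBA (fun h => haB (h ▸ haA))
      have hcardB : Nat.card ↥B < Nat.card ↥A := Cfsg.Agent.H1.card_lt_card_of_lt hBlt
      have hih := ih B (by omega) (hBA.trans hAL) (fun x hx => hA2 x (hBA hx))
        (fun x hx y hy => hAc x (hBA hx) y (hBA hy))
        (by
          rw [eq_bot_iff, ← hAV]
          exact inf_le_inf_right _ hBA)
      -- decomposition of `A = B ⊔ ⟨a⟩`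
      have hdec : ∀ x ∈ A, ∃ b ∈ B, x = b ∨ x = b * a := by
        intro x hx
        rw [← hsup, Subgroup.sup_eq_closure] at hx
        induction hx using Subgroup.closure_induction with
        | mem y hy =>
          rcases hy with hy | hy
          · exact ⟨y, hy, Or.inl rfl⟩
          · obtain ⟨i, rfl⟩ := Subgroup.mem_zpowers_iff.mp hy
            rcases Int.even_or_odd' i with ⟨k, rfl | rfl⟩
            · refine ⟨1, one_mem _, Or.inl ?_⟩
              rw [zpow_mul, zpow_two, hA2 a haA, one_zpow]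
            · refine ⟨1, one_mem _, Or.inr ?_⟩
              rw [zpow_add, zpow_mul, zpow_two, hA2 a haA, one_zpow, one_mul, zpow_one, one_mul]
        | one => exact ⟨1, one_mem _, Or.inl rfl⟩
        | mul y z _ _ hy hz =>
          obtain ⟨b, hb, hyb⟩ := hy
          obtain ⟨b', hb', hzb⟩ := hz
          have hc : a * b' = b' * a := hAc a haA b' (hBA hb')
          refine ⟨b * b', mul_mem hb hb', ?_⟩
          rcases hyb with h | h <;> rcases hzb with h' | h'
          · left; rw [h, h']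
          · right; rw [h, h']; group
          · right
            rw [h, h']
            calc b * a * b' = b * (a * b') := by group
              _ = b * (b' * a) := by rw [hc]
              _ = b * b' * a := by group
          · left
            rw [h, h']
            calc b * a * (b' * a) = b * (a * b') * a := by group
              _ = b * (b' * a) * a := by rw [hc]
              _ = b * b' * (a * a) := by group
              _ = b * b' := by rw [hA2 a haA, mul_one]
        | inv y _ hy =>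
          obtain ⟨b, hb, hyb⟩ := hy
          have hc : a * b⁻¹ = b⁻¹ * a := hAc a haA b⁻¹ (hBA (inv_mem hb))
          have ea : a⁻¹ = a := inv_eq_of_mul_eq_one_left (hA2 a haA)
          refine ⟨b⁻¹, inv_mem hb, ?_⟩
          rcases hyb with h | h
          · left; rw [h]
          · right
            rw [h, mul_inv_rev, ea, hc]
      have hcardA : Nat.card ↥A ≤ 2 * Nat.card ↥B := by
        have hsub : (A : Set G) ⊆ (B : Set G) ∪ (fun b => b * a) '' (B : Set G) := by
          intro x hx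
          obtain ⟨b, hb, h | h⟩ := hdec x hx
          · left; rw [h]; exact hb
          · right; exact ⟨b, hb, h.symm⟩
        have h1 : Nat.card ↥A = (A : Set G).ncard := Nat.card_coe_set_eq (A : Set G)
        have h2 : Nat.card ↥B = (B : Set G).ncard := Nat.card_coe_set_eq (B : Set G)
        rw [h1, h2]
        calc (A : Set G).ncard ≤ ((B : Set G) ∪ (fun b => b * a) '' (B : Set G)).ncard :=
              Set.ncard_le_ncard hsub (Set.toFinite _)
          _ ≤ (B : Set G).ncard + ((fun b => b * a) '' (B : Set G)).ncard := Set.ncard_union_le _ _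
          _ ≤ (B : Set G).ncard + (B : Set G).ncard :=
              Nat.add_le_add_left (Set.ncard_image_le (Set.toFinite _)) _
          _ = 2 * (B : Set G).ncard := by ring
      -- the fixed points drop by a factor 2
      have hle : V ⊓ Subgroup.centralizer (A : Set G) ≤ V ⊓ Subgroup.centralizer (B : Set G) :=
        inf_le_inf_left _ (Subgroup.centralizer_le (SetLike.coe_subset_coe.mpr hBA))
      have hvB' : v ∈ V ⊓ Subgroup.centralizer (B : Set G) := by
        refine Subgroup.mem_inf.mpr ⟨hv, ?_⟩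
        rw [Subgroup.mem_centralizer_iff]
        intro b hb
        exact hvB b hb
      have hvA : v ∉ V ⊓ Subgroup.centralizer (A : Set G) := by
        intro h
        exact hva ((Subgroup.mem_centralizer_iff.mp (Subgroup.mem_inf.mp h).2) a haA)
      have hlt : V ⊓ Subgroup.centralizer (A : Set G) < V ⊓ Subgroup.centralizer (B : Set G) :=
        lt_of_le_of_ne hle (fun h => hvA (h ▸ hvB'))
      have hdvd : Nat.card ↥(V ⊓ Subgroup.centralizer (A : Set G)) ∣
          Nat.card ↥(V ⊓ Subgroup.centralizer (B : Set G)) := Subgroup.card_dvd_of_le hle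
      have hlt' := Cfsg.Agent.H1.card_lt_card_of_lt hlt
      have hpos : 0 < Nat.card ↥(V ⊓ Subgroup.centralizer (A : Set G)) := Nat.card_pos
      have h2 : 2 * Nat.card ↥(V ⊓ Subgroup.centralizer (A : Set G)) ≤
          Nat.card ↥(V ⊓ Subgroup.centralizer (B : Set G)) := by
        obtain ⟨m, hm⟩ := hdvd
        rw [hm] at hlt' ⊢
        have hm2 : 2 ≤ m := by
          by_contra hcon
          interval_cases m
          · simp at hlt'
          · simp at hlt'
        calc 2 * Nat.card ↥(V ⊓ Subgroup.centralizer (A : Set G))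
            = Nat.card ↥(V ⊓ Subgroup.centralizer (A : Set G)) * 2 := by ring
          _ ≤ Nat.card ↥(V ⊓ Subgroup.centralizer (A : Set G)) * m := Nat.mul_le_mul_left _ hm2
      calc Nat.card ↥A * Nat.card ↥(V ⊓ Subgroup.centralizer (A : Set G))
          ≤ (2 * Nat.card ↥B) * Nat.card ↥(V ⊓ Subgroup.centralizer (A : Set G)) :=
            Nat.mul_le_mul_right _ hcardA
        _ = Nat.card ↥B * (2 * Nat.card ↥(V ⊓ Subgroup.centralizer (A : Set G))) := by ring
        _ ≤ Nat.card ↥B * Nat.card ↥(V ⊓ Subgroup.centralizer (B : Set G)) :=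
            Nat.mul_le_mul_left _ h2
        _ ≤ Nat.card ↥V := hih

end Cfsg.Agent.H1.Jt

namespace Cfsg.Agent.H1.JzK

open Cfsg.Agent.H64.Jz Cfsg.Agent.H59.JzK

universe u

/-- The module-theoretic facts of the residual situation, for `V = Ω₁Z(O₂(L))`. -/
theorem rctx_mod {G : Type u} [Group G] [Finite G] (S : Sylow 2 G) (M K L T' K' L' : Subgroup G)
    (hR : RCtx S M K L T' K' L') :
    (S : Subgroup G) ≤ L ∧ Vof L ≤ L ∧ L ≤ Subgroup.normalizer (Vof L : Set G) ∧
    Group.IsSolvable ↥L ∧ (∀ v ∈ Vof L, v * v = 1) ∧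
    (∀ v ∈ Vof L, ∀ w ∈ Vof L, v * w = w * v) ∧
    Cfsg.Agent.H1.Jt.NoTwoCoreMod L (Vof L) := by
  classical
  obtain ⟨hB, -, hB', -⟩ := hR
  obtain ⟨⟨hc2, hsolv, hZ⟩, -, -, -, -, -, -, hLmax, -⟩ := hB
  obtain ⟨-, -, -, hNJL, -, -, -, -, -⟩ := hB'
  have hS2 : IsPGroup 2 ↥(S : Subgroup G) := S.isPGroup'
  -- `S ≤ L`
  have hSL : (S : Subgroup G) ≤ L := by
    refine le_trans ?_ hNJL
    intro s hs
    exact mem_normalizer_of_map_conj _ s
      (Cfsg.Agent.H59.So.thompson_map_conj_self (T := (S : Subgroup G)) hs)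
      (Cfsg.Agent.H59.So.thompson_map_conj_self (T := (S : Subgroup G)) (inv_mem hs))
  -- `Q = O₂(L)`
  have hQ2 : IsPGroup 2 ↥(pCoreOf 2 L) := Cfsg.Agent.H51.pCoreOf_isPGroup 2 L
  have hQL : pCoreOf 2 L ≤ L := Cfsg.Agent.H51.pCoreOf_le 2 L
  have hLQ : L ≤ Subgroup.normalizer (pCoreOf 2 L : Set G) := Cfsg.Agent.H51.le_normalizer_pCoreOf 2 L
  obtain ⟨T₀, hT₀2, hT₀ne, hLT₀⟩ := hLmax.1
  have hT₀Q : T₀ ≤ pCoreOf 2 L :=
    Cfsg.Agent.H51.le_pCoreOf 2 (by rw [hLT₀]; exact Subgroup.le_normalizer) hLT₀.le hT₀2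
  have hQne : pCoreOf 2 L ≠ ⊥ := fun h => hT₀ne (le_bot_iff.mp (h ▸ hT₀Q))
  have hNQ : Subgroup.normalizer (pCoreOf 2 L : Set G) = L :=
    hLmax.2 _ ⟨pCoreOf 2 L, hQ2, hQne, rfl⟩ hLQ
  have hchar : IsOfCharacteristicTwo ↥L := hLT₀ ▸ hc2.2 T₀ hT₀2 hT₀ne
  have hCQ : Subgroup.centralizer (pCoreOf 2 L : Set G) ≤ pCoreOf 2 L := by
    intro x hx
    have hxL : x ∈ L := by
      have : x ∈ Subgroup.normalizer (pCoreOf 2 L : Set G) :=
        Subgroup.centralizer_le_normalizer _ hx
      rwa [hNQ] at this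
    have h1 : (⟨x, hxL⟩ : ↥L) ∈ Subgroup.centralizer (pCore 2 ↥L : Set ↥L) := by
      rw [Subgroup.mem_centralizer_iff]
      intro q hq
      apply Subtype.ext
      have hqQ : (q : G) ∈ pCoreOf 2 L := ⟨q, hq, rfl⟩
      exact (Subgroup.mem_centralizer_iff.mp hx) (q : G) hqQ
    exact ⟨⟨x, hxL⟩, hchar h1, rfl⟩
  have hQS : pCoreOf 2 L ≤ (S : Subgroup G) := by
    have h1 : IsPGroup 2 ↥((S : Subgroup G) ⊔ pCoreOf 2 L) :=
      IsPGroup.to_sup_of_normal_right' hS2 hQ2 (hSL.trans hLQ)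
    have h2 := S.is_maximal' h1 le_sup_left
    rw [← h2]; exact le_sup_right
  -- `V`
  have hVmem : ∀ v ∈ Vof L, v ∈ pCoreOf 2 L ∧ v ∈ Subgroup.centralizer (pCoreOf 2 L : Set G) ∧
      v ^ 2 = 1 := fun v hv => Cfsg.Agent.H63.Sn.mem_omegaCenterOf (pCoreOf 2 L) hv
  have hVQ : Vof L ≤ pCoreOf 2 L := fun v hv => (hVmem v hv).1
  have hVL : Vof L ≤ L := hVQ.trans hQL
  have hV2 : ∀ v ∈ Vof L, v * v = 1 := fun v hv => by
    have := (hVmem v hv).2.2
    rwa [pow_two] at this
  have hVc : ∀ v ∈ Vof L, ∀ w ∈ Vof L, v * w = w * v := fun v hv w hw =>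
    ((Subgroup.mem_centralizer_iff.mp (hVmem v hv).2.1) w (hVQ hw)).symm
  have hLV : L ≤ Subgroup.normalizer (Vof L : Set G) := by
    intro l hl
    have key : ∀ g ∈ L, (Vof L).map (MulAut.conj g).toMonoidHom = Vof L := by
      intro g hg
      have h1 := Cfsg.Agent.H59.So.omegaCenterOf_map_conj g (pCoreOf 2 L)
      rw [map_conj_eq_of_mem_normalizer (hLQ hg)] at h1
      exact h1.symm
    exact mem_normalizer_of_map_conj _ l (key l hl) (key l⁻¹ (inv_mem hl))
  -- `Ω₁Z(S) ≤ V`
  have hZV : omegaCenterOf (S : Subgroup G) ≤ Vof L := by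
    apply Cfsg.Agent.H51.omegaOne_mono 2
    intro x hx
    have hxc : x ∈ Subgroup.centralizer (pCoreOf 2 L : Set G) :=
      Subgroup.centralizer_le (SetLike.coe_subset_coe.mpr hQS) hx.2
    exact ⟨hCQ hxc, hxc⟩
  have hC : L ⊓ Subgroup.centralizer (Vof L : Set G) ≤
      Subgroup.normalizer ((S : Subgroup G) : Set G) := by
    intro x hx
    exact hZ S (Subgroup.centralizer_le (SetLike.coe_subset_coe.mpr hZV) hx.2)
  have hQ' : ∀ N : Subgroup G, N ≤ L → IsPGroup 2 ↥N → L ≤ Subgroup.normalizer (N : Set G) →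
      N ≤ Subgroup.centralizer (Vof L : Set G) := by
    intro N hNL hN2 hLN n hn
    have hnQ : n ∈ pCoreOf 2 L := Cfsg.Agent.H51.le_pCoreOf 2 hNL hLN hN2 hn
    rw [Subgroup.mem_centralizer_iff]
    intro v hv
    exact ((Subgroup.mem_centralizer_iff.mp (hVmem v hv).2.1) n hnQ).symm
  have hO := Cfsg.Agent.H1.Jt.noTwoCoreMod_of L (Vof L) S hSL hVL hLV hC hQ'
  have hsolvL : Group.IsSolvable ↥L := hsolv L hLmax.1
  exact ⟨hSL, hVL, hLV, hsolvL, hV2, hVc, hO⟩

/-- K-MI. -/
theorem kMI : Cfsg.Agent.H84.Jk.StKMI.{u} := by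
  intro G _ _ S M K L T' K' L' hR A₁ hAS hA2 hAc hAV
  obtain ⟨hSL, hVL, hLV, hsolvL, hV2, hVc, hO⟩ := rctx_mod S M K L T' K' L' hR
  exact Cfsg.Agent.H1.Jt.no_over_offender L (Vof L) hVL hLV hsolvL hV2 hVc hO (Nat.card ↥A₁) A₁
    le_rfl (hAS.trans hSL) hA2 hAc hAV

example : Cfsg.Agent.H84.Jk.StKMI.{u} := kMI

end Cfsg.Agent.H1.JzK
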