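import Mathlib
import Cfsg.Agent.H28.Coprime
import Cfsg.Agent.H18.KBalDer
import Cfsg.Agent.H67.KBalAb

set_option autoImplicit false

namespace Cfsg.Agent.H1.KBal

open Cfsg

/-- The abstract core: a solvable `p'`-group `T` generated by `A`-invariant subgroups `X i`
any two of which lie in an `A`-invariant subgroup all of whose `A`-invariant subgroups are
generated by their intersections with the `X l`; if the centralizers of `F₀ ≤ A` in the `X i`
lie in `X₀`, so does the centralizer of `F₀` in `T`. -/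
theorem core {G : Type*} [Group G] [Finite G] (p : ℕ) [Fact p.Prime] (A F₀ X₀ : Subgroup G)
    (hAp : IsPGroup p ↥A) (hF₀ : F₀ ≤ A) {ι : Type*} :
    ∀ (n : ℕ) (T : Subgroup G) (X : ι → Subgroup G), Nat.card ↥T ≤ n → T = ⨆ i, X i →
      Group.IsSolvable ↥T → ¬ p ∣ Nat.card ↥T →
      (∀ i, A ≤ Subgroup.normalizer ((X i : Subgroup G) : Set G)) →
      (∀ i j, ∃ M : Subgroup G, X i ≤ M ∧ X j ≤ M ∧ A ≤ Subgroup.normalizer (M : Set G) ∧
        ∀ R : Subgroup G, R ≤ M → A ≤ Subgroup.normalizer (R : Set G) → R ≤ ⨆ l, R ⊓ X l) →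
      (∀ i, X i ⊓ Subgroup.centralizer (F₀ : Set G) ≤ X₀) →
      T ⊓ Subgroup.centralizer (F₀ : Set G) ≤ X₀ := by
  intro n
  induction n with
  | zero =>
    intro T X hn
    have := Nat.card_pos (α := ↥T)
    omega
  | succ n ih =>
    intro T X hn hT hsol hpT hAX hM h4
    by_cases hT1 : T = ⊥
    · rw [hT1]
      intro c hc
      have : c = 1 := by simpa using (Subgroup.mem_inf.mp hc).1
      rw [this]; exact X₀.one_mem
    -- the derived subgroup is proper
    have hAT : A ≤ Subgroup.normalizer (T : Set G) := by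
      rw [hT]; exact H28.le_normalizer_iSup A X hAX
    have hAT' : A ≤ Subgroup.normalizer ((⁅T, T⁆ : Subgroup G) : Set G) :=
      hAT.trans (H28.normalizer_le_normalizer_commutator T)
    have hT'le : ⁅T, T⁆ ≤ T := by
      rw [← H28.map_subtype_commutator]; exact Subgroup.map_subtype_le _
    have hcardlt : Nat.card ↥(⁅T, T⁆ : Subgroup G) < Nat.card ↥T := by
      haveI : Nontrivial ↥T := (Subgroup.nontrivial_iff_ne_bot T).mpr hT1
      have hlt := Group.IsSolvable.commutator_lt_top_of_nontrivial (↥T)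
      rw [← H28.map_subtype_commutator, Subgroup.card_map_of_injective (Subgroup.subtype_injective _)]
      by_contra hcon
      push Not at hcon
      exact hlt.ne (Subgroup.eq_top_of_le_card _ hcon)
    have hsol' : Group.IsSolvable ↥(⁅T, T⁆ : Subgroup G) :=
      Group.isSolvable_of_isSolvable_injective (Subgroup.inclusion_injective hT'le)
    have hpT' : ¬ p ∣ Nat.card ↥(⁅T, T⁆ : Subgroup G) := fun h =>
      hpT (h.trans (Subgroup.card_dvd_of_le hT'le))
    have hT'eq : (⁅T, T⁆ : Subgroup G) = ⨆ i, ⁅T, T⁆ ⊓ X i := by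
      apply le_antisymm
      · apply H18.KBal.commutator_le_iSup X T hT
        intro i j
        obtain ⟨M, hi, hj, hAM, hR⟩ := hM i j
        refine ⟨M, hi, hj, ?_⟩
        refine (hR (⁅T, T⁆ ⊓ M) inf_le_right
          ((le_inf hAT' hAM).trans Subgroup.inf_normalizer_le_normalizer_inf)).trans ?_
        exact iSup_mono fun l => inf_le_inf_right _ inf_le_left
      · exact iSup_le fun i => inf_le_left
    have key : (⁅T, T⁆ : Subgroup G) ⊓ Subgroup.centralizer (F₀ : Set G) ≤ X₀ := by
      refine ih ⁅T, T⁆ (fun i => ⁅T, T⁆ ⊓ X i) (by omega) hT'eq hsol' hpT' ?_ ?_ ?_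
      · intro i
        exact (le_inf hAT' (hAX i)).trans Subgroup.inf_normalizer_le_normalizer_inf
      · intro i j
        obtain ⟨M, hi, hj, hAM, hR⟩ := hM i j
        refine ⟨⁅T, T⁆ ⊓ M, inf_le_inf_left _ hi, inf_le_inf_left _ hj,
          (le_inf hAT' hAM).trans Subgroup.inf_normalizer_le_normalizer_inf, ?_⟩
        intro R hRM hAR
        refine (hR R (hRM.trans inf_le_right) hAR).trans ?_
        exact iSup_mono fun l => le_inf inf_le_left
          (le_inf (inf_le_left.trans (hRM.trans inf_le_left)) inf_le_right)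
      · intro i
        exact (inf_le_inf_right _ inf_le_right).trans (h4 i)
    intro c hc
    obtain ⟨hcT, hcC⟩ := Subgroup.mem_inf.mp hc
    have hcF : ∀ f ∈ F₀, f * c * f⁻¹ = c := by
      intro f hf
      have := (Subgroup.mem_centralizer_iff.mp hcC) f hf
      rw [this]; group
    obtain ⟨y, hy, hyc⟩ := H67.KBal.exists_mem_iSup_centralizer p X T F₀ hT hpT (hAp.to_le hF₀)
      (fun i => hF₀.trans (hAX i)) c hcT hcF
    have hyX : y ∈ X₀ := (iSup_le h4) hy
    have hyC : y ∈ Subgroup.centralizer (F₀ : Set G) :=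
      (iSup_le fun i => (inf_le_right : X i ⊓ Subgroup.centralizer (F₀ : Set G) ≤ _)) hy
    have h1 : y⁻¹ * c ∈ X₀ :=
      key (Subgroup.mem_inf.mpr ⟨hyc, Subgroup.mul_mem _ (Subgroup.inv_mem _ hyC) hcC⟩)
    have : c = y * (y⁻¹ * c) := by group
    rw [this]
    exact X₀.mul_mem hyX h1

end Cfsg.Agent.H1.KBal
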