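import Mathlib
import Cfsg.Agent.H28.Coprime
import Cfsg.Agent.H37.Balance
import Cfsg.Agent.H1.KBalCore

set_option autoImplicit false

namespace Cfsg.Agent.H1.KBal

open Cfsg Cfsg.Agent.H37

variable {G : Type*} [Group G]

theorem signalizerDelta_anti (p : ℕ) {D E : Subgroup G} (h : D ≤ E) :
    signalizerDelta p E ≤ signalizerDelta p D := by
  unfold signalizerDelta
  refine le_iInf ?_
  rintro ⟨d, hd, hd1⟩
  exact iInf_le (fun a : {a : G // a ∈ E ∧ a ≠ 1} => centralizerPPrimeCore p (a : G)) ⟨d, h hd, hd1⟩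

theorem signalizerDelta_le_centralizer_set (p : ℕ) (B : Subgroup G) :
    signalizerDelta p B ≤ Subgroup.centralizer (B : Set G) := by
  intro x hx
  rw [Subgroup.mem_centralizer_iff]
  intro b hb
  by_cases hb1 : b = 1
  · subst hb1; simp
  · have := signalizerDelta_le_centralizer p B hb hb1 hx
    rw [Subgroup.mem_centralizer_singleton_iff] at this
    exact this.symm

theorem mem_centralizer_sup {F K : Subgroup G} {x : G}
    (h1 : x ∈ Subgroup.centralizer (F : Set G)) (h2 : x ∈ Subgroup.centralizer (K : Set G)) :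
    x ∈ Subgroup.centralizer ((F ⊔ K : Subgroup G) : Set G) := by
  have hF : F ≤ Subgroup.centralizer {x} := fun f hf =>
    Subgroup.mem_centralizer_singleton_iff.mpr (Subgroup.mem_centralizer_iff.mp h1 f hf)
  have hK : K ≤ Subgroup.centralizer {x} := fun f hf =>
    Subgroup.mem_centralizer_singleton_iff.mpr (Subgroup.mem_centralizer_iff.mp h2 f hf)
  rw [Subgroup.mem_centralizer_iff]
  intro g hg
  have := sup_le hF hK hg
  rw [Subgroup.mem_centralizer_singleton_iff] at this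
  exact this

theorem mem_centralizer_zpowers {a x : G} (h : x ∈ Subgroup.centralizer ({a} : Set G)) :
    x ∈ Subgroup.centralizer ((Subgroup.zpowers a : Subgroup G) : Set G) := by
  have hK : Subgroup.zpowers a ≤ Subgroup.centralizer {x} := by
    rw [Subgroup.zpowers_le, Subgroup.mem_centralizer_singleton_iff]
    exact (Subgroup.mem_centralizer_singleton_iff.mp h).symm
  rw [Subgroup.mem_centralizer_iff]
  intro g hg
  have := hK hg
  rw [Subgroup.mem_centralizer_singleton_iff] at this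
  exact this

theorem le_normalizer_centralizer_singleton {A : Subgroup G} {a : G}
    (h : ∀ g ∈ A, g * a = a * g) :
    A ≤ Subgroup.normalizer ((Subgroup.centralizer ({a} : Set G) : Subgroup G) : Set G) := by
  intro g hg
  rw [Subgroup.mem_normalizer_iff]
  intro y
  simp only [Subgroup.mem_centralizer_singleton_iff]
  have hag : Commute a g := (h g hg).symm
  constructor
  · intro hy
    have hay : Commute a y := hy.symm
    exact ((hag.mul_right hay).mul_right hag.inv_right).eq.symm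
  · intro hy
    have h1 : Commute a (g * y * g⁻¹) := hy.symm
    have h2 : Commute a (g⁻¹ * (g * y * g⁻¹) * g) := (hag.inv_right.mul_right h1).mul_right hag
    have e : g⁻¹ * (g * y * g⁻¹) * g = y := by group
    rw [e] at h2
    exact h2.eq.symm

theorem exists_le_card_eq [Finite G] (p : ℕ) [Fact p.Prime] {B : Subgroup G} (hB : IsPGroup p ↥B)
    {k : ℕ} (hk : p ^ k ≤ Nat.card ↥B) : ∃ D : Subgroup G, D ≤ B ∧ Nat.card ↥D = p ^ k := by
  obtain ⟨m, hm⟩ := IsPGroup.iff_card.mp hB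
  have hkm : k ≤ m := by
    by_contra h
    push Not at h
    have : p ^ m < p ^ k := Nat.pow_lt_pow_right (Fact.out : p.Prime).one_lt h
    omega
  obtain ⟨K, hK⟩ := Sylow.exists_subgroup_card_pow_prime (G := ↥B) p (n := k)
    (by rw [hm]; exact pow_dvd_pow p hkm)
  refine ⟨K.map B.subtype, Subgroup.map_subtype_le K, ?_⟩
  rw [Subgroup.card_map_of_injective (Subgroup.subtype_injective _)]
  exact hK

theorem isKBalancedWrt_of_isKBalanced [Finite G] (p k : ℕ) [Fact p.Prime]
    (hbal : IsKBalanced p k G) (A : Subgroup G) (hA : IsElementaryAbelian p A) :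
    IsKBalancedWrt p k A := by
  intro B hBA hB hBk a ha ha1
  obtain ⟨D, hDB, hDk⟩ := exists_le_card_eq p (H28.isPGroup_of_isElementaryAbelian p hB) hBk
  have hDel : IsElementaryAbelian p D := H28.isElementaryAbelian_of_le p hB hDB
  have horder : orderOf a = p := orderOf_eq_prime (hA.2 a ha) ha1
  have hcomm : ∀ d ∈ D, d * a = a * d := fun d hd =>
    H28.comm_of_isMulCommutative hA.1 (hBA (hDB hd)) ha
  exact (inf_le_inf_right _ (signalizerDelta_anti p hDB)).trans (hbal D hDel hDk a horder hcomm)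

/-- cardinality of a subgroup of relative index at most `r`. -/
theorem card_ge_of_relIndex_le [Finite G] {n : ℕ} {A E : Subgroup G} (hEA : E ≤ A)
    {r : ℕ} (hrel : E.relIndex A ≤ r) (hA : n * r ≤ Nat.card ↥A) :
    n ≤ Nat.card ↥E := by
  have h1 := card_mul_relIndex_of_le hEA
  by_contra hcon
  push Not at hcon
  have h2 : Nat.card ↥E * E.relIndex A ≤ Nat.card ↥E * r := Nat.mul_le_mul_left _ hrel
  have h3 : Nat.card ↥E * r ≤ n * r := Nat.mul_le_mul_right _ hcon.le
  have hr : r ≠ 0 := by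
    rintro rfl
    have := Nat.card_pos (α := ↥A)
    have h4 : E.relIndex A = 0 := by omega
    rw [h4] at h1
    omega
  have h5 : Nat.card ↥E * r < n * r := Nat.mul_lt_mul_of_pos_right hcon (Nat.pos_of_ne_zero hr)
  omega

/-- The `k`-balanced functor is an `A`-signalizer functor (solvable case). -/
theorem kbal_functor [Finite G] (p k : ℕ) [Fact p.Prime] (hk : 1 ≤ k) (A : Subgroup G)
    (hA : IsElementaryAbelian p A) (hAk : p ^ (k + 2) ≤ Nat.card ↥A)
    (hbal : IsKBalancedWrt p k A)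
    (hsolv : ∀ a ∈ A, a ≠ 1 → Group.IsSolvable ↥(centralizerPPrimeCore p a)) :
    IsSignalizerFunctor p A (fun a => ⨆ D : {D : Subgroup G // D ≤ A ∧ Nat.card ↥D = p ^ k},
      signalizerDelta p (D : Subgroup G) ⊓ Subgroup.centralizer {a}) := by
  have hp : p.Prime := Fact.out
  have hAp : IsPGroup p ↥A := H28.isPGroup_of_isElementaryAbelian p hA
  have hcomm : ∀ x ∈ A, ∀ y ∈ A, x * y = y * x := fun x hx y hy =>
    H28.comm_of_isMulCommutative hA.1 hx hy
  have hel : ∀ B : Subgroup G, B ≤ A → IsElementaryAbelian p B := fun B hB =>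
    H28.isElementaryAbelian_of_le p hA hB
  have hA2 : p ^ 2 ≤ Nat.card ↥A :=
    le_trans (Nat.pow_le_pow_right hp.pos (by omega)) hAk
  have hndvd : ∀ a : G, ∀ U : Subgroup G, U ≤ centralizerPPrimeCore p a → ¬ p ∣ Nat.card ↥U := by
    intro a U hU h
    have h1 := card_centralizerPPrimeCore_coprime p a
    have h2 : p ∣ Nat.card ↥(centralizerPPrimeCore p a) := h.trans (Subgroup.card_dvd_of_le hU)
    have := Nat.dvd_gcd h2 (dvd_refl p)
    rw [h1] at this
    exact hp.one_lt.ne' (Nat.dvd_one.mp this)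
  -- the key consequence of `k`-balance
  have hKB : ∀ B : Subgroup G, B ≤ A → p ^ k ≤ Nat.card ↥B → ∀ E₀ : Subgroup G, E₀ ≤ A →
      signalizerDelta p B ⊓ Subgroup.centralizer (E₀ : Set G) ≤ signalizerDelta p E₀ :=
    fun B hBA hBk E₀ hE₀ => signalizerDelta_inf_centralizer_le hbal hBA (hel B hBA) hBk hE₀
  have hAC : ∀ a ∈ A, A ≤ Subgroup.normalizer
      ((Subgroup.centralizer ({a} : Set G) : Subgroup G) : Set G) := fun a ha =>
    le_normalizer_centralizer_singleton (fun g hg => hcomm g hg a ha)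
  have hAΔ : ∀ E : Subgroup G, E ≤ A →
      A ≤ Subgroup.normalizer ((signalizerDelta p E : Subgroup G) : Set G) := fun E hEA =>
    le_normalizer_signalizerDelta p A E (fun e he b hb => hcomm e he b (hEA hb))
  have hθY : ∀ a ∈ A, a ≠ 1 →
      (⨆ D : {D : Subgroup G // D ≤ A ∧ Nat.card ↥D = p ^ k},
        signalizerDelta p (D : Subgroup G) ⊓ Subgroup.centralizer {a}) ≤
        centralizerPPrimeCore p a := by
    intro a ha ha1
    apply iSup_le
    rintro ⟨D, hDA, hDk⟩
    exact hbal D hDA (hel D hDA) hDk.ge a ha ha1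
  have hAθ : ∀ a ∈ A, A ≤ Subgroup.normalizer
      (((⨆ D : {D : Subgroup G // D ≤ A ∧ Nat.card ↥D = p ^ k},
        signalizerDelta p (D : Subgroup G) ⊓ Subgroup.centralizer {a}) : Subgroup G) : Set G) := by
    intro a ha
    apply H28.le_normalizer_iSup
    rintro ⟨D, hDA, hDk⟩
    exact (le_inf (hAΔ D hDA) (hAC a ha)).trans Subgroup.inf_normalizer_le_normalizer_inf
  have hrelF : ∀ F E : Subgroup G, F.relIndex A = p → F ≤ E → E.relIndex A ≤ p := by
    intro F E hF hFE
    have := Subgroup.relIndex_le_of_le_left (L := A) hFE (by rw [hF]; exact hp.ne_zero)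
    rwa [hF] at this
  -- the core claim: `θ a ∩ C(F₀) ≤ Δ(F₀)`
  have hCC : ∀ a ∈ A, a ≠ 1 → ∀ F₀ : Subgroup G, F₀ ≤ A →
      (⨆ D : {D : Subgroup G // D ≤ A ∧ Nat.card ↥D = p ^ k},
        signalizerDelta p (D : Subgroup G) ⊓ Subgroup.centralizer {a}) ⊓
        Subgroup.centralizer (F₀ : Set G) ≤ signalizerDelta p F₀ := by
    intro a ha ha1 F₀ hF₀
    let I := {E : Subgroup G // E ≤ A ∧ a ∈ E ∧ E.relIndex A ≤ p}
    let X : I → Subgroup G := fun E => signalizerDelta p (E : Subgroup G)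
    have hcardI : ∀ E : I, p ^ (k + 1) ≤ Nat.card ↥(E : Subgroup G) := fun E =>
      card_ge_of_relIndex_le E.2.1 E.2.2.2 (by rw [← pow_succ]; exact hAk)
    have hkI : ∀ E : I, p ^ k ≤ Nat.card ↥(E : Subgroup G) := fun E =>
      le_trans (Nat.pow_le_pow_right hp.pos (by omega)) (hcardI E)
    have hθT : (⨆ D : {D : Subgroup G // D ≤ A ∧ Nat.card ↥D = p ^ k},
        signalizerDelta p (D : Subgroup G) ⊓ Subgroup.centralizer {a}) ≤ ⨆ E : I, X E := by
      apply iSup_le
      rintro ⟨D, hDA, hDk⟩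
      have hcopD : ¬ p ∣ Nat.card ↥(signalizerDelta p D ⊓ Subgroup.centralizer ({a} : Set G)) :=
        hndvd a _ (hbal D hDA (hel D hDA) hDk.ge a ha ha1)
      have hnorm : A ≤ Subgroup.normalizer
          ((signalizerDelta p D ⊓ Subgroup.centralizer ({a} : Set G) : Subgroup G) : Set G) :=
        (le_inf (hAΔ D hDA) (hAC a ha)).trans Subgroup.inf_normalizer_le_normalizer_inf
      refine (H28.le_iSup_hyperplane_centralizers p A _ hA hA2 hcopD hnorm).trans ?_
      apply iSup_le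
      rintro ⟨F, hFA, hFrel⟩
      have hE : F ⊔ Subgroup.zpowers a ≤ A := sup_le hFA ((Subgroup.zpowers_le).mpr ha)
      refine le_trans ?_ (le_iSup X ⟨F ⊔ Subgroup.zpowers a, hE,
        Subgroup.mem_sup_right (Subgroup.mem_zpowers a), hrelF F _ hFrel le_sup_left⟩)
      refine le_trans ?_ (hKB D hDA hDk.ge (F ⊔ Subgroup.zpowers a) hE)
      intro x hx
      obtain ⟨hx12, hx3⟩ := Subgroup.mem_inf.mp hx
      obtain ⟨hx1, hx2⟩ := Subgroup.mem_inf.mp hx12
      exact Subgroup.mem_inf.mpr ⟨hx1, mem_centralizer_sup hx3 (mem_centralizer_zpowers hx2)⟩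
    have hTY : (⨆ E : I, X E) ≤ centralizerPPrimeCore p a :=
      iSup_le fun E => signalizerDelta_le p (E : Subgroup G) E.2.2.1 ha1
    have hsolT : Group.IsSolvable ↥(⨆ E : I, X E) := by
      haveI := hsolv a ha ha1
      exact Group.isSolvable_of_isSolvable_injective (Subgroup.inclusion_injective hTY)
    refine (inf_le_inf_right _ hθT).trans ?_
    refine core p A F₀ (signalizerDelta p F₀) hAp hF₀ (Nat.card ↥(⨆ E : I, X E)) (⨆ E : I, X E) X
      le_rfl rfl hsolT (hndvd a _ hTY) (fun E => hAΔ E.1 E.2.1) ?_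
      (fun E => hKB E.1 E.2.1 (hkI E) F₀ hF₀)
    rintro ⟨E₁, hE₁A, haE₁, hE₁rel⟩ ⟨E₂, hE₂A, haE₂, hE₂rel⟩
    have h12A : E₁ ⊓ E₂ ≤ A := inf_le_left.trans hE₁A
    have ha12 : a ∈ E₁ ⊓ E₂ := Subgroup.mem_inf.mpr ⟨haE₁, haE₂⟩
    have h12k : p ^ k ≤ Nat.card ↥(E₁ ⊓ E₂ : Subgroup G) := by
      have h1 : (E₁ ⊓ E₂).relIndex A ≤ p * p :=
        (Subgroup.relIndex_inf_le).trans (Nat.mul_le_mul hE₁rel hE₂rel)
      refine card_ge_of_relIndex_le h12A h1 ?_
      have : p ^ k * (p * p) = p ^ (k + 2) := by ring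
      rw [this]; exact hAk
    refine ⟨signalizerDelta p (E₁ ⊓ E₂), signalizerDelta_anti p inf_le_left,
      signalizerDelta_anti p inf_le_right, hAΔ _ h12A, ?_⟩
    intro R hRM hAR
    have hcopR : ¬ p ∣ Nat.card ↥R :=
      hndvd a R (hRM.trans (signalizerDelta_le p (E₁ ⊓ E₂) ha12 ha1))
    refine (H28.le_iSup_hyperplane_centralizers p A R hA hA2 hcopR hAR).trans ?_
    apply iSup_le
    rintro ⟨F, hFA, hFrel⟩
    have hE' : (E₁ ⊓ E₂) ⊔ F ≤ A := sup_le h12A hFA
    refine le_trans ?_ (le_iSup (fun l : I => R ⊓ X l) ⟨(E₁ ⊓ E₂) ⊔ F, hE',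
      Subgroup.mem_sup_left ha12, hrelF F _ hFrel le_sup_right⟩)
    refine le_inf inf_le_left ?_
    refine le_trans ?_ (hKB (E₁ ⊓ E₂) h12A h12k ((E₁ ⊓ E₂) ⊔ F) hE')
    intro x hx
    obtain ⟨hxR, hxF⟩ := Subgroup.mem_inf.mp hx
    exact Subgroup.mem_inf.mpr ⟨hRM hxR,
      mem_centralizer_sup (signalizerDelta_le_centralizer_set p _ (hRM hxR)) hxF⟩
  refine ⟨?_, ?_, ?_, ?_⟩
  · intro a _ _
    exact iSup_le fun _ => inf_le_right
  · intro a ha ha1
    exact hndvd a _ (hθY a ha ha1)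
  · intro a ha _ b hb x hx
    exact H28.conj_mem_of_mem_normalizer (hAθ a ha hb) hx
  · intro a ha ha1 b hb hb1
    have hcopW : ¬ p ∣ Nat.card ↥((⨆ D : {D : Subgroup G // D ≤ A ∧ Nat.card ↥D = p ^ k},
        signalizerDelta p (D : Subgroup G) ⊓ Subgroup.centralizer {a}) ⊓
        Subgroup.centralizer ({b} : Set G) : Subgroup G) :=
      hndvd a _ (inf_le_left.trans (hθY a ha ha1))
    have hAW : A ≤ Subgroup.normalizer
        (((⨆ D : {D : Subgroup G // D ≤ A ∧ Nat.card ↥D = p ^ k},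
        signalizerDelta p (D : Subgroup G) ⊓ Subgroup.centralizer {a}) ⊓
        Subgroup.centralizer ({b} : Set G) : Subgroup G) : Set G) :=
      (le_inf (hAθ a ha) (hAC b hb)).trans Subgroup.inf_normalizer_le_normalizer_inf
    refine (H28.le_iSup_hyperplane_centralizers p A _ hA hA2 hcopW hAW).trans ?_
    apply iSup_le
    rintro ⟨F, hFA, hFrel⟩
    have hFk : p ^ k ≤ Nat.card ↥F := by
      have h1 : p ^ (k + 1) ≤ Nat.card ↥F :=
        card_ge_of_relIndex_le hFA hFrel.le (by rw [← pow_succ]; exact hAk)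
      exact le_trans (Nat.pow_le_pow_right hp.pos (by omega)) h1
    obtain ⟨D, hDF, hDk⟩ := exists_le_card_eq p (hAp.to_le hFA) hFk
    refine le_trans ?_ (le_iSup (fun D : {D : Subgroup G // D ≤ A ∧ Nat.card ↥D = p ^ k} =>
      signalizerDelta p (D : Subgroup G) ⊓ Subgroup.centralizer {b}) ⟨D, hDF.trans hFA, hDk⟩)
    intro x hx
    obtain ⟨hx12, hxF⟩ := Subgroup.mem_inf.mp hx
    obtain ⟨hxθ, hxb⟩ := Subgroup.mem_inf.mp hx12
    exact Subgroup.mem_inf.mpr ⟨signalizerDelta_anti p hDF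
      (hCC a ha ha1 F hFA (Subgroup.mem_inf.mpr ⟨hxθ, hxF⟩)), hxb⟩

end Cfsg.Agent.H1.KBal
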