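import Cfsg.Agent.H3.RankTwoCore
import Cfsg.Prelude.Def_CaseTheorems

set_option autoImplicit false

namespace Cfsg.Agent.H1.RankTwo

open Cfsg.Agent.H3
open scoped commutatorElement

/-- Facts on the abelianization of the "core" `D` produced by `rank_two_core`. -/
theorem core_abelianization {G : Type*} [Group G] [Finite G] {p : ℕ} [Fact p.Prime]
    (D : Subgroup G) (hDp : IsPGroup p ↥D)
    (hDexp : ∀ x ∈ D, x ^ p = 1) (hDcard : Nat.card D ≤ p ^ 3)
    (hDcen : ∀ a ∈ D, ∀ b ∈ D, ∀ c ∈ D, ⁅a, b⁆ * c = c * ⁅a, b⁆)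
    (hDrk : ∀ A : Subgroup G, A ≤ D → (∀ a ∈ A, ∀ b ∈ A, a * b = b * a) → Nat.card A ≤ p ^ 2) :
    (∀ d : ↥D, d ^ p = 1) ∧ (∀ v : Abelianization ↥D, v ^ p = 1) ∧
      Nat.card (Abelianization ↥D) ≤ p ^ 2 ∧ commutator ↥D ≤ Subgroup.center ↥D := by
  have hpp : p.Prime := Fact.out
  have hDexp' : ∀ d : ↥D, d ^ p = 1 := fun d =>
    Subtype.ext (by rw [Subgroup.coe_pow]; exact hDexp d d.2)
  have hVexp : ∀ v : Abelianization ↥D, v ^ p = 1 := by
    intro v
    obtain ⟨d, hd⟩ : ∃ d : ↥D, Abelianization.of d = v := by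
      obtain ⟨d, hd⟩ := QuotientGroup.mk_surjective v
      exact ⟨d, hd⟩
    rw [← hd, ← map_pow, hDexp' d, map_one]
  have hVcard : Nat.card (Abelianization ↥D) ≤ p ^ 2 := by
    have hmul := Subgroup.card_eq_card_quotient_mul_card_subgroup (commutator ↥D)
    by_cases hbot : commutator ↥D = ⊥
    · have hDab : ∀ a ∈ D, ∀ b ∈ D, a * b = b * a := by
        intro a ha b hb
        have h1 : (⁅(⟨a, ha⟩ : D), ⟨b, hb⟩⁆ : D) ∈ commutator ↥D := by
          rw [commutator_def]
          exact Subgroup.commutator_mem_commutator (Subgroup.mem_top _) (Subgroup.mem_top _)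
        rw [hbot, Subgroup.mem_bot, commutatorElement_eq_one_iff_mul_comm] at h1
        exact congrArg Subtype.val h1
      have h2 := hDrk D le_rfl hDab
      calc Nat.card (Abelianization ↥D) ≤ Nat.card ↥D := by
            rw [hmul]; exact Nat.le_mul_of_pos_right _ Nat.card_pos
        _ ≤ p ^ 2 := h2
    · have hcp : IsPGroup p (commutator ↥D) := hDp.to_subgroup _
      obtain ⟨k, hk⟩ := IsPGroup.iff_card.mp hcp
      have hk1 : 1 ≤ k := by
        by_contra h0
        have hk0 : k = 0 := by omega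
        rw [hk0, pow_zero] at hk
        exact hbot (Subgroup.card_eq_one.mp hk)
      have h4 : Nat.card (Abelianization ↥D) * p ≤ p ^ 3 := by
        calc Nat.card (Abelianization ↥D) * p
            ≤ Nat.card (Abelianization ↥D) * Nat.card (commutator ↥D) := by
              rw [hk]
              exact Nat.mul_le_mul_left _ (by
                calc p = p ^ 1 := (pow_one p).symm
                  _ ≤ p ^ k := Nat.pow_le_pow_right hpp.pos hk1)
          _ = Nat.card ↥D := hmul.symm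
          _ ≤ p ^ 3 := hDcard
      have h3 : p ^ 3 = p ^ 2 * p := by ring
      rw [h3] at h4
      exact Nat.le_of_mul_le_mul_right h4 hpp.pos
  have hcenD : commutator ↥D ≤ Subgroup.center ↥D := by
    rw [commutator_def, Subgroup.commutator_le]
    intro a _ b _
    rw [Subgroup.mem_center_iff]
    intro d
    apply Subtype.ext
    show D.subtype (d * ⁅a, b⁆) = D.subtype (⁅a, b⁆ * d)
    rw [map_mul, map_mul, map_commutatorElement]
    exact (hDcen a a.2 b b.2 d d.2).symm
  exact ⟨hDexp', hVexp, hVcard, hcenD⟩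

/-- For odd `p`: if a solvable group `A` of odd order normalizes a `p`-group `R` of rank at most
two, then every `p'`-element of `A'` centralizes `R`. -/
theorem commutator_centralizes {G : Type*} [Group G] [Finite G] (p : ℕ) [Fact p.Prime]
    (hp : p ≠ 2) (R A : Subgroup G) (hR : IsPGroup p R) (hr : Cfsg.PRankLE p 2 R)
    (hA : A ≤ Subgroup.normalizer (R : Set G)) (hAs : Group.IsSolvable A)
    (hAodd : Odd (Nat.card A)) :
    ∀ x ∈ ⁅A, A⁆, (orderOf x).Coprime p → ∀ y ∈ R, x * y = y * x := by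
  have hpp : p.Prime := Fact.out
  haveI := hAs
  obtain ⟨D, hDR, hDnorm, hDexp, hDcard, hDcen, hDrk, hDfaith⟩ := rank_two_core hp R hR hr
  have hAD : ∀ a ∈ A, ∀ x ∈ D, a * x * a⁻¹ ∈ D := fun a ha x hx => hDnorm a (hA ha) x hx
  let c := conjHom A D hAD
  let ρ : ↥A →* MulAut (Abelianization ↥D) := (abAutHom ↥D).comp c
  have hDp : IsPGroup p ↥D := hR.to_le hDR
  obtain ⟨hDexp', hVexp, hVcard, hcenD⟩ := core_abelianization D hDp hDexp hDcard hDcen hDrk
  have hmain := hom_commutator_pow hAodd hVexp hVcard ρ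
  have hcommA : ⁅A, A⁆ ≤ A := by
    rw [Subgroup.commutator_le]
    intro a ha b hb
    exact A.mul_mem (A.mul_mem (A.mul_mem ha hb) (A.inv_mem ha)) (A.inv_mem hb)
  intro x hx hxcop y hy
  have hxA : x ∈ A := hcommA hx
  have hx' : (⟨x, hxA⟩ : A) ∈ commutator ↥A := by
    have h1 : Subgroup.map A.subtype (commutator ↥A) = ⁅A, A⁆ := by
      rw [commutator_def, Subgroup.map_commutator, ← MonoidHom.range_eq_map,
        Subgroup.range_subtype]
    rw [← h1] at hx
    obtain ⟨y, hy, hyx⟩ := hx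
    have : y = ⟨x, hxA⟩ := Subtype.ext hyx
    rwa [this] at hy
  obtain ⟨x', hx'def⟩ : ∃ x' : A, x' = ⟨x, hxA⟩ := ⟨_, rfl⟩
  rw [← hx'def] at hx'
  have hordx' : orderOf x' = orderOf x := by
    rw [← Subgroup.orderOf_coe, hx'def]
  have hx₀m : x' ^ (orderOf x) = 1 := by
    rw [← hordx', pow_orderOf_eq_one]
  have hρ1 : ρ x' = 1 := by
    have h1 : (ρ x') ^ p = 1 := hmain x' hx'
    have h2 : (ρ x') ^ (orderOf x) = 1 := by rw [← map_pow, hx₀m, map_one]
    have h3 : orderOf (ρ x') ∣ Nat.gcd (orderOf x) p :=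
      Nat.dvd_gcd (orderOf_dvd_of_pow_eq_one h2) (orderOf_dvd_of_pow_eq_one h1)
    rw [hxcop, Nat.dvd_one, orderOf_eq_one_iff] at h3
    exact h3
  have hφm : (c x') ^ (orderOf x) = 1 := by rw [← map_pow, hx₀m, map_one]
  have hφ1 : c x' = 1 :=
    aut_eq_one_of_abelianization hcenD hDexp' (c x') (orderOf x) hφm hxcop hρ1
  have hcenx : ∀ d ∈ D, x * d * x⁻¹ = d := by
    intro d hd
    have h1 := congrArg (fun ψ : MulAut ↥D => ((ψ ⟨d, hd⟩ : D) : G)) hφ1
    rw [hx'def] at h1
    exact h1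
  have hcenR := hDfaith x (hA hxA) hxcop hcenx y hy
  rw [mul_inv_eq_iff_eq_mul] at hcenR
  exact hcenR

/-- For odd `p`: an element of odd order all of whose prime divisors exceed `p`, normalizing a
`p`-group `R` of rank at most two, centralizes `R`. -/
theorem large_primes_centralize {G : Type*} [Group G] [Finite G] (p : ℕ) [Fact p.Prime]
    (hp : p ≠ 2) (R : Subgroup G) (hR : IsPGroup p R) (hr : Cfsg.PRankLE p 2 R) (x : G)
    (hx : x ∈ Subgroup.normalizer (R : Set G)) (hodd : Odd (orderOf x))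
    (hord : ∀ q : ℕ, q.Prime → q ∣ orderOf x → p < q) :
    ∀ y ∈ R, x * y = y * x := by
  have hpp : p.Prime := Fact.out
  obtain ⟨D, hDR, hDnorm, hDexp, hDcard, hDcen, hDrk, hDfaith⟩ := rank_two_core hp R hR hr
  obtain ⟨A, hAdef⟩ : ∃ A : Subgroup G, A = Subgroup.zpowers x := ⟨_, rfl⟩
  have hA : A ≤ Subgroup.normalizer (R : Set G) := by
    rw [hAdef, Subgroup.zpowers_le]; exact hx
  have hxA : x ∈ A := by rw [hAdef]; exact Subgroup.mem_zpowers x
  have hAD : ∀ a ∈ A, ∀ x ∈ D, a * x * a⁻¹ ∈ D := fun a ha x hx => hDnorm a (hA ha) x hx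
  let c := conjHom A D hAD
  let ρ : ↥A →* MulAut (Abelianization ↥D) := (abAutHom ↥D).comp c
  have hDp : IsPGroup p ↥D := hR.to_le hDR
  obtain ⟨hDexp', hVexp, hVcard, hcenD⟩ := core_abelianization D hDp hDexp hDcard hDcen hDrk
  have hxcop : (orderOf x).Coprime p := by
    rw [Nat.coprime_comm, Nat.Prime.coprime_iff_not_dvd hpp]
    intro hdvd
    exact lt_irrefl p (hord p hpp hdvd)
  obtain ⟨x', hx'def⟩ : ∃ x' : A, x' = ⟨x, hxA⟩ := ⟨_, rfl⟩
  have hordx' : orderOf x' = orderOf x := by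
    rw [← Subgroup.orderOf_coe, hx'def]
  have hx₀m : x' ^ (orderOf x) = 1 := by
    rw [← hordx', pow_orderOf_eq_one]
  have hρ1 : ρ x' = 1 := by
    by_contra hne
    obtain ⟨φ, hφdef⟩ : ∃ φ : MulAut (Abelianization ↥D), φ = ρ x' := ⟨_, rfl⟩
    rw [← hφdef] at hne
    have hφord : orderOf φ ∣ orderOf x := by
      rw [hφdef, ← hordx']
      exact orderOf_map_dvd ρ x'
    have hφ1 : orderOf φ ≠ 1 := by
      rw [Ne, orderOf_eq_one_iff]; exact hne
    obtain ⟨q, hq, hqφ⟩ := Nat.exists_prime_and_dvd hφ1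
    haveI : Fact q.Prime := ⟨hq⟩
    have hqx : q ∣ orderOf x := hqφ.trans hφord
    have hpq : p < q := hord q hq hqx
    have hqodd : Odd q := Odd.of_dvd_nat hodd hqx
    obtain ⟨t, ht⟩ := hqφ
    obtain ⟨ψ, hψdef⟩ : ∃ ψ : MulAut (Abelianization ↥D), ψ = φ ^ t := ⟨_, rfl⟩
    have hψq : ψ ^ q = 1 := by
      rw [hψdef, ← pow_mul, mul_comm, ← ht, pow_orderOf_eq_one]
    have hφpos : 0 < orderOf φ := orderOf_pos φ
    have htpos : 0 < t := by
      rcases Nat.eq_zero_or_pos t with h0 | h0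
      · rw [h0, mul_zero] at ht; omega
      · exact h0
    have hψne : ψ ≠ 1 := by
      rw [hψdef]
      intro h1
      have h2 := orderOf_dvd_of_pow_eq_one h1
      have h3 : orderOf φ ≤ t := Nat.le_of_dvd htpos h2
      have h4 : t < q * t := by
        have := hq.one_lt
        nlinarith
      omega
    have hcong := card_modEq_card_inf_autFix ψ q hψq ⊤ (fun x _ => Subgroup.mem_top _)
    rw [top_inf_eq, Subgroup.card_top] at hcong
    have hVp : IsPGroup p (Abelianization ↥D) := fun g => ⟨1, by rw [pow_one]; exact hVexp g⟩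
    obtain ⟨k, hk⟩ := IsPGroup.iff_card.mp hVp
    obtain ⟨j, hj⟩ := IsPGroup.iff_card.mp (hVp.to_subgroup (autFix ψ))
    have hk2 : k ≤ 2 := by
      rw [hk] at hVcard
      exact (Nat.pow_le_pow_iff_right hpp.one_lt).mp hVcard
    have hjk : j < k := by
      have h1 : Nat.card (autFix ψ) ∣ Nat.card (Abelianization ↥D) :=
        Subgroup.card_subgroup_dvd_card _
      rw [hj, hk] at h1
      have h2 : j ≤ k := (Nat.pow_dvd_pow_iff_le_right hpp.one_lt).mp h1
      rcases Nat.lt_or_ge j k with h3 | h3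
      · exact h3
      · exfalso
        have h4 : j = k := le_antisymm h2 h3
        have h5 : autFix ψ = ⊤ := by
          rw [← Subgroup.card_eq_iff_eq_top, hj, hk, h4]
        apply hψne
        ext v
        have : v ∈ autFix ψ := by rw [h5]; exact Subgroup.mem_top v
        rw [MulAut.one_apply]
        exact (mem_autFix ψ v).mp this
    rw [hk, hj] at hcong
    have hdvd := dvd_pow_sub_one_of_modEq hpp hq (Nat.ne_of_gt hpq) hjk hcong
    have hp1 : 1 < p := hpp.one_lt
    have hpodd : Odd p := hpp.odd_of_ne_two hp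
    have hcase : k - j = 1 ∨ k - j = 2 := by omega
    rcases hcase with h1 | h1
    · rw [h1, pow_one] at hdvd
      have := Nat.le_of_dvd (by omega) hdvd
      omega
    · rw [h1] at hdvd
      have h2 : p ^ 2 - 1 = (p - 1) * (p + 1) := by
        obtain ⟨s, hs⟩ : ∃ s, p = s + 1 := ⟨p - 1, by omega⟩
        rw [hs]
        simp only [Nat.add_sub_cancel]
        have : (s + 1) ^ 2 - 1 = s * (s + 1 + 1) := by
          have : (s + 1) ^ 2 = s * (s + 1 + 1) + 1 := by ring
          omega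
        exact this
      rw [h2] at hdvd
      rcases (Nat.Prime.dvd_mul hq).mp hdvd with h3 | h3
      · have := Nat.le_of_dvd (by omega) h3
        omega
      · have h4 := Nat.le_of_dvd (by omega) h3
        have h5 : q = p + 1 := by omega
        rw [h5] at hqodd
        obtain ⟨a, ha⟩ := hqodd
        obtain ⟨b, hb⟩ := hpodd
        omega
  have hφm : (c x') ^ (orderOf x) = 1 := by rw [← map_pow, hx₀m, map_one]
  have hφ1 : c x' = 1 :=
    aut_eq_one_of_abelianization hcenD hDexp' (c x') (orderOf x) hφm hxcop hρ1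
  have hcenx : ∀ d ∈ D, x * d * x⁻¹ = d := by
    intro d hd
    have h1 := congrArg (fun ψ : MulAut ↥D => ((ψ ⟨d, hd⟩ : D) : G)) hφ1
    rw [hx'def] at h1
    exact h1
  intro y hy
  have hcenR := hDfaith x hx hxcop hcenx y hy
  rw [mul_inv_eq_iff_eq_mul] at hcenR
  exact hcenR

end Cfsg.Agent.H1.RankTwo
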