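import Cfsg.Agent.H1.RankTwo
import Cfsg.Agent.H1.HallHigman
import Cfsg.Agent.H1.Coprime
import Cfsg.Agent.H66.PiHall
import Cfsg.Prelude.Def_OddOrderLocal

set_option autoImplicit false

namespace Cfsg.Agent.H1.RankTwoTower

open Cfsg.Agent.H1
open scoped commutatorElement Pointwise

universe u

variable {G : Type u} [Group G] [Finite G]

/-- `F(G) ≤ O_q(G) · (F(G) ∩ O_{q'}(G))`. -/
theorem fitting_le_sup (q : ℕ) [Fact q.Prime] :
    Cfsg.fittingSubgroup G ≤
      Cfsg.pCore q G ⊔ (Cfsg.fittingSubgroup G ⊓ Cfsg.pPrimeCore q G) := by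
  have hq : q.Prime := Fact.out
  rw [fitting_eq_iSup_pCore]
  apply iSup_le
  intro p
  by_cases h : (p : ℕ) = q
  · rw [h]; exact le_sup_left
  · refine le_trans ?_ le_sup_right
    refine le_inf (le_iSup (fun q : Nat.Primes => Cfsg.pCore (q : ℕ) G) p) ?_
    haveI : Fact (p : ℕ).Prime := ⟨p.2⟩
    apply le_pPrimeCore
    obtain ⟨k, hk⟩ := IsPGroup.iff_card.mp (pCore_isPGroup (G := G) (p : ℕ))
    rw [hk]
    exact Nat.Coprime.pow_left k ((Nat.coprime_primes p.2 hq).mpr h)

theorem pCore_inf_pPrimeCore (q : ℕ) [Fact q.Prime] :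
    Cfsg.pCore q G ⊓ Cfsg.pPrimeCore q G = ⊥ := by
  apply disjoint_iff.mp
  apply Subgroup.disjoint_of_coprime_natCard
  obtain ⟨k, hk⟩ := IsPGroup.iff_card.mp (pCore_isPGroup (G := G) q)
  rw [hk]
  exact Nat.Coprime.pow_left k (pPrimeCore_card_coprime (G := G) q).symm

theorem commute_pCore_pPrimeCore (q : ℕ) [Fact q.Prime] {a b : G} (ha : a ∈ Cfsg.pCore q G)
    (hb : b ∈ Cfsg.pPrimeCore q G) : a * b = b * a :=
  Subgroup.commute_of_normal_of_disjoint _ _ (pCore_normal q) (pPrimeCore_normal q)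
    (disjoint_iff.mpr (pCore_inf_pPrimeCore q)) a b ha hb

theorem fitting_decomp (q : ℕ) [Fact q.Prime] {y : G} (hy : y ∈ Cfsg.fittingSubgroup G) :
    ∃ a ∈ Cfsg.pCore q G, ∃ b ∈ Cfsg.fittingSubgroup G ⊓ Cfsg.pPrimeCore q G, a * b = y :=
  Subgroup.mem_sup_of_normal_left.mp (fitting_le_sup q hy)

/-- A `q`-subgroup of `F(G)` lies in `O_q(G)`. -/
theorem fitting_inf_pgroup_le (q : ℕ) [Fact q.Prime] (S : Subgroup G) (hS : IsPGroup q S)
    (hRS : Cfsg.pCore q G ≤ S) : Cfsg.fittingSubgroup G ⊓ S ≤ Cfsg.pCore q G := by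
  intro y hy
  obtain ⟨a, ha, b, hb, hab⟩ := fitting_decomp q hy.1
  have hbS : b ∈ S := by
    have : b = a⁻¹ * y := by rw [← hab]; group
    rw [this]
    exact S.mul_mem (S.inv_mem (hRS ha)) hy.2
  have hbot : S ⊓ Cfsg.pPrimeCore q G = ⊥ := by
    apply disjoint_iff.mp
    apply Subgroup.disjoint_of_coprime_natCard
    obtain ⟨k, hk⟩ := IsPGroup.iff_card.mp hS
    rw [hk]
    exact Nat.Coprime.pow_left k (pPrimeCore_card_coprime (G := G) q).symm
  have hb1 : b = 1 := by
    have : b ∈ S ⊓ Cfsg.pPrimeCore q G := ⟨hbS, hb.2⟩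
    rwa [hbot, Subgroup.mem_bot] at this
  rw [← hab, hb1, mul_one]
  exact ha

section main

variable [Group.IsSolvable G] (hodd : Odd (Nat.card G))
  (hrk : ∀ q : ℕ, q.Prime → Cfsg.PRankLE q 2 ↥(Cfsg.pCore q G))

include hodd hrk

/-- `q'`-elements of `G'` centralize `O_q(G)`. -/
theorem commutator_centralizes_pCore (q : ℕ) [Fact q.Prime] {x : G} (hx : x ∈ commutator G)
    (hcop : (orderOf x).Coprime q) {y : G} (hy : y ∈ Cfsg.pCore q G) : x * y = y * x := by
  have hq : q.Prime := Fact.out
  by_cases h2 : q = 2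
  · have hnd : ¬ q ∣ Nat.card G := by
      rw [h2]
      intro hd
      exact (Nat.not_even_iff_odd.mpr hodd) (even_iff_two_dvd.mpr hd)
    rw [pCore_eq_bot_of_not_dvd q hnd, Subgroup.mem_bot] at hy
    rw [hy, mul_one, one_mul]
  · have hs : Group.IsSolvable ↥(⊤ : Subgroup G) := inferInstance
    have hoddT : Odd (Nat.card ↥(⊤ : Subgroup G)) := by rw [Subgroup.card_top]; exact hodd
    have hN : (⊤ : Subgroup G) ≤ Subgroup.normalizer ((Cfsg.pCore q G : Subgroup G) : Set G) := by
      rw [Subgroup.normalizer_eq_top_iff.mpr (pCore_normal q)]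
    rw [commutator_def] at hx
    exact RankTwo.commutator_centralizes q h2 (Cfsg.pCore q G) ⊤ (pCore_isPGroup q) (hrk q hq)
      hN hs hoddT x hx hcop y hy

/-- Elements of prime power order of `G'` lie in `F(G)`. -/
theorem primary_mem_fitting (r : ℕ) [Fact r.Prime] {x : G} (hx : x ∈ commutator G) (j : ℕ)
    (hxr : x ^ (r ^ j) = 1) : x ∈ Cfsg.fittingSubgroup G := by
  have hr : r.Prime := Fact.out
  obtain ⟨E, hEdef⟩ : ∃ E : Subgroup G, E = Cfsg.fittingSubgroup G ⊓ Cfsg.pPrimeCore r G :=
    ⟨_, rfl⟩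
  haveI hEn : E.Normal := by rw [hEdef]; exact Subgroup.normal_inf_normal _ _
  obtain ⟨M, hMdef⟩ : ∃ M : Subgroup G, M = commutator G ⊓ Subgroup.centralizer (E : Set G) :=
    ⟨_, rfl⟩
  haveI hMn : M.Normal := by rw [hMdef]; exact Subgroup.normal_inf_normal _ _
  -- x ∈ M
  have hMK : M ≤ commutator G := by rw [hMdef]; exact inf_le_left
  have hMC : M ≤ Subgroup.centralizer (E : Set G) := by rw [hMdef]; exact inf_le_right
  have hxM : x ∈ M := by
    rw [hMdef]
    refine Subgroup.mem_inf.mpr ⟨hx, ?_⟩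
    rw [Subgroup.mem_centralizer_iff]
    intro y hy
    rw [hEdef] at hy
    -- decomposition with respect to W' = O_{r'} ⊓ C(x)
    have hle : Cfsg.fittingSubgroup G ≤
        Cfsg.pCore r G ⊔ (Cfsg.pPrimeCore r G ⊓ Subgroup.centralizer ({x} : Set G)) := by
      rw [fitting_eq_iSup_pCore]
      apply iSup_le
      intro p
      by_cases h : (p : ℕ) = r
      · rw [h]; exact le_sup_left
      · refine le_trans ?_ le_sup_right
        haveI : Fact (p : ℕ).Prime := ⟨p.2⟩
        refine le_inf ?_ ?_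
        · apply le_pPrimeCore
          obtain ⟨k, hk⟩ := IsPGroup.iff_card.mp (pCore_isPGroup (G := G) (p : ℕ))
          rw [hk]
          exact Nat.Coprime.pow_left k ((Nat.coprime_primes p.2 hr).mpr h)
        · intro z hz
          rw [Subgroup.mem_centralizer_iff]
          intro w hw
          rw [Set.mem_singleton_iff] at hw
          rw [hw]
          have hcop : (orderOf x).Coprime (p : ℕ) := by
            have h1 : orderOf x ∣ r ^ j := orderOf_dvd_of_pow_eq_one hxr
            exact Nat.Coprime.coprime_dvd_left h1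
              (Nat.Coprime.pow_left j ((Nat.coprime_primes hr p.2).mpr (fun h' => h h'.symm)))
          exact commutator_centralizes_pCore hodd hrk (p : ℕ) hx hcop hz
    obtain ⟨a, ha, b, hb, hab⟩ := Subgroup.mem_sup_of_normal_left.mp (hle hy.1)
    have ha1 : a = 1 := by
      have h1 : a ∈ Cfsg.pCore r G ⊓ Cfsg.pPrimeCore r G := by
        refine ⟨ha, ?_⟩
        have : a = y * b⁻¹ := by rw [← hab]; group
        rw [this]
        exact Subgroup.mul_mem _ hy.2 (Subgroup.inv_mem _ hb.1)
      rwa [pCore_inf_pPrimeCore, Subgroup.mem_bot] at h1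
    rw [ha1, one_mul] at hab
    rw [← hab]
    have := Subgroup.mem_centralizer_iff.mp hb.2 x (Set.mem_singleton x)
    exact this.symm
  -- M is nilpotent
  have hMnil : Group.IsNilpotent ↥M := by
    obtain ⟨T, hTdef⟩ : ∃ T : Subgroup ↥M, T = (M ⊓ E).subgroupOf M := ⟨_, rfl⟩
    haveI hTn : T.Normal := by
      rw [hTdef]
      exact Subgroup.Normal.subgroupOf (Subgroup.normal_inf_normal _ _) M
    have hker : (QuotientGroup.mk' T).ker ≤ Subgroup.center ↥M := by
      rw [QuotientGroup.ker_mk']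
      intro t ht
      rw [hTdef, Subgroup.mem_subgroupOf] at ht
      rw [Subgroup.mem_center_iff]
      intro m
      have hm : (m : G) ∈ Subgroup.centralizer (E : Set G) := hMC m.2
      apply Subtype.ext
      rw [Subgroup.coe_mul, Subgroup.coe_mul]
      exact (Subgroup.mem_centralizer_iff.mp hm _ ht.2).symm
    have hpq : IsPGroup r (↥M ⧸ T) := by
      intro v
      obtain ⟨n, rfl⟩ := QuotientGroup.mk_surjective v
      have hnK : (n : G) ∈ commutator G := hMK n.2
      have hnC : (n : G) ∈ Subgroup.centralizer (E : Set G) := hMC n.2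
      have hn0 : orderOf (n : G) ≠ 0 := (orderOf_pos (n : G)).ne'
      obtain ⟨e, m, hnd, hnm⟩ := Nat.exists_eq_pow_mul_and_not_dvd hn0 r hr.ne_one
      have hcop : m.Coprime r := ((Nat.Prime.coprime_iff_not_dvd hr).mpr hnd).symm
      obtain ⟨n', hn'def⟩ : ∃ n' : G, n' = (n : G) ^ (r ^ e) := ⟨_, rfl⟩
      have hn'm : n' ^ m = 1 := by
        rw [hn'def, ← pow_mul, ← hnm, pow_orderOf_eq_one]
      have hn'cop : (orderOf n').Coprime r :=
        Nat.Coprime.coprime_dvd_left (orderOf_dvd_of_pow_eq_one hn'm) hcop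
      have hn'K : n' ∈ commutator G := by rw [hn'def]; exact Subgroup.pow_mem _ hnK _
      have hn'C : n' ∈ Subgroup.centralizer (E : Set G) := by
        rw [hn'def]; exact Subgroup.pow_mem _ hnC _
      have hn'F : n' ∈ Cfsg.fittingSubgroup G := by
        apply centralizer_fitting_le
        rw [Subgroup.mem_centralizer_iff]
        intro y hy
        obtain ⟨a, ha, b, hb, hab⟩ := fitting_decomp r hy
        have h1 : n' * a = a * n' := commutator_centralizes_pCore hodd hrk r hn'K hn'cop ha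
        have h2 : b * n' = n' * b :=
          Subgroup.mem_centralizer_iff.mp hn'C b (by rw [hEdef]; exact hb)
        rw [← hab]
        calc a * b * n' = a * (b * n') := by group
          _ = a * (n' * b) := by rw [h2]
          _ = (a * n') * b := by group
          _ = (n' * a) * b := by rw [h1]
          _ = n' * (a * b) := by group
      obtain ⟨a, ha, b, hb, hab⟩ := fitting_decomp r hn'F
      obtain ⟨k, hk⟩ := (pCore_isPGroup (G := G) r) ⟨a, ha⟩
      have hak : a ^ (r ^ k) = 1 := by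
        have := congrArg Subtype.val hk
        rwa [Subgroup.coe_pow] at this
      have hcomm : Commute a b := commute_pCore_pPrimeCore r ha hb.2
      have hpow : n' ^ (r ^ k) = b ^ (r ^ k) := by
        rw [← hab, hcomm.mul_pow, hak, one_mul]
      refine ⟨e + k, ?_⟩
      rw [← QuotientGroup.mk_pow, QuotientGroup.eq_one_iff, hTdef, Subgroup.mem_subgroupOf]
      rw [Subgroup.coe_pow]
      have h3 : (n : G) ^ (r ^ (e + k)) = b ^ (r ^ k) := by
        rw [pow_add, pow_mul, ← hn'def, hpow]
      rw [h3]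
      refine ⟨?_, ?_⟩
      · rw [← h3]
        exact Subgroup.pow_mem _ n.2 _
      · rw [hEdef]
        exact Subgroup.pow_mem _ hb _
    haveI : Group.IsNilpotent (↥M ⧸ T) := hpq.isNilpotent
    exact Subgroup.isNilpotent_of_ker_le_center (QuotientGroup.mk' T) hker
  exact le_fitting M hMnil hxM

/-- `G' ≤ F(G)`. -/
theorem commutator_le_fitting : commutator G ≤ Cfsg.fittingSubgroup G := by
  classical
  have hS : ∀ p : Nat.Primes, Nonempty (Sylow (p : ℕ) ↥(commutator G)) := fun p => inferInstance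
  choose P _ using
    (fun p : Nat.Primes => (⟨(hS p).some, trivial⟩ : ∃ _ : Sylow (p : ℕ) ↥(commutator G), True))
  have htop := iSup_sylow_eq_top P
  have h1 : commutator G =
      ⨆ p : Nat.Primes, (P p : Subgroup ↥(commutator G)).map (commutator G).subtype := by
    rw [← Subgroup.map_iSup, htop, ← MonoidHom.range_eq_map, Subgroup.range_subtype]
  rw [h1]
  apply iSup_le
  intro p
  haveI : Fact (p : ℕ).Prime := ⟨p.2⟩
  rintro _ ⟨y, hy, rfl⟩
  obtain ⟨j, hj⟩ := (P p).isPGroup' ⟨y, hy⟩
  have hj' : ((commutator G).subtype y) ^ ((p : ℕ) ^ j) = 1 := by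
    have h2 := congrArg (fun z : (P p : Subgroup ↥(commutator G)) => ((z : ↥(commutator G)) : G)) hj
    simpa using h2
  exact primary_mem_fitting hodd hrk (p : ℕ) y.2 j hj'

theorem commutator_nilpotent : Group.IsNilpotent ↥(commutator G) := by
  have hle := commutator_le_fitting hodd hrk
  haveI := fitting_nilpotent (G := G)
  have h1 : Group.IsNilpotent ↥((commutator G).subgroupOf (Cfsg.fittingSubgroup G)) :=
    inferInstance
  exact Group.nilpotent_of_mulEquiv (Subgroup.subgroupOfEquivOfLe hle)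

/-- Characteristic subgroups of a Sylow subgroup inside its derived group are normal. -/
theorem char_le_commutator_normal (q : ℕ) [Fact q.Prime] (S : Sylow q G)
    (T : Subgroup ↥(S : Subgroup G)) (hT : T.Characteristic)
    (hTS : T.map (S : Subgroup G).subtype ≤ ⁅(S : Subgroup G), (S : Subgroup G)⁆) :
    (T.map (S : Subgroup G).subtype).Normal := by
  have hKF := commutator_le_fitting hodd hrk
  rw [← Subgroup.normalizer_eq_top_iff, eq_top_iff]
  have hNS := normalizer_le_normalizer_map_of_characteristic (S : Subgroup G) T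
  -- S ⊔ K normal
  obtain ⟨L, hLdef⟩ : ∃ L : Subgroup G, L = (S : Subgroup G) ⊔ commutator G := ⟨_, rfl⟩
  have hKL : commutator G ≤ L := by rw [hLdef]; exact le_sup_right
  have hSL : (S : Subgroup G) ≤ L := by rw [hLdef]; exact le_sup_left
  haveI hLn : L.Normal := by
    refine ⟨fun n hn g => ?_⟩
    have h1 : g * n * g⁻¹ = ⁅g, n⁆ * n := by rw [commutatorElement_def]; group
    rw [h1]
    apply L.mul_mem (hKL ?_) hn
    rw [commutator_def]
    exact Subgroup.commutator_mem_commutator (Subgroup.mem_top g) (Subgroup.mem_top n)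
  have hfr := Sylow.normalizer_sup_eq_top' S hSL
  rw [← hfr]
  have hSN : (S : Subgroup G) ≤ Subgroup.normalizer ((S : Subgroup G) : Set G) :=
    Subgroup.le_normalizer
  have hTR : T.map (S : Subgroup G).subtype ≤ Cfsg.pCore q G := by
    refine le_trans ?_ (fitting_inf_pgroup_le q (S : Subgroup G) S.isPGroup' (pCore_le_sylow q S))
    refine le_inf ?_ (Subgroup.map_subtype_le T)
    refine hTS.trans (le_trans ?_ hKF)
    rw [commutator_def]
    exact Subgroup.commutator_mono le_top le_top
  apply sup_le hNS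
  rw [hLdef]
  apply sup_le (hSN.trans hNS)
  refine hKF.trans ((fitting_le_sup q).trans ?_)
  apply sup_le ((pCore_le_sylow q S).trans (hSN.trans hNS))
  refine le_trans ?_ (Subgroup.centralizer_le_normalizer _)
  intro b hb
  rw [Subgroup.mem_centralizer_iff]
  intro t ht
  exact commute_pCore_pPrimeCore q (hTR ht) hb.2

/-- The Sylow tower: a characteristic Hall subgroup for the primes above `p`. -/
theorem exists_char_hall (p : ℕ) :
    ∃ N : Subgroup G, N.Characteristic ∧ Cfsg.IsPiHall {q | q.Prime ∧ p < q} N := by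
  have hKF := commutator_le_fitting hodd hrk
  obtain ⟨π, hπdef⟩ : ∃ π : Set ℕ, π = {q | q.Prime ∧ p < q} := ⟨_, rfl⟩
  rw [← hπdef]
  have hsT : Group.IsSolvable ↥(⊤ : Subgroup G) := inferInstance
  obtain ⟨⟨H, hH⟩, hconj⟩ := Cfsg.Agent.H66.pi_hall_aux π (Nat.card G) G rfl ⊤
    Subgroup.normal_top hsT (by
      intro r hr hd
      rw [Subgroup.index_top] at hd
      exact absurd (Nat.dvd_one.mp hd) hr.ne_one)
  -- H centralizes O_r(G) for r ≤ p
  have hcen : ∀ r : ℕ, r.Prime → r ≤ p → Cfsg.pCore r G ≤ Subgroup.centralizer (H : Set G) := by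
    intro r hr hrp
    haveI : Fact r.Prime := ⟨hr⟩
    by_cases h2 : r = 2
    · have hnd : ¬ r ∣ Nat.card G := by
        rw [h2]
        intro hd
        exact (Nat.not_even_iff_odd.mpr hodd) (even_iff_two_dvd.mpr hd)
      rw [pCore_eq_bot_of_not_dvd r hnd]
      exact bot_le
    · intro y hy
      rw [Subgroup.mem_centralizer_iff]
      intro h hh
      have hordH : orderOf h ∣ Nat.card H := by
        have := orderOf_dvd_natCard (⟨h, hh⟩ : H)
        rwa [Subgroup.orderOf_mk] at this
      have hN : h ∈ Subgroup.normalizer ((Cfsg.pCore r G : Subgroup G) : Set G) := by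
        rw [Subgroup.normalizer_eq_top_iff.mpr (pCore_normal r)]; exact Subgroup.mem_top h
      have hoddh : Odd (orderOf h) := Odd.of_dvd_nat hodd (orderOf_dvd_natCard h)
      refine RankTwo.large_primes_centralize r h2 (Cfsg.pCore r G) (pCore_isPGroup r) (hrk r hr)
        h hN hoddh ?_ y hy
      intro q hq hqd
      have : q ∈ π := hH.1 q hq (hqd.trans hordH)
      rw [hπdef] at this
      exact lt_of_le_of_lt hrp this.2
  -- O_r(G) ≤ H for r > p
  have hin : ∀ r : ℕ, r.Prime → p < r → Cfsg.pCore r G ≤ H := by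
    intro r hr hpr
    haveI : Fact r.Prime := ⟨hr⟩
    have hπR : ∀ s : ℕ, s.Prime → s ∣ Nat.card (Cfsg.pCore r G) → s ∈ π := by
      intro s hs hsd
      obtain ⟨k, hk⟩ := IsPGroup.iff_card.mp (pCore_isPGroup (G := G) r)
      rw [hk] at hsd
      have : s = r := (Nat.prime_dvd_prime_iff_eq hs hr).mp (hs.dvd_of_dvd_pow hsd)
      rw [this, hπdef]
      exact ⟨hr, hpr⟩
    obtain ⟨g, hg⟩ := hconj (Cfsg.pCore r G) H hπR hH
    intro y hy
    apply hg
    rw [mem_conj_smul_iff]
    exact (pCore_normal (G := G) r).conj_mem' y hy g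
  have hFN : Cfsg.fittingSubgroup G ≤ Subgroup.normalizer (H : Set G) := by
    rw [fitting_eq_iSup_pCore]
    apply iSup_le
    intro r
    rcases Nat.lt_or_ge p (r : ℕ) with h | h
    · exact (hin r r.2 h).trans Subgroup.le_normalizer
    · exact (hcen r r.2 h).trans (Subgroup.centralizer_le_normalizer _)
  -- conjugates of H lie in H
  have hconjH : ∀ g : G, MulAut.conj g • H ≤ H := by
    intro g
    obtain ⟨U, hUdef⟩ : ∃ U : Subgroup G, U = MulAut.conj g • H ⊔ H := ⟨_, rfl⟩
    have hgN : MulAut.conj g • H ≤ Subgroup.normalizer (H : Set G) := by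
      intro y hy
      rw [mem_conj_smul_iff] at hy
      have h1 : y = ⁅g, g⁻¹ * y * g⁆ * (g⁻¹ * y * g) := by rw [commutatorElement_def]; group
      rw [h1]
      apply Subgroup.mul_mem _ _ (Subgroup.le_normalizer hy)
      apply hFN
      apply hKF
      rw [commutator_def]
      exact Subgroup.commutator_mem_commutator (Subgroup.mem_top _) (Subgroup.mem_top _)
    have hUcard : Nat.card U ∣ Nat.card (MulAut.conj g • H : Subgroup G) * Nat.card H := by
      have h1 := relIndex_sup_of_le_normalizer (MulAut.conj g • H) H hgN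
      have h2 := Subgroup.card_mul_index (H.subgroupOf (MulAut.conj g • H ⊔ H))
      rw [card_subgroupOf_of_le le_sup_right] at h2
      have h3 : (H.subgroupOf (MulAut.conj g • H ⊔ H)).index =
          H.relIndex (MulAut.conj g • H ⊔ H) := rfl
      rw [h3, h1] at h2
      rw [hUdef, ← h2, mul_comm]
      exact Nat.mul_dvd_mul_right (Subgroup.relIndex_dvd_card _ _) _
    have hUπ : ∀ s : ℕ, s.Prime → s ∣ Nat.card U → s ∈ π := by
      intro s hs hsd
      have h1 := hsd.trans hUcard
      rw [card_conj_smul] at h1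
      rcases (Nat.Prime.dvd_mul hs).mp h1 with h2 | h2
      · exact hH.1 s hs h2
      · exact hH.1 s hs h2
    obtain ⟨g', hg'⟩ := hconj U H hUπ hH
    have hcardle : Nat.card U ≤ Nat.card H := by
      rw [← card_conj_smul g' U]
      exact Nat.le_of_dvd Nat.card_pos (Subgroup.card_dvd_of_le hg')
    have hHU : H ≤ U := by rw [hUdef]; exact le_sup_right
    have hUH : H = U := Subgroup.eq_of_le_of_card_ge hHU hcardle
    have hgU : MulAut.conj g • H ≤ U := by rw [hUdef]; exact le_sup_left
    exact le_of_le_of_eq hgU hUH.symm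
  have hHn : H.Normal := by
    refine ⟨fun n hn g => ?_⟩
    exact hconjH g (conj_mem_conj_smul g n H hn)
  refine ⟨H, ?_, hH⟩
  rw [Subgroup.characteristic_iff_map_le]
  intro φ
  have hcard : Nat.card (H.map φ.toMonoidHom) = Nat.card H :=
    Subgroup.card_map_of_injective φ.injective
  have hUπ : ∀ s : ℕ, s.Prime → s ∣ Nat.card (H.map φ.toMonoidHom) → s ∈ π := by
    intro s hs hsd
    rw [hcard] at hsd
    exact hH.1 s hs hsd
  obtain ⟨g, hg⟩ := hconj (H.map φ.toMonoidHom) H hUπ hH
  intro y hy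
  have h1 : g * y * g⁻¹ ∈ H := hg (conj_mem_conj_smul g y _ hy)
  have h2 := hHn.conj_mem' _ h1 g
  have h3 : g⁻¹ * (g * y * g⁻¹) * g = y := by group
  rwa [h3] at h2

end main

end Cfsg.Agent.H1.RankTwoTower

namespace Cfsg.Agent.H1.RankTwoTower

open Cfsg.Agent.H1

theorem pRankLE_of_injective {H G : Type*} [Group H] [Group G] (f : H →* G)
    (hf : Function.Injective f) (p k : ℕ) (h : Cfsg.PRankLE p k G) : Cfsg.PRankLE p k H := by
  intro A hA hexp
  have hc : IsMulCommutative ↥(A.map f) := by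
    refine ⟨⟨?_⟩⟩
    rintro ⟨_, ⟨a, ha, rfl⟩⟩ ⟨_, ⟨b, hb, rfl⟩⟩
    apply Subtype.ext
    show f a * f b = f b * f a
    have h1 : a * b = b * a := setLike_mul_comm ha hb
    rw [← map_mul, ← map_mul, h1]
  have h1 := h (A.map f) hc (by
    rintro _ ⟨a, ha, rfl⟩
    rw [← map_pow, hexp a ha, map_one])
  rwa [Subgroup.card_map_of_injective hf] at h1

/-- Rank hypothesis of S1451 passes to the `q`-cores. -/
theorem pRankLE_pCore {G : Type*} [Group G] [Finite G]
    (hr : Cfsg.RankLE 2 G ∨ Cfsg.RankLE 2 (Cfsg.fittingSubgroup G)) :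
    ∀ q : ℕ, q.Prime → Cfsg.PRankLE q 2 ↥(Cfsg.pCore q G) := by
  intro q hq
  haveI : Fact q.Prime := ⟨hq⟩
  rcases hr with h | h
  · exact pRankLE_of_injective (Cfsg.pCore q G).subtype (Subgroup.subtype_injective _) q 2 (h q hq)
  · have hle : Cfsg.pCore q G ≤ Cfsg.fittingSubgroup G :=
      le_fitting (Cfsg.pCore q G) (pCore_isPGroup q).isNilpotent
    exact pRankLE_of_injective (Subgroup.inclusion hle) (Subgroup.inclusion_injective hle) q 2
      (h q hq)

end Cfsg.Agent.H1.RankTwoTower
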