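import Mathlib
import Cfsg.Agent.H96.RoDefs

set_option autoImplicit false

namespace Cfsg.Agent.H1.Ro

open Cfsg.Agent.H96.Ro

universe u v

theorem cube_coord (K : Type u) [Field K] [CharP K 3] (n : ℕ) (t u v : K) :
    t + t + t = 0 ∧ u + u - t ^ n * t + u - t ^ n * (t + t) = 0 ∧
    v + v - t * u + t ^ n * t * t - t ^ n * t ^ 2 + v - t * (u + u - t ^ n * t) +
      t ^ n * (t + t) * t - t ^ n * (t + t) ^ 2 = -(t ^ (n + 2)) := by
  have h3 : (3 : K) = 0 := by exact_mod_cast CharP.cast_eq_zero K 3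
  refine ⟨?_, ?_, ?_⟩
  · linear_combination t * h3
  · linear_combination (u - t ^ n * t) * h3
  · linear_combination (v - t * u) * h3

theorem cube : StCube.{u, v} := by
  intro K _ _ n
  refine ⟨?_, ?_⟩
  · rintro ⟨t, u, v⟩
    obtain ⟨h1, h2, h3⟩ := cube_coord K n t u v
    simp only [rm, Prod.mk.injEq]
    exact ⟨h1, h2, h3⟩
  · intro G _ D t u v
    obtain ⟨h1, h2, h3⟩ := cube_coord K n t u v
    rw [pow_succ, pow_succ, pow_one, D.R_mul, D.R_mul, h1, h2, h3]

example : Cfsg.Agent.H96.Ro.StCube.{u, v} := cube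

end Cfsg.Agent.H1.Ro
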