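import Mathlib
import Cfsg.Agent.H96.RoDefs

set_option autoImplicit false

namespace Cfsg.Agent.H1.Ro

open Cfsg.Agent.H96.Ro

universe u

theorem triv2A (ha : StArith.{u}) : StTriv2A.{u} := by
  intro K _ _ _ m hm hcard γ hγ F2 G3 f3 g1 g2 hshape hF2 hG3 hF2e hG3e hg1e
  obtain ⟨-, ⟨t0, ht0⟩, hA3, -, -, -, -⟩ := ha K m hm hcard
  have h3 : (3 : K) = 0 := by exact_mod_cast CharP.cast_eq_zero K 3
  have hodd : Odd (3 ^ (m + 1)) := Odd.pow (by decide)
  generalize 3 ^ (m + 1) = n at *
  have hF0 : F2 0 = 0 := by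
    have := hF2 0 0
    rw [add_zero] at this
    linear_combination -this
  have hFneg : ∀ x, F2 (-x) = -F2 x := by
    intro x
    have := hF2 x (-x)
    rw [add_neg_cancel, hF0] at this
    linear_combination -this
  -- the key relation from multiplicativity on `(t,0,0)`, `(t',0,0)`
  have key : ∀ t t' : K, g1 (t + t') - F2 (t' ^ n * t) = g1 t + g1 t' - t' ^ n * t := by
    intro t t'
    have h := hγ (t, 0, 0) (t', 0, 0)
    have h2 := congrArg (fun p : K × K × K => p.2.1) h
    simp only [rm, hshape, hF0, add_zero, zero_sub, hFneg] at h2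
    linear_combination h2
  have hE1 : ∀ t : K, F2 (t ^ n) - t ^ n = F2 t - t := by
    intro t
    have k1 := key t 1
    have k2 := key 1 t
    rw [one_pow, one_mul] at k1
    rw [mul_one, add_comm 1 t] at k2
    linear_combination k1 - k2
  have hFsq : ∀ r x : K, F2 (r ^ 2 * x) = r ^ 2 * F2 x := by
    intro r x
    by_cases hr : r = 0
    · subst hr
      simp [hF0]
    · have hκ : r ^ (n - 1) ≠ 0 := pow_ne_zero _ hr
      have := hF2e (r ^ (n - 1)) hκ x
      rw [hA3 r hr] at this
      exact this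
  have hFlin : ∀ a x : K, F2 (a * x) = a * F2 x := by
    intro a x
    have e : a * x = (a + 1) ^ 2 * x + -((a - 1) ^ 2 * x) := by
      linear_combination (-(a * x)) * h3
    rw [e, hF2, hFneg, hFsq, hFsq]
    linear_combination (a * F2 x) * h3
  have hF1 : F2 1 = 1 := by
    have h1 := hE1 t0
    have h2 := hFlin (t0 ^ n) 1
    have h4 := hFlin t0 1
    rw [mul_one] at h2 h4
    rw [h2, h4] at h1
    have h5 : (t0 ^ n - t0) * (F2 1 - 1) = 0 := by linear_combination h1
    rcases mul_eq_zero.1 h5 with h6 | h6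
    · exact absurd (sub_eq_zero.1 h6) ht0
    · exact sub_eq_zero.1 h6
  have hFid : ∀ x : K, F2 x = x := by
    intro x
    have := hFlin x 1
    rw [mul_one, hF1, mul_one] at this
    exact this
  have hg1add : ∀ t t' : K, g1 (t + t') = g1 t + g1 t' := by
    intro t t'
    have := key t t'
    rw [hFid] at this
    linear_combination this
  have hg10 : g1 0 = 0 := by
    have := hg1add 0 0
    rw [add_zero] at this
    linear_combination -this
  have hm1 : (-1 : K) ≠ 0 := neg_ne_zero.mpr one_ne_zero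
  have heven : Even (n + 1) := hodd.add_one
  have hodd2 : Odd (n + 2) := by
    obtain ⟨k, hk⟩ := hodd
    exact ⟨k + 1, by omega⟩
  refine ⟨hFid, ?_, ?_⟩
  · intro x
    have h1 := hg1e (-1) hm1 x
    rw [heven.neg_one_pow, one_mul] at h1
    have h2 := hg1add x (-1 * x)
    have e : x + -1 * x = 0 := by ring
    rw [e, hg10, h1] at h2
    linear_combination h2 + g1 x * h3
  · intro x
    have h1 := hG3e (-1) hm1 x
    rw [heven.neg_one_pow, one_mul, hodd2.neg_one_pow] at h1
    linear_combination (-1 : K) * h1 + G3 x * h3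

example : (StArith.{u}) → Cfsg.Agent.H96.Ro.StTriv2A.{u} := triv2A

end Cfsg.Agent.H1.Ro
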