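import Cfsg.Agent.S0012
import Cfsg.Agent.S0013
import Cfsg.Prelude.Def_Transfer

/-!
# A `p`-group `G = [G, A]` on whose characteristic abelian subgroups the `p'`-group `A` acts
trivially is special (S0119)
-/

set_option autoImplicit false
open scoped commutatorElement

namespace Cfsg.Agent.H1

namespace ThSpecial

variable {G : Type*} [Group G]

/-- Characteristic abelian subgroups are central. -/
theorem char_abelian_le_center (A : Subgroup (MulAut G))
    (hGA : Subgroup.closure {x : G | ∃ g : G, ∃ a ∈ A, x = g⁻¹ * a g} = ⊤)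
    (hchar : ∀ H : Subgroup G, H.Characteristic → IsMulCommutative H →
      ∀ a ∈ A, ∀ h ∈ H, a h = h)
    (H : Subgroup G) (hH : H.Characteristic) (hHc : IsMulCommutative H) :
    H ≤ Subgroup.center G := by
  intro c hc
  rw [Subgroup.mem_center_iff]
  have hle : Subgroup.closure {x : G | ∃ g : G, ∃ a ∈ A, x = g⁻¹ * a g}
      ≤ Subgroup.centralizer {c} := by
    rw [Subgroup.closure_le]
    rintro x ⟨g, a, ha, rfl⟩
    rw [SetLike.mem_coe, Subgroup.mem_centralizer_singleton_iff]
    have hn : H.Normal := @Subgroup.normal_of_characteristic _ _ H hH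
    have h1 : g * c * g⁻¹ ∈ H := hn.conj_mem c hc g
    have h2 := hchar H hH hHc a ha _ h1
    rw [map_mul, map_mul, map_inv, hchar H hH hHc a ha c hc] at h2
    symm
    calc c * (g⁻¹ * a g) = g⁻¹ * (g * c * g⁻¹) * a g := by group
      _ = g⁻¹ * (a g * c * (a g)⁻¹) * a g := by rw [h2]
      _ = g⁻¹ * a g * c := by group
  intro g
  have hg : g ∈ Subgroup.centralizer {c} := hle (by rw [hGA]; trivial)
  rw [Subgroup.mem_centralizer_singleton_iff] at hg
  exact hg

/-- The second centre centralises the derived subgroup. -/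
theorem commutator_le_centralizer_ucs2 :
    commutator G ≤ Subgroup.centralizer (Subgroup.upperCentralSeries G 2 : Set G) := by
  have h1 : ⁅Subgroup.upperCentralSeries G 2, (⊤ : Subgroup G)⁆ ≤ Subgroup.center G := by
    rw [Subgroup.commutator_le]
    intro x hx y _
    have h2 := Subgroup.mem_upperCentralSeries_succ_iff.mp hx y
    rwa [Subgroup.upperCentralSeries_one] at h2
  have h3 : ⁅Subgroup.center G, (⊤ : Subgroup G)⁆ = ⊥ := by
    rw [Subgroup.commutator_eq_bot_iff_le_centralizer]
    exact Subgroup.center_le_centralizer _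
  have h4 : ⁅⁅Subgroup.upperCentralSeries G 2, (⊤ : Subgroup G)⁆, (⊤ : Subgroup G)⁆ = ⊥ := by
    rw [eq_bot_iff, ← h3]
    exact Subgroup.commutator_mono h1 le_rfl
  have h5 : ⁅⁅(⊤ : Subgroup G), Subgroup.upperCentralSeries G 2⁆, (⊤ : Subgroup G)⁆ = ⊥ := by
    rw [Subgroup.commutator_comm ⊤ (Subgroup.upperCentralSeries G 2)]; exact h4
  have h6 := Subgroup.commutator_commutator_eq_bot_of_rotate h5 h4
  rw [Subgroup.commutator_eq_bot_iff_le_centralizer] at h6
  rw [commutator_def]; exact h6

/-- If all characteristic abelian subgroups of the nilpotent group `G` are central then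
`G' ≤ Z(G)`. -/
theorem commutator_le_center [Group.IsNilpotent G]
    (hcen : ∀ H : Subgroup G, H.Characteristic → IsMulCommutative H → H ≤ Subgroup.center G) :
    commutator G ≤ Subgroup.center G := by
  have hC : Subgroup.upperCentralSeries G 2 ⊓ commutator G ≤ Subgroup.center G := by
    apply hcen _ inferInstance
    rw [isMulCommutative_iff]
    rintro ⟨x, hx⟩ ⟨y, hy⟩
    apply Subtype.ext
    have h0 : y ∈ commutator G := hy.2
    have h1 := commutator_le_centralizer_ucs2 h0
    rw [Subgroup.mem_centralizer_iff] at h1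
    exact h1 x hx.1
  have hk : ∀ k : ℕ, commutator G ⊓ Subgroup.upperCentralSeries G (k + 1) ≤ Subgroup.center G := by
    intro k
    induction k with
    | zero =>
      rw [zero_add, Subgroup.upperCentralSeries_one]; exact inf_le_right
    | succ k ih =>
      intro x hx
      apply hC
      have hx1 : x ∈ commutator G := hx.1
      have hx2 : x ∈ Subgroup.upperCentralSeries G (k + 1 + 1) := hx.2
      refine Subgroup.mem_inf.mpr ⟨?_, hx1⟩
      rw [Subgroup.mem_upperCentralSeries_succ_iff, Subgroup.upperCentralSeries_one]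
      intro y
      apply ih
      refine Subgroup.mem_inf.mpr ⟨?_, Subgroup.mem_upperCentralSeries_succ_iff.mp hx2 y⟩
      rw [commutator_def]
      exact Subgroup.commutator_mem_commutator (Subgroup.mem_top _) (Subgroup.mem_top _)
  obtain ⟨n, hn⟩ := Group.IsNilpotent.nilpotent G
  have hn' : Subgroup.upperCentralSeries G (n + 1) = ⊤ := by
    rw [eq_top_iff, ← hn]
    exact Subgroup.upperCentralSeries_mono G (Nat.le_succ n)
  have := hk n
  rwa [hn', inf_top_eq] at this

/-- The fixed points of `A` lie in the derived subgroup. -/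
theorem fixed_mem_commutator [Finite G] {p : ℕ} [Fact p.Prime] (hG : IsPGroup p G)
    (A : Subgroup (MulAut G)) (hA : Nat.Coprime (Nat.card A) p)
    (hGA : Subgroup.closure {x : G | ∃ g : G, ∃ a ∈ A, x = g⁻¹ * a g} = ⊤)
    (x : G) (hx : ∀ a ∈ A, a x = x) : x ∈ commutator G := by
  classical
  have hfin : Finite A := by
    apply Nat.finite_of_card_ne_zero
    intro h
    rw [h, Nat.coprime_zero_left] at hA
    exact (Fact.out : p.Prime).one_lt.ne' hA
  have : Fintype A := Fintype.ofFinite A
  set ν : G →* Abelianization G :=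
    ∏ a : A, (Abelianization.of).comp ((a : MulAut G) : G ≃* G).toMonoidHom with hνdef
  have hν : ∀ g, ν g = ∏ a : A, Abelianization.of ((a : MulAut G) g) := by
    intro g
    rw [hνdef, MonoidHom.finsetProd_apply]
    rfl
  have hker : Subgroup.closure {x : G | ∃ g : G, ∃ a ∈ A, x = g⁻¹ * a g} ≤ ν.ker := by
    rw [Subgroup.closure_le]
    rintro _ ⟨g, a₀, ha₀, rfl⟩
    rw [SetLike.mem_coe, MonoidHom.mem_ker, map_mul, map_inv, inv_mul_eq_one, hν, hν]
    exact (Equiv.prod_comp (Equiv.mulRight (⟨a₀, ha₀⟩ : A))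
      (fun a : A => Abelianization.of ((a : MulAut G) g))).symm
  have hx1 : ν x = 1 := hker (by rw [hGA]; trivial)
  rw [hν] at hx1
  have hx2 : (Abelianization.of x) ^ Nat.card A = 1 := by
    rw [← hx1, Nat.card_eq_fintype_card, ← Finset.card_univ, ← Finset.prod_const]
    apply Finset.prod_congr rfl
    intro a _
    rw [hx a a.2]
  obtain ⟨k, hk⟩ := hG x
  have hx3 : (Abelianization.of x) ^ (p ^ k) = 1 := by rw [← map_pow, hk, map_one]
  have h1 : orderOf (Abelianization.of x) ∣ Nat.card A := orderOf_dvd_of_pow_eq_one hx2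
  have h2 : orderOf (Abelianization.of x) ∣ p ^ k := orderOf_dvd_of_pow_eq_one hx3
  have h3 : orderOf (Abelianization.of x) = 1 :=
    Nat.eq_one_of_dvd_coprimes (Nat.Coprime.pow_right k hA) h1 h2
  rw [orderOf_eq_one_iff] at h3
  rw [← Abelianization.ker_of]; exact h3

/-- In a class-two group, an element whose `p`-th power is central commutes with all `p`-th
powers. -/
theorem comm_pow_of_pow_mem_center (hZ : commutator G ≤ Subgroup.center G) (p : ℕ) (d h : G)
    (hd : d ^ p ∈ Subgroup.center G) : d * h ^ p = h ^ p * d := by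
  have hc : ⁅d, h⁆ ∈ Subgroup.center G := by
    apply hZ
    rw [commutator_def]
    exact Subgroup.commutator_mem_commutator (Subgroup.mem_top _) (Subgroup.mem_top _)
  have hcomm : ∀ g : G, Commute ⁅d, h⁆ g := fun g => (Subgroup.mem_center_iff.mp hc g).symm
  have e1 : d * h * d⁻¹ = ⁅d, h⁆ * h := by rw [commutatorElement_def]; group
  have e2 : h * d * h⁻¹ = ⁅d, h⁆⁻¹ * d := by rw [commutatorElement_def]; group
  have e3 : h * d ^ p * h⁻¹ = (⁅d, h⁆⁻¹) ^ p * d ^ p := by
    rw [← conj_pow, e2, ((hcomm d).inv_left).mul_pow]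
  have e4 : h * d ^ p * h⁻¹ = d ^ p := by
    rw [Subgroup.mem_center_iff.mp hd h, mul_inv_cancel_right]
  have e5 : ⁅d, h⁆ ^ p = 1 := by
    rw [e4] at e3
    have h1 : (⁅d, h⁆⁻¹) ^ p = 1 := by
      have := mul_right_cancel (a := 1) (b := d ^ p) (c := (⁅d, h⁆⁻¹) ^ p) (by rw [one_mul]; exact e3)
      exact this.symm
    rwa [inv_pow, inv_eq_one] at h1
  have e6 : d * h ^ p * d⁻¹ = h ^ p := by
    rw [← conj_pow, e1, (hcomm h).mul_pow, e5, one_mul]
  calc d * h ^ p = (d * h ^ p * d⁻¹) * d := by group
    _ = h ^ p * d := by rw [e6]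

/-- `G / Z(G)` has exponent `p`. -/
theorem pow_p_mem_center [Finite G] {p : ℕ} [Fact p.Prime] (hG : IsPGroup p G)
    (hZ : commutator G = Subgroup.center G)
    (hcen : ∀ H : Subgroup G, H.Characteristic → IsMulCommutative H → H ≤ Subgroup.center G) :
    ∀ g : G, g ^ p ∈ Subgroup.center G := by
  set D : Subgroup G := Subgroup.comap (Abelianization.of)
    (powMonoidHom p : Abelianization G →* Abelianization G).ker with hD
  have hmemD : ∀ x : G, x ∈ D ↔ x ^ p ∈ Subgroup.center G := by
    intro x
    rw [hD, Subgroup.mem_comap, MonoidHom.mem_ker, powMonoidHom_apply, ← map_pow, ← hZ,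
      ← Abelianization.ker_of, MonoidHom.mem_ker]
  have hDchar : D.Characteristic := by
    rw [Subgroup.characteristic_iff_comap_le]
    intro ϕ x hx
    rw [Subgroup.mem_comap] at hx
    rw [hmemD] at hx ⊢
    have h1 : (Subgroup.center G).comap ϕ.toMonoidHom = Subgroup.center G :=
      Subgroup.centerCharacteristic.fixed ϕ
    rw [← h1, Subgroup.mem_comap]
    change ϕ (x ^ p) ∈ Subgroup.center G
    rw [map_pow]
    exact hx
  have hE : D ⊓ Subgroup.centralizer (D : Set G) ≤ Subgroup.center G := by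
    apply hcen _ inferInstance
    rw [isMulCommutative_iff]
    rintro ⟨x, hx⟩ ⟨y, hy⟩
    apply Subtype.ext
    have h1 : x ∈ Subgroup.centralizer (D : Set G) := hx.2
    rw [Subgroup.mem_centralizer_iff] at h1
    exact (h1 y hy.1).symm
  have hstep : ∀ k : ℕ, 1 ≤ k → (∀ g : G, g ^ (p ^ (k + 1)) ∈ Subgroup.center G) →
      ∀ g : G, g ^ (p ^ k) ∈ Subgroup.center G := by
    intro k hk hP g
    apply hE
    refine Subgroup.mem_inf.mpr ⟨?_, ?_⟩
    · rw [hmemD, ← pow_mul, ← pow_succ]; exact hP g
    · rw [Subgroup.mem_centralizer_iff]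
      intro d hd
      obtain ⟨j, rfl⟩ : ∃ j, k = j + 1 := ⟨k - 1, by omega⟩
      rw [pow_succ, pow_mul]
      exact comm_pow_of_pow_mem_center hZ.le p d _ ((hmemD d).mp hd)
  obtain ⟨n, hn⟩ := IsPGroup.iff_card.mp hG
  have hPn : ∀ g : G, g ^ (p ^ (n + 1)) ∈ Subgroup.center G := by
    intro g
    rw [pow_succ, pow_mul, ← hn, pow_card_eq_one', one_pow]
    exact Subgroup.one_mem _
  have hdesc : ∀ m : ℕ, (∀ g : G, g ^ (p ^ (m + 1)) ∈ Subgroup.center G) →
      ∀ g : G, g ^ (p ^ 1) ∈ Subgroup.center G := by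
    intro m
    induction m with
    | zero => intro h; exact h
    | succ m ih => intro h; exact ih (hstep (m + 1) (by omega) h)
  intro g
  have := hdesc n hPn g
  rwa [pow_one] at this

end ThSpecial

/-- Thompson: if the `p'`-group `A` of automorphisms of the `p`-group `G` satisfies
`G = [G, A]` and acts trivially on every characteristic abelian subgroup, then `G` is special
and `Z(G) = C_G(A)` (= S0119). -/
theorem thompson_special {G : Type*} [Group G] [Finite G] {p : ℕ} [Fact p.Prime]
    (hG : IsPGroup p G) (A : Subgroup (MulAut G)) (hA : Nat.Coprime (Nat.card A) p)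
    (hGA : Subgroup.closure {x : G | ∃ g : G, ∃ a ∈ A, x = g⁻¹ * a g} = ⊤)
    (hchar : ∀ H : Subgroup G, H.Characteristic → IsMulCommutative H →
      ∀ a ∈ A, ∀ h ∈ H, a h = h) :
    Cfsg.IsSpecial p G ∧ (∀ g : G, (g ∈ Subgroup.center G ↔ ∀ a ∈ A, a g = g)) := by
  have hcen := ThSpecial.char_abelian_le_center A hGA hchar
  have : Group.IsNilpotent G := hG.isNilpotent
  have h1 : commutator G ≤ Subgroup.center G := ThSpecial.commutator_le_center hcen
  have hfix : ∀ g : G, g ∈ Subgroup.center G → ∀ a ∈ A, a g = g := by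
    intro g hg a ha
    exact hchar (Subgroup.center G) inferInstance inferInstance a ha g hg
  have h2 : Subgroup.center G ≤ commutator G := fun g hg =>
    ThSpecial.fixed_mem_commutator hG A hA hGA g (hfix g hg)
  have hZ : commutator G = Subgroup.center G := le_antisymm h1 h2
  have hpow := ThSpecial.pow_p_mem_center hG hZ hcen
  have h3 : frattini G ≤ Subgroup.center G := Cfsg.Agent.S0013.result p hG _ h1 hpow
  have h4 : Subgroup.center G ≤ frattini G := by
    rw [← hZ]; exact (Cfsg.Agent.S0012.result p hG).1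
  refine ⟨⟨hG, le_antisymm h3 h4, hZ⟩, fun g => ⟨hfix g, fun hg => ?_⟩⟩
  exact h1 (ThSpecial.fixed_mem_commutator hG A hA hGA g hg)

end Cfsg.Agent.H1
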