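import Cfsg.Agent.H1.MinNormal
import Cfsg.Agent.H1.Index

/-!
# A factorisation criterion for solvability (S0019)
-/

set_option autoImplicit false

namespace Cfsg.Agent.H1

universe u

/-- A subgroup `K` of `p'`-index with `G = H K` contains every normal `p`-subgroup of `H`,
hence contains a nontrivial solvable normal subgroup of `G` if `H` is nontrivial solvable. -/
theorem wielandt_key {G : Type u} [Group G] [Finite G] (H K : Subgroup G) (p : ℕ) (hp : p.Prime)
    (N : Subgroup H) (hNn : N.Normal) (hNb : N ≠ ⊥) (hpN : IsPGroup p N)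
    (hHK : ∀ g : G, ∃ x ∈ H, ∃ y ∈ K, g = x * y) (hpK : ¬ p ∣ K.index)
    (hK : Group.IsSolvable K) :
    ∃ M : Subgroup G, M.Normal ∧ M ≠ ⊥ ∧ Group.IsSolvable M := by
  have : Fact p.Prime := ⟨hp⟩
  -- N fixes a point of G ⧸ K
  have hcard : ¬ p ∣ Nat.card (G ⧸ K) := by rwa [← Subgroup.index_eq_card]
  have hpN' : IsPGroup p (N.map H.subtype) := hpN.map _
  obtain ⟨q, hq⟩ := hpN'.nonempty_fixed_point_of_prime_not_dvd_card (G ⧸ K) hcard
  obtain ⟨g, rfl⟩ := QuotientGroup.mk_surjective q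
  have hfix : ∀ n ∈ N.map H.subtype, g⁻¹ * n * g ∈ K := by
    intro n hn
    have h1 := hq ⟨n, hn⟩
    change (QuotientGroup.mk (n * g) : G ⧸ K) = QuotientGroup.mk g at h1
    rw [QuotientGroup.eq] at h1
    have h2 := K.inv_mem h1
    have h3 : ((n * g)⁻¹ * g)⁻¹ = g⁻¹ * n * g := by group
    rwa [h3] at h2
  -- N ≤ K
  have hNK : N.map H.subtype ≤ K := by
    obtain ⟨x, hx, y, hy, hg⟩ := hHK g
    intro m hm
    obtain ⟨m', hm', rfl⟩ := hm
    have h1 : (⟨x, hx⟩ : H) * m' * (⟨x, hx⟩ : H)⁻¹ ∈ N := hNn.conj_mem m' hm' ⟨x, hx⟩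
    have h2 := hfix _ (Subgroup.mem_map_of_mem H.subtype h1)
    have h3 : g⁻¹ * H.subtype ((⟨x, hx⟩ : H) * m' * (⟨x, hx⟩ : H)⁻¹) * g
        = y⁻¹ * H.subtype m' * y := by
      simp only [Subgroup.subtype_apply, Subgroup.coe_mul, Subgroup.coe_inv, hg]
      group
    rw [h3] at h2
    have h4 := K.mul_mem (K.mul_mem hy h2) (K.inv_mem hy)
    have h5 : y * (y⁻¹ * H.subtype m' * y) * y⁻¹ = H.subtype m' := by group
    rwa [h5] at h4
  -- normal closure
  have hKH : ∀ g : G, ∃ y ∈ K, ∃ x ∈ H, g = y * x := by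
    intro g
    obtain ⟨x, hx, y, hy, hg⟩ := hHK g⁻¹
    refine ⟨y⁻¹, K.inv_mem hy, x⁻¹, H.inv_mem hx, ?_⟩
    rw [← mul_inv_rev, ← hg, inv_inv]
  have hclos : Subgroup.normalClosure (N.map H.subtype : Set G) ≤ K := by
    rw [Subgroup.normalClosure, Subgroup.closure_le]
    intro a ha
    rw [Group.mem_conjugatesOfSet_iff] at ha
    obtain ⟨b, hb, hba⟩ := ha
    rw [isConj_iff] at hba
    obtain ⟨c, rfl⟩ := hba
    obtain ⟨y, hy, x, hx, rfl⟩ := hKH c
    obtain ⟨m', hm', rfl⟩ := hb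
    have h1 : (⟨x, hx⟩ : H) * m' * (⟨x, hx⟩ : H)⁻¹ ∈ N := hNn.conj_mem m' hm' ⟨x, hx⟩
    have h2 := hNK (Subgroup.mem_map_of_mem H.subtype h1)
    have h3 := K.mul_mem (K.mul_mem hy h2) (K.inv_mem hy)
    have h4 : y * H.subtype ((⟨x, hx⟩ : H) * m' * (⟨x, hx⟩ : H)⁻¹) * y⁻¹
        = y * x * H.subtype m' * (y * x)⁻¹ := by
      simp only [Subgroup.subtype_apply, Subgroup.coe_mul, Subgroup.coe_inv]
      group
    rw [h4] at h3
    exact h3
  refine ⟨Subgroup.normalClosure (N.map H.subtype : Set G), Subgroup.normalClosure_normal, ?_,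
    isSolvable_of_le hclos⟩
  intro hbot
  apply hNb
  have h1 : N.map H.subtype ≤ ⊥ := by
    rw [← hbot]; exact Subgroup.subset_normalClosure
  rw [le_bot_iff] at h1
  exact (Subgroup.map_eq_bot_iff_of_injective N H.subtype_injective).mp h1

theorem wielandt_aux (n : ℕ) : ∀ (G : Type u) [Group G] [Finite G] (H₁ H₂ H₃ : Subgroup G),
    Nat.card G ≤ n → Group.IsSolvable H₁ → Group.IsSolvable H₂ → Group.IsSolvable H₃ →
    (∀ g : G, ∃ x ∈ H₁, ∃ y ∈ H₂, g = x * y) → (∀ g : G, ∃ x ∈ H₁, ∃ y ∈ H₃, g = x * y) →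
    H₂.index.Coprime H₃.index → Group.IsSolvable G := by
  induction n with
  | zero =>
    intro G _ _ H₁ H₂ H₃ hn
    exact absurd hn (by have := Nat.card_pos (α := G); omega)
  | succ n ih =>
    intro G _ _ H₁ H₂ H₃ hn h₁ h₂ h₃ h12 h13 hcop
    by_cases hH₁ : Nontrivial H₁
    · obtain ⟨p, N, hp, hNn, hNb, hpN⟩ := exists_normal_pgroup (G := H₁)
      obtain ⟨M, hMn, hMb, hMs⟩ : ∃ M : Subgroup G, M.Normal ∧ M ≠ ⊥ ∧ Group.IsSolvable M := by
        by_cases hp2 : p ∣ H₂.index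
        · have hp3 : ¬ p ∣ H₃.index := fun h =>
            hp.one_lt.ne' (Nat.eq_one_of_dvd_coprimes hcop hp2 h)
          exact wielandt_key H₁ H₃ p hp N hNn hNb hpN h13 hp3 h₃
        · exact wielandt_key H₁ H₂ p hp N hNn hNb hpN h12 hp2 h₂
      have hcard : Nat.card (G ⧸ M) ≤ n := by
        have h1 : Nat.card (G ⧸ M) * Nat.card M = Nat.card G :=
          (Subgroup.card_eq_card_quotient_mul_card_subgroup M).symm
        have h2 : 1 < Nat.card M := by
          rw [Subgroup.one_lt_card_iff_ne_bot]; exact hMb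
        have h3 : 0 < Nat.card (G ⧸ M) := Nat.card_pos
        nlinarith
      have hmap : ∀ K : Subgroup G, Group.IsSolvable K →
          Group.IsSolvable (K.map (QuotientGroup.mk' M)) := by
        intro K hK
        exact Group.isSolvable_of_surjective
          (MonoidHom.subgroupMap_surjective (QuotientGroup.mk' M) K)
      have hfac : ∀ K : Subgroup G, (∀ g : G, ∃ x ∈ H₁, ∃ y ∈ K, g = x * y) →
          ∀ g : G ⧸ M, ∃ x ∈ H₁.map (QuotientGroup.mk' M),
            ∃ y ∈ K.map (QuotientGroup.mk' M), g = x * y := by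
        intro K hK g
        obtain ⟨g, rfl⟩ := QuotientGroup.mk_surjective g
        obtain ⟨x, hx, y, hy, rfl⟩ := hK g
        exact ⟨_, Subgroup.mem_map_of_mem _ hx, _, Subgroup.mem_map_of_mem _ hy, rfl⟩
      have hcop' : (H₂.map (QuotientGroup.mk' M)).index.Coprime
          (H₃.map (QuotientGroup.mk' M)).index :=
        Nat.Coprime.coprime_dvd_left
          (Subgroup.index_map_dvd H₂ (QuotientGroup.mk'_surjective M))
          (Nat.Coprime.coprime_dvd_right
            (Subgroup.index_map_dvd H₃ (QuotientGroup.mk'_surjective M)) hcop)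
      have hsolv : Group.IsSolvable (G ⧸ M) :=
        ih (G ⧸ M) _ _ _ hcard (hmap H₁ h₁) (hmap H₂ h₂) (hmap H₃ h₃) (hfac H₂ h12)
          (hfac H₃ h13) hcop'
      exact Group.isSolvable_of_ker_le_range M.subtype (QuotientGroup.mk' M) (by simp)
    · rw [not_nontrivial_iff_subsingleton] at hH₁
      have htop : H₂ = ⊤ := by
        rw [eq_top_iff]
        intro g _
        obtain ⟨x, hx, y, hy, rfl⟩ := h12 g
        have : (⟨x, hx⟩ : H₁) = 1 := Subsingleton.elim _ _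
        have hx1 : x = 1 := congrArg Subtype.val this
        rw [hx1, one_mul]; exact hy
      subst htop
      exact Group.isSolvable_of_surjective (f := (⊤ : Subgroup G).subtype)
        (fun g => ⟨⟨g, Subgroup.mem_top g⟩, rfl⟩)

/-- Wielandt: `G = H₁H₂ = H₁H₃` with all `Hᵢ` solvable and `[G:H₂]`, `[G:H₃]` coprime
implies `G` solvable (= S0019). -/
theorem wielandt {G : Type u} [Group G] [Finite G] (H₁ H₂ H₃ : Subgroup G)
    (h₁ : Group.IsSolvable H₁) (h₂ : Group.IsSolvable H₂) (h₃ : Group.IsSolvable H₃)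
    (h12 : ∀ g : G, ∃ x ∈ H₁, ∃ y ∈ H₂, g = x * y) (h13 : ∀ g : G, ∃ x ∈ H₁, ∃ y ∈ H₃, g = x * y)
    (hcop : H₂.index.Coprime H₃.index) : Group.IsSolvable G :=
  wielandt_aux (Nat.card G) G H₁ H₂ H₃ le_rfl h₁ h₂ h₃ h12 h13 hcop

end Cfsg.Agent.H1
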