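import Mathlib
import Cfsg.Agent.H72.ZasFrobDefs

set_option autoImplicit false

/-! helper1: piece S3359-TR of helper72's team project S3359: `ZasAx` is inherited along
injective homomorphisms. -/

namespace Cfsg.Agent.H1.ZasF

open Cfsg.Agent.H72.Zas

universe u v

theorem frame_map {G : Type u} {G' : Type v} [Group G] [Group G'] (f : G →* G')
    (hf : Function.Injective f) {t s x : G} (h : Frame t s x) : Frame (f t) (f s) (f x) where
  ot := by rw [orderOf_injective f hf]; exact h.ot
  os := by rw [orderOf_injective f hf]; exact h.os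
  inv := by rw [← map_inv, ← map_mul, ← map_mul, h.inv, map_inv]
  ox := by rw [orderOf_injective f hf]; exact h.ox
  xt := by rw [← map_inv, ← map_mul, ← map_mul, h.xt]
  xs := by rw [← map_inv, ← map_mul, ← map_mul, h.xs, map_mul]

theorem zasAx_of_injective {G : Type u} {G' : Type v} [Group G] [Group G'] (f : G →* G')
    (hf : Function.Injective f) (hax : ZasAx G') : ZasAx G where
  ab := by
    intro A hA
    have h1 : IsCyclic (A.map f) := by
      apply hax.ab
      rintro _ ⟨x, hx, rfl⟩ _ ⟨y, hy, rfl⟩
      rw [← map_mul, ← map_mul, hA x hx y hy]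
    exact (MulEquiv.isCyclic (A.equivMapOfInjective f hf)).2 h1
  pq := by
    intro A p q hp hq hA
    have h1 : IsCyclic (A.map f) := by
      apply hax.pq _ p q hp hq
      rw [← hA]
      exact (Nat.card_congr (A.equivMapOfInjective f hf).toEquiv).symm
    exact (MulEquiv.isCyclic (A.equivMapOfInjective f hf)).2 h1
  invol := by
    intro x y hx hy
    apply hf
    apply hax.invol
    · rw [orderOf_injective f hf]; exact hx
    · rw [orderOf_injective f hf]; exact hy
  u2 := by
    intro t s x u hF hu hut hsu
    apply hf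
    rw [map_one]
    apply hax.u2 (f t) (f s) (f x) (f u) (frame_map f hf hF)
    · rw [orderOf_injective f hf]; exact hu
    · rw [← map_mul, ← map_mul, hut]
    · rw [← map_inv, ← map_mul, ← map_mul, hsu, map_inv]
  caseB := by
    intro a b t₁ s₁ x₁ t₂ s₂ x₂ n ha hn hb hba ht₁ hs₁ ht₂ hs₂ hF₁ hF₂
    refine hax.caseB (f a) (f b) (f t₁) (f s₁) (f x₁) (f t₂) (f s₂) (f x₂) n ?_ hn ?_ ?_ ?_ ?_ ?_ ?_
      (frame_map f hf hF₁) (frame_map f hf hF₂)
    · rw [orderOf_injective f hf]; exact ha
    · rw [orderOf_injective f hf]; exact hb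
    · rw [← map_inv, ← map_mul, ← map_mul, hba, map_inv]
    · rcases ht₁ with h | h
      · left; rw [h, map_pow]
      · right; rw [h, map_inv, map_pow]
    · rcases hs₁ with h | h
      · left; rw [h]
      · right; rw [h, map_inv]
    · rcases ht₂ with h | h
      · left; rw [h, map_pow]
      · right; rw [h, map_inv, map_pow]
    · rcases hs₂ with h | h
      · left; rw [h, map_mul]
      · right; rw [h, map_inv, map_mul]

theorem stTr : StTr.{u, v} := by
  intro G G' _ _ f hf hax
  exact zasAx_of_injective f hf hax

end Cfsg.Agent.H1.ZasF
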