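import Mathlib
import Cfsg.Agent.H72.ZasFrobDefs
import Cfsg.Agent.H16.ZasSyl
import Cfsg.Agent.H1.ZasFTr

set_option autoImplicit false

/-! helper1: piece S3359-CM of helper72's team project S3359: the centralizer of the perfect
normal subgroup `D` of order 120 is `⟨z⟩ × M` with `M` of odd order. -/

namespace Cfsg.Agent.H1.ZasF

open Cfsg.Agent.H72.Zas

universe u

theorem sq_four' {G : Type u} [Group G] {g : G} (hg : orderOf g = 4) : orderOf (g * g) = 2 := by
  have h := orderOf_pow' g (n := 2) (by norm_num)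
  rw [hg] at h
  rw [← pow_two, h]
  rfl

theorem orderOf_conj' {G : Type u} [Group G] (g x : G) : orderOf (g * x * g⁻¹) = orderOf x :=
  orderOf_injective (MulAut.conj g).toMonoidHom (MulAut.conj g).injective x

/-- the unique involution is central. -/
theorem invol_central {G : Type u} [Group G] (hax : ZasAx G) {z : G} (hz : orderOf z = 2)
    (g : G) : g * z = z * g := by
  have h1 : orderOf (g * z * g⁻¹) = 2 := by rw [orderOf_conj', hz]
  have h2 := hax.invol _ _ h1 hz
  calc g * z = (g * z * g⁻¹) * g := by group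
    _ = z * g := by rw [h2]

/-- In a perfect normal subgroup `D` (nontrivial), there is an element `t` of order 4 and
no element of order 4 of `G` centralizes `D`. -/
theorem no_four_centralizing {G : Type u} [Group G] [Finite G] (hax : ZasAx G) (D : Subgroup G)
    (hperf : commutator D = ⊤) [Nontrivial D] (τ : G) (hτ : ∀ d ∈ D, τ * d = d * τ)
    (hτ4 : orderOf τ = 4) : False := by
  have haxD : ZasAx D := zasAx_of_injective D.subtype D.subtype_injective hax
  obtain ⟨n, hn, ⟨e⟩⟩ := Cfsg.Agent.H16.Zas.part3 haxD hperf (default : Sylow 2 D)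
  haveI : NeZero (2 ^ n) := ⟨by positivity⟩
  obtain ⟨t', ht'e⟩ : ∃ t' : ((default : Sylow 2 D) : Subgroup D), e t' = QuaternionGroup.xa 0 :=
    ⟨e.symm (QuaternionGroup.xa 0), e.apply_symm_apply _⟩
  have ht' : orderOf t' = 4 := by
    rw [← MulEquiv.orderOf_eq e, ht'e]; exact QuaternionGroup.orderOf_xa 0
  obtain ⟨t, htdef⟩ : ∃ t : G, t = ((t' : D) : G) := ⟨_, rfl⟩
  have ht : orderOf t = 4 := by
    rw [htdef, Subgroup.orderOf_coe, Subgroup.orderOf_coe]; exact ht'
  have htD : t ∈ D := by rw [htdef]; exact (t' : D).2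
  have hz : orderOf (t * t) = 2 := sq_four' ht
  have h1 : τ * τ = t * t := hax.invol _ _ (sq_four' hτ4) hz
  have h3 : τ * t = t * τ := hτ t htD
  have h3' : τ⁻¹ * t = t * τ⁻¹ := by
    calc τ⁻¹ * t = τ⁻¹ * (t * τ) * τ⁻¹ := by group
      _ = τ⁻¹ * (τ * t) * τ⁻¹ := by rw [h3]
      _ = t * τ⁻¹ := by group
  have h4 : (t * τ⁻¹) * (t * τ⁻¹) = 1 := by
    calc (t * τ⁻¹) * (t * τ⁻¹) = t * (τ⁻¹ * t) * τ⁻¹ := by group
      _ = t * (t * τ⁻¹) * τ⁻¹ := by rw [h3']
      _ = (t * t) * (τ * τ)⁻¹ := by group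
      _ = 1 := by rw [h1, mul_inv_cancel]
  have h5 : τ = t ∨ τ = t⁻¹ := by
    by_cases h6 : t * τ⁻¹ = 1
    · left; exact (mul_inv_eq_one.mp h6).symm
    · right
      have h7 : orderOf (t * τ⁻¹) = 2 := orderOf_eq_prime (by rw [pow_two]; exact h4) h6
      have h8 : t * τ⁻¹ = t * t := hax.invol _ _ h7 hz
      have h9 : τ⁻¹ = t := mul_left_cancel h8
      rw [← h9, inv_inv]
  have h9 : ∀ d ∈ D, t * d = d * t := by
    rcases h5 with h | h
    · rw [← h]; exact hτ
    · intro d hd
      have h10 := hτ d hd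
      rw [h] at h10
      calc t * d = t * (d * t⁻¹) * t := by group
        _ = t * (t⁻¹ * d) * t := by rw [h10]
        _ = d * t := by group
  apply Cfsg.Agent.H16.Zas.quaternion_no_central_four n hn (QuaternionGroup.xa 0)
    (QuaternionGroup.orderOf_xa 0)
  intro q
  have h10 : e.symm q * t' = t' * e.symm q := by
    apply Subtype.ext
    apply Subtype.ext
    simp only [Subgroup.coe_mul]
    rw [← htdef]
    exact (h9 _ (e.symm q : D).2).symm
  have h11 := congrArg e h10
  rw [map_mul, map_mul, MulEquiv.apply_symm_apply, ht'e] at h11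
  exact h11

theorem stCm : StCm.{u} := by
  intro G _ _ hax D hDn hperf hcard
  haveI : Nontrivial D := by
    rw [← Finite.one_lt_card_iff_nontrivial, hcard]; norm_num
  haveI : Fact (Nat.Prime 2) := ⟨Nat.prime_two⟩
  -- the involution
  obtain ⟨z', hz'⟩ := exists_prime_orderOf_dvd_card' (G := D) 2 (by rw [hcard]; norm_num)
  obtain ⟨z, hzdef⟩ : ∃ z : G, z = (z' : G) := ⟨_, rfl⟩
  have hz : orderOf z = 2 := by rw [hzdef, Subgroup.orderOf_coe]; exact hz'
  have hzD : z ∈ D := by rw [hzdef]; exact z'.2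
  have hzc : ∀ g : G, g * z = z * g := invol_central hax hz
  have hno4 := no_four_centralizing hax D hperf
  obtain ⟨C, hC⟩ : ∃ C : Subgroup G, C = Subgroup.centralizer (D : Set G) := ⟨_, rfl⟩
  have hCn : C.Normal := by rw [hC]; infer_instance
  have hmemC : ∀ c : G, c ∈ C ↔ ∀ d ∈ D, c * d = d * c := by
    intro c; rw [hC, Subgroup.mem_centralizer_iff]; constructor
    · intro h d hd; exact (h d hd).symm
    · intro h d hd; exact (h d hd).symm
  obtain ⟨P⟩ : Nonempty (Sylow 2 C) := inferInstance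
  have hP12 : ∀ x : C, x ∈ P → x = 1 ∨ (x : G) = z := by
    intro x hx
    obtain ⟨k, hk⟩ := (IsPGroup.iff_orderOf.1 P.isPGroup') ⟨x, hx⟩
    have hk' : orderOf (x : G) = 2 ^ k := by
      rw [Subgroup.orderOf_coe, ← hk]
      exact Subgroup.orderOf_coe (⟨x, hx⟩ : (P : Subgroup C))
    rcases Nat.lt_or_ge k 2 with hk2 | hk2
    · interval_cases k
      · left
        rw [pow_zero, orderOf_eq_one_iff] at hk'
        exact Subtype.ext hk'
      · right
        rw [pow_one] at hk'
        exact hax.invol _ _ hk' hz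
    · exfalso
      apply hno4 ((x : G) ^ (2 ^ (k - 2)))
      · intro d hd
        have h1 : Commute (x : G) d := (hmemC x).1 x.2 d hd
        exact (h1.pow_left _).eq
      · rw [orderOf_pow_of_dvd (by positivity) (by rw [hk']; exact pow_dvd_pow 2 (Nat.sub_le k 2)),
          hk', Nat.pow_div (Nat.sub_le k 2) (by norm_num)]
        have : k - (k - 2) = 2 := by omega
        rw [this]
  have hPc : Subgroup.normalizer ((P : Subgroup C) : Set C) ≤
      Subgroup.centralizer ((P : Subgroup C) : Set C) := by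
    intro g _
    rw [Subgroup.mem_centralizer_iff]
    intro x hx
    rcases hP12 x hx with h | h
    · rw [h]; simp
    · apply Subtype.ext
      simp only [Subgroup.coe_mul]
      rw [h]; exact (hzc g).symm
  obtain ⟨φ, hφ⟩ : ∃ φ : C →* (P : Subgroup C), φ = MonoidHom.transferSylow P hPc := ⟨_, rfl⟩
  have hKcompl : Subgroup.IsComplement' φ.ker (P : Subgroup C) := by
    rw [hφ]; exact MonoidHom.ker_transferSylow_isComplement' P hPc
  have hKodd : ¬ 2 ∣ Nat.card φ.ker := by
    rw [hφ]; exact MonoidHom.not_dvd_card_ker_transferSylow P hPc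
  have hKmem : ∀ x : C, Odd (orderOf x) → x ∈ φ.ker := by
    intro x hx
    rw [MonoidHom.mem_ker]
    have h1 : orderOf (φ x) ∣ orderOf x := orderOf_map_dvd φ x
    obtain ⟨k, hk⟩ := (IsPGroup.iff_orderOf.1 P.isPGroup') (φ x)
    rw [hk] at h1
    rcases Nat.eq_zero_or_pos k with h0 | h0
    · rw [h0, pow_zero, orderOf_eq_one_iff] at hk; exact hk
    · exfalso
      have : 2 ∣ orderOf x := (dvd_pow_self 2 h0.ne').trans h1
      exact (Nat.not_even_iff_odd.2 hx) (even_iff_two_dvd.2 this)
  have hKord : ∀ k : C, k ∈ φ.ker → Odd (orderOf k) := by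
    intro k hk
    have h3 : orderOf (⟨k, hk⟩ : φ.ker) ∣ Nat.card φ.ker := orderOf_dvd_natCard _
    rw [← Subgroup.orderOf_coe] at h3
    exact (Nat.not_even_iff_odd.1 (fun h => hKodd (even_iff_two_dvd.1 h))).of_dvd_nat h3
  refine ⟨φ.ker.map C.subtype, ?_, ?_, ?_, ?_⟩
  · refine ⟨fun m hm g => ?_⟩
    obtain ⟨k, hk, rfl⟩ := hm
    have h1 : g * (k : G) * g⁻¹ ∈ C := hCn.conj_mem _ k.2 g
    refine ⟨⟨_, h1⟩, hKmem _ ?_, rfl⟩
    have h2 : orderOf (⟨g * (k : G) * g⁻¹, h1⟩ : C) = orderOf k := by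
      rw [← Subgroup.orderOf_coe, ← Subgroup.orderOf_coe k]
      exact orderOf_conj' g (k : G)
    rw [h2]
    exact hKord k hk
  · rw [Subgroup.card_map_of_injective C.subtype_injective]
    exact Nat.not_even_iff_odd.1 (fun h => hKodd (even_iff_two_dvd.1 h))
  · rintro m ⟨k, -, rfl⟩ d hd
    exact (hmemC k).1 k.2 d hd
  · intro c hc
    have hcC : c ∈ C := (hmemC c).2 hc
    have h1 : (⊤ : Subgroup C) ≤ (D ⊔ φ.ker.map C.subtype).comap C.subtype := by
      rw [← hKcompl.sup_eq_top]
      apply sup_le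
      · intro k hk
        rw [Subgroup.mem_comap]
        exact Subgroup.mem_sup_right ⟨k, hk, rfl⟩
      · intro x hx
        rw [Subgroup.mem_comap]
        apply Subgroup.mem_sup_left
        rcases hP12 x hx with h | h
        · rw [h]; exact one_mem _
        · show (x : G) ∈ D
          rw [h]; exact hzD
    exact h1 (Subgroup.mem_top ⟨c, hcC⟩)

end Cfsg.Agent.H1.ZasF
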