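import Mathlib
import Cfsg.Agent.H72.ZasFrobDefs
import Cfsg.Agent.H16.ZasSyl
import Cfsg.Agent.H73.ZasG2
import Cfsg.Agent.H1.ZasFCm

set_option autoImplicit false

/-! helper1: piece S3359-OD1 of helper72's team project S3359: 3-elements and 5-elements lie in
the perfect normal subgroup `D` of order 120. -/

namespace Cfsg.Agent.H1.ZasF

open Cfsg.Agent.H72.Zas
open scoped commutatorElement

universe u

/-- A cyclic Sylow subgroup one of whose elements is moved inside its own cyclic group by a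
conjugation lies in the commutator subgroup. -/
theorem le_commutator_of_conj {H : Type u} [Group H] [Finite H] {p : ℕ} [Fact p.Prime]
    (P : Sylow p H) [IsCyclic (P : Subgroup H)] (v f : H) (hv : v ∈ (P : Subgroup H))
    (hfv : f * v * f⁻¹ ∈ Subgroup.zpowers v) (hne : f * v * f⁻¹ ≠ v) :
    (P : Subgroup H) ≤ commutator H := by
  rcases Sylow.normalizer_le_centralizer_or_le_commutator P with h | h
  · exfalso
    have h1 : Subgroup.zpowers (f * v * f⁻¹) = Subgroup.zpowers v := by
      apply Subgroup.eq_of_le_of_card_ge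
      · rw [Subgroup.zpowers_le]; exact hfv
      · rw [Nat.card_zpowers, Nat.card_zpowers, orderOf_conj']
    have h2 : v ∈ Subgroup.zpowers (f * v * f⁻¹) := by rw [h1]; exact Subgroup.mem_zpowers v
    have h3 : f * v * f⁻¹ ∈ ((f • P : Sylow p H) : Subgroup H) := by
      rw [Cfsg.Agent.H73.sylow_mem_smul_iff]
      have : f⁻¹ * (f * v * f⁻¹) * f = v := by group
      rw [this]; exact hv
    have h4 : v ∈ ((f • P : Sylow p H) : Subgroup H) := (Subgroup.zpowers_le.2 h3) h2
    have hPcomm : ∀ x y : H, x ∈ (P : Subgroup H) → y ∈ (P : Subgroup H) → x * y = y * x := by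
      intro x y hx hy
      have := mul_comm' (⟨x, hx⟩ : (P : Subgroup H)) ⟨y, hy⟩
      exact congrArg Subtype.val this
    have hPC : (P : Subgroup H) ≤ Subgroup.centralizer ({v} : Set H) := by
      intro x hx
      rw [Subgroup.mem_centralizer_iff]
      intro y hy
      rw [Set.mem_singleton_iff.1 hy]
      exact hPcomm v x hv hx
    have hQC : ((f • P : Sylow p H) : Subgroup H) ≤ Subgroup.centralizer ({v} : Set H) := by
      intro x hx
      rw [Subgroup.mem_centralizer_iff]
      intro y hy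
      rw [Set.mem_singleton_iff.1 hy]
      rw [Cfsg.Agent.H73.sylow_mem_smul_iff] at hx h4
      have h5 := hPcomm _ _ h4 hx
      calc v * x = f * ((f⁻¹ * v * f) * (f⁻¹ * x * f)) * f⁻¹ := by group
        _ = f * ((f⁻¹ * x * f) * (f⁻¹ * v * f)) * f⁻¹ := by rw [h5]
        _ = x * v := by group
    obtain ⟨c, hcC, hc⟩ := Cfsg.Agent.H73.ZG2.sylow_conj_sub P (f • P) _ hPC hQC
    have hn : c⁻¹ * f ∈ Subgroup.normalizer ((P : Subgroup H) : Set H) := by
      rw [Subgroup.mem_normalizer_iff]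
      intro x
      have e1 : c⁻¹ * f * x * (c⁻¹ * f)⁻¹ = c⁻¹ * (f * x * f⁻¹) * c := by group
      rw [e1, ← hc, Cfsg.Agent.H73.sylow_mem_smul_iff]
      have e2 : f⁻¹ * (f * x * f⁻¹) * f = x := by group
      rw [e2]
    have hn3 := Subgroup.mem_centralizer_iff.1 (h hn) v hv
    have hcv := Subgroup.mem_centralizer_iff.1 hcC v rfl
    apply hne
    calc f * v * f⁻¹ = c * ((c⁻¹ * f) * v) * f⁻¹ := by group
      _ = c * (v * (c⁻¹ * f)) * f⁻¹ := by rw [hn3]
      _ = (c * v) * c⁻¹ := by group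
      _ = v := by rw [← hcv]; group
  · exact h

/-- In a perfect group with a Sylow `p`-subgroup of order `p` generated by `v`, some
conjugation moves `v` to another generator. -/
theorem exists_conj_ne {D : Type u} [Group D] [Finite D] (hperf : commutator D = ⊤) {p : ℕ}
    [Fact p.Prime] (P : Sylow p D) (v : D) (hP : (P : Subgroup D) = Subgroup.zpowers v)
    (hvp : orderOf v = p) :
    ∃ f : D, f * v * f⁻¹ ∈ Subgroup.zpowers v ∧ f * v * f⁻¹ ≠ v := by
  by_contra hno
  push Not at hno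
  have hp : p.Prime := Fact.out
  haveI : IsCyclic (P : Subgroup D) := by rw [hP]; infer_instance
  let _ : CommGroup ↥(P : Subgroup D) := IsCyclic.commGroup
  have key : ∀ (k : ℕ) (g₀ : D), g₀⁻¹ * v ^ k * g₀ ∈ (P : Subgroup D) →
      g₀⁻¹ * v ^ k * g₀ = v ^ k := by
    intro k g₀ hmem
    by_cases hk : v ^ k = 1
    · rw [hk]; group
    · have h1 : Subgroup.zpowers (v ^ k) = Subgroup.zpowers v := by
        apply Subgroup.eq_of_le_of_card_ge
        · rw [Subgroup.zpowers_le]; exact Subgroup.pow_mem _ (Subgroup.mem_zpowers v) k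
        · rw [Nat.card_zpowers, Nat.card_zpowers, hvp]
          have h2 : orderOf (v ^ k) ∣ p := by
            rw [← hvp]; exact orderOf_pow_dvd k
          rcases (Nat.dvd_prime hp).1 h2 with h3 | h3
          · exfalso; exact hk (orderOf_eq_one_iff.1 h3)
          · rw [h3]
      have h2 : v ∈ Subgroup.zpowers (v ^ k) := by rw [h1]; exact Subgroup.mem_zpowers v
      obtain ⟨j, hj⟩ := Subgroup.mem_zpowers_iff.1 h2
      have h3 : g₀⁻¹ * v * g₀⁻¹⁻¹ ∈ Subgroup.zpowers v := by
        rw [← hP, inv_inv]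
        have h4 : g₀⁻¹ * v * g₀ = (g₀⁻¹ * v ^ k * g₀) ^ j := by
          have := conj_zpow (a := g₀⁻¹) (b := v ^ k) (i := j)
          rw [inv_inv] at this
          rw [this, hj]
        rw [h4]
        exact Subgroup.zpow_mem _ hmem j
      have h5 := hno g₀⁻¹ h3
      rw [inv_inv] at h5
      have h6 : v * g₀ = g₀ * v := by
        calc v * g₀ = g₀ * (g₀⁻¹ * v * g₀) := by group
          _ = g₀ * v := by rw [h5]
      have h7 : Commute (v ^ k) g₀ := Commute.pow_left h6 k
      calc g₀⁻¹ * v ^ k * g₀ = g₀⁻¹ * (v ^ k * g₀) := by group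
        _ = g₀⁻¹ * (g₀ * v ^ k) := by rw [h7.eq]
        _ = v ^ k := by group
  have htr := MonoidHom.transfer_eq_pow (MonoidHom.id ↥(P : Subgroup D)) v key
  have h1 : MonoidHom.transfer (MonoidHom.id ↥(P : Subgroup D)) v = 1 := by
    have hk : (MonoidHom.transfer (MonoidHom.id ↥(P : Subgroup D))).ker = ⊤ := by
      rw [eq_top_iff, ← hperf]; exact Abelianization.commutator_subset_ker _
    exact MonoidHom.mem_ker.mp (hk ▸ Subgroup.mem_top v)
  rw [h1] at htr
  have hpow : v ^ (P : Subgroup D).index = 1 := by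
    simpa using (congrArg Subtype.val htr).symm
  have hdvd := orderOf_dvd_of_pow_eq_one hpow
  rw [hvp] at hdvd
  exact P.not_dvd_index hdvd

theorem stOd1 : StOd1.{u} := by
  intro G _ _ hax D hDn hperf hcard p g hp35 hgk
  obtain ⟨k, hk⟩ := hgk
  have hp : p.Prime := by rcases hp35 with rfl | rfl <;> norm_num
  haveI : Fact p.Prime := ⟨hp⟩
  have hpodd : p ≠ 2 := by rcases hp35 with rfl | rfl <;> norm_num
  have hpdvd : p ∣ 120 := by rcases hp35 with rfl | rfl <;> norm_num
  have hp2 : ¬ p ^ 2 ∣ 120 := by rcases hp35 with rfl | rfl <;> norm_num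
  -- a Sylow subgroup of `G` containing `g`
  obtain ⟨P, hgP⟩ := Cfsg.Agent.H73.exists_sylow_mem (p := p) g k hk
  have hPcyc : IsCyclic (P : Subgroup G) := by
    rcases Cfsg.Agent.H16.Zas.part1 hax p (P : Subgroup G) P.isPGroup' with h | ⟨h2, _⟩
    · exact h
    · exact absurd h2 hpodd
  have hPcomm : ∀ x y : G, x ∈ (P : Subgroup G) → y ∈ (P : Subgroup G) → x * y = y * x := by
    intro x y hx hy
    have := mul_comm' (⟨x, hx⟩ : (P : Subgroup G)) ⟨y, hy⟩
    exact congrArg Subtype.val this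
  -- an element of order `p` in `D ⊓ P`
  obtain ⟨v₀', hv₀'⟩ := exists_prime_orderOf_dvd_card' (G := D) p (by rw [hcard]; exact hpdvd)
  obtain ⟨Q, hv₀Q⟩ := Cfsg.Agent.H73.exists_sylow_mem (p := p) (v₀' : G) 1
    (by rw [Subgroup.orderOf_coe, hv₀', pow_one])
  obtain ⟨c, hc⟩ := MulAction.exists_smul_eq G P Q
  obtain ⟨v, hvdef⟩ : ∃ v : G, v = c⁻¹ * (v₀' : G) * c := ⟨_, rfl⟩
  have hvP : v ∈ (P : Subgroup G) := by
    rw [hvdef, ← Cfsg.Agent.H73.sylow_mem_smul_iff, hc]; exact hv₀Q
  have hvD : v ∈ D := by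
    rw [hvdef]
    have := hDn.conj_mem _ v₀'.2 c⁻¹
    rwa [inv_inv] at this
  have hvord : orderOf v = p := by
    rw [hvdef]
    have := orderOf_conj' c⁻¹ (v₀' : G)
    rw [inv_inv] at this
    rw [this, Subgroup.orderOf_coe]; exact hv₀'
  -- the Sylow `p`-subgroup of `D` generated by `v`
  obtain ⟨v', hv'⟩ : ∃ v' : D, (v' : G) = v := ⟨⟨v, hvD⟩, rfl⟩
  have hv'ord : orderOf v' = p := by rw [← Subgroup.orderOf_coe, hv', hvord]
  have hzp : IsPGroup p (Subgroup.zpowers v') :=
    IsPGroup.of_card (n := 1) (by rw [Nat.card_zpowers, hv'ord, pow_one])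
  obtain ⟨PD, hPD⟩ := hzp.exists_le_sylow
  have hPDcard : Nat.card (PD : Subgroup D) = p := by
    obtain ⟨m, hm⟩ := IsPGroup.iff_card.1 PD.isPGroup'
    have h1 : Nat.card (PD : Subgroup D) ∣ 120 := by
      rw [← hcard]; exact Subgroup.card_subgroup_dvd_card _
    have h2 : p ∣ Nat.card (PD : Subgroup D) := by
      have := Subgroup.card_dvd_of_le hPD
      rwa [Nat.card_zpowers, hv'ord] at this
    rw [hm] at h1 h2 ⊢
    have hm1 : m ≠ 0 := by
      rintro rfl
      rw [pow_zero] at h2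
      exact hp.one_lt.ne' (Nat.dvd_one.1 h2)
    have hm2 : m < 2 := by
      by_contra hcon
      push Not at hcon
      exact hp2 ((pow_dvd_pow p hcon).trans h1)
    have : m = 1 := by omega
    rw [this, pow_one]
  have hPDeq : (PD : Subgroup D) = Subgroup.zpowers v' := by
    symm
    apply Subgroup.eq_of_le_of_card_ge hPD
    rw [hPDcard, Nat.card_zpowers, hv'ord]
  obtain ⟨f', hf'1, hf'2⟩ := exists_conj_ne hperf PD v' hPDeq hv'ord
  -- the subgroup `H = D ⊔ P`
  obtain ⟨H, hH⟩ : ∃ H : Subgroup G, H = D ⊔ (P : Subgroup G) := ⟨_, rfl⟩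
  have hDH : D ≤ H := by rw [hH]; exact le_sup_left
  have hPH : (P : Subgroup G) ≤ H := by rw [hH]; exact le_sup_right
  haveI : IsCyclic ((P.subtype hPH : Sylow p H) : Subgroup H) := by
    rw [Sylow.coe_subtype]
    exact (MulEquiv.isCyclic (Subgroup.subgroupOfEquivOfLe hPH)).2 hPcyc
  have hle := le_commutator_of_conj (P.subtype hPH) ⟨v, hPH hvP⟩ ⟨(f' : G), hDH f'.2⟩
    (by rw [Sylow.coe_subtype, Subgroup.mem_subgroupOf]; exact hvP)
    (by
      obtain ⟨j, hj⟩ := Subgroup.mem_zpowers_iff.1 hf'1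
      rw [Subgroup.mem_zpowers_iff]
      refine ⟨j, ?_⟩
      apply Subtype.ext
      have := congrArg Subtype.val hj
      simp only [Subgroup.coe_zpow, Subgroup.coe_mul, Subgroup.coe_inv] at this ⊢
      rw [hv'] at this
      exact this)
    (by
      intro h
      apply hf'2
      apply Subtype.ext
      have := congrArg Subtype.val h
      simp only [Subgroup.coe_mul, Subgroup.coe_inv] at this ⊢
      rw [hv']
      exact this)
  have hgc : (⟨g, hPH hgP⟩ : H) ∈ commutator H :=
    hle (by rw [Sylow.coe_subtype, Subgroup.mem_subgroupOf]; exact hgP)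
  have hcomm : ∀ a b : G, a ∈ H → b ∈ H → ⁅a, b⁆ ∈ D := by
    intro a b ha hb
    rw [hH, ← SetLike.mem_coe, Subgroup.normal_mul, Set.mem_mul] at ha hb
    obtain ⟨d₁, hd₁, x₁, hx₁, rfl⟩ := ha
    obtain ⟨d₂, hd₂, x₂, hx₂, rfl⟩ := hb
    have h1 : (QuotientGroup.mk' D) ⁅d₁ * x₁, d₂ * x₂⁆ = 1 := by
      rw [map_commutatorElement, map_mul, map_mul]
      have e1 : (QuotientGroup.mk' D) d₁ = 1 := (QuotientGroup.eq_one_iff d₁).2 hd₁
      have e2 : (QuotientGroup.mk' D) d₂ = 1 := (QuotientGroup.eq_one_iff d₂).2 hd₂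
      rw [e1, e2, one_mul, one_mul, ← map_commutatorElement]
      have e3 : ⁅x₁, x₂⁆ = 1 := by
        rw [commutatorElement_eq_one_iff_mul_comm]; exact hPcomm x₁ x₂ hx₁ hx₂
      rw [e3, map_one]
    exact (QuotientGroup.eq_one_iff _).1 h1
  have hcomm' : commutator H ≤ D.subgroupOf H := by
    rw [commutator_def, Subgroup.commutator_le]
    intro a _ b _
    rw [Subgroup.mem_subgroupOf]
    have := hcomm (a : G) (b : G) a.2 b.2
    simpa [commutatorElement_def] using this
  exact Subgroup.mem_subgroupOf.1 (hcomm' hgc)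

end Cfsg.Agent.H1.ZasF
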