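import Mathlib
import Cfsg.Agent.S0685

/-!
# Linear part of S0688 (soluble exceptional sharply 2-transitive groups)

`H ≤ GL(V)` regular on the non-zero vectors of a finite `𝔽_p`-space `V`.
* `fpf`, `card_H`, `free_dvd` : freeness and counting.
* `uprop` : commuting elements of the same prime order generate the same subgroup.
* `l1` : a quaternion pair `a, b` gives a subspace `W` with `|V| = |W|²`, invariant under
  everything commuting with `a` and `b`.
-/

set_option autoImplicit false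
open scoped commutatorElement

namespace Cfsg.Agent.H1.Zass

theorem card_ne_sub {M : Type*} [Finite M] (m0 : M) : Nat.card {m : M // m ≠ m0} = Nat.card M - 1 := by
  classical
  have := Fintype.ofFinite M
  rw [Nat.card_eq_fintype_card, Nat.card_eq_fintype_card]
  exact Fintype.card_subtype_compl (fun m => m = m0) |>.trans (by simp)

section Lin
variable {p : ℕ} [Fact p.Prime] {V : Type*} [AddCommGroup V] [Module (ZMod p) V] [Finite V]
  (H : Subgroup (V ≃ₗ[ZMod p] V))

omit [Finite V] in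
theorem fpf (hreg : ∀ v w : V, v ≠ 0 → w ≠ 0 → ∃! h : H, (h : V ≃ₗ[ZMod p] V) v = w)
    (h : H) (v : V) (hv : v ≠ 0) (hh : (h : V ≃ₗ[ZMod p] V) v = v) : h = 1 := by
  obtain ⟨g, -, hg⟩ := hreg v v hv hv
  rw [hg h hh, hg 1 (by simp)]

theorem card_H (hreg : ∀ v w : V, v ≠ 0 → w ≠ 0 → ∃! h : H, (h : V ≃ₗ[ZMod p] V) v = w)
    (hnt : Nontrivial V) : Nat.card H = Nat.card V - 1 := by
  obtain ⟨v0, hv0⟩ := exists_ne (0 : V)
  rw [← card_ne_sub (0 : V)]
  refine Nat.card_congr (Equiv.ofBijective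
    (fun h : H => (⟨(h : V ≃ₗ[ZMod p] V) v0, fun h0 => hv0 (by simpa using h0)⟩ : {v : V // v ≠ 0})) ⟨?_, ?_⟩)
  · intro h1 h2 h12
    have h12' : (h1 : V ≃ₗ[ZMod p] V) v0 = (h2 : V ≃ₗ[ZMod p] V) v0 := congrArg Subtype.val h12
    have hne : (h2 : V ≃ₗ[ZMod p] V) v0 ≠ 0 := fun h0 => hv0 (by simpa using h0)
    obtain ⟨g, -, hg⟩ := hreg v0 _ hv0 hne
    rw [hg h1 h12', hg h2 rfl]
  · rintro ⟨w, hw⟩
    obtain ⟨g, hg, -⟩ := hreg v0 w hv0 hw
    exact ⟨g, Subtype.ext hg⟩

theorem free_dvd (hreg : ∀ v w : V, v ≠ 0 → w ≠ 0 → ∃! h : H, (h : V ≃ₗ[ZMod p] V) v = w)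
    (K : Subgroup H) (W : Submodule (ZMod p) V)
    (hW : ∀ k ∈ K, ∀ v ∈ W, ((k : H) : V ≃ₗ[ZMod p] V) v ∈ W) :
    Nat.card K ∣ Nat.card W - 1 := by
  classical
  let X := {v : V // v ∈ W ∧ v ≠ 0}
  letI : MulAction K X :=
    { smul := fun k x => ⟨((k : H) : V ≃ₗ[ZMod p] V) x.1, hW k k.2 x.1 x.2.1,
        fun h0 => x.2.2 (by simpa using h0)⟩
      one_smul := fun x => Subtype.ext (by
        show (((1 : K) : H) : V ≃ₗ[ZMod p] V) x.1 = x.1
        simp)
      mul_smul := fun a b x => Subtype.ext (by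
        show (((a * b : K) : H) : V ≃ₗ[ZMod p] V) x.1 = ((a : H) : V ≃ₗ[ZMod p] V) (((b : H) : V ≃ₗ[ZMod p] V) x.1)
        simp [LinearEquiv.mul_apply]) }
  have hfree : ∀ x : X, MulAction.stabilizer K x = ⊥ := by
    intro x
    rw [eq_bot_iff]
    intro k hk
    rw [MulAction.mem_stabilizer_iff] at hk
    have hk' : ((k : H) : V ≃ₗ[ZMod p] V) x.1 = x.1 := congrArg Subtype.val hk
    have := fpf H hreg (k : H) x.1 x.2.2 hk'
    rw [Subgroup.mem_bot]
    exact Subtype.ext this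
  have h1 := Cfsg.Agent.S0684.card_dvd_of_free hfree
  have h2 : Nat.card X = Nat.card W - 1 := by
    rw [← card_ne_sub (0 : W)]
    refine Nat.card_congr
      { toFun := fun x => ⟨⟨x.1, x.2.1⟩, fun h0 => x.2.2 (congrArg Subtype.val h0)⟩
        invFun := fun w => ⟨w.1.1, w.1.2, fun h0 => w.2 (Subtype.ext h0)⟩
        left_inv := fun x => rfl
        right_inv := fun w => rfl }
  rw [h2] at h1
  exact h1

omit [Finite V] in
theorem sum_pow_zero (hreg : ∀ v w : V, v ≠ 0 → w ≠ 0 → ∃! h : H, (h : V ≃ₗ[ZMod p] V) v = w)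
    (r : ℕ) (g : H) (hg1 : g ≠ 1) (hgr : g ^ r = 1) (v : V) :
    ∑ k ∈ Finset.range r, ((g ^ k : H) : V ≃ₗ[ZMod p] V) v = 0 := by
  by_contra hne
  apply hg1
  apply fpf H hreg g _ hne
  rw [map_sum]
  have h1 : ∀ k, (g : V ≃ₗ[ZMod p] V) (((g ^ k : H) : V ≃ₗ[ZMod p] V) v)
      = ((g ^ (k+1) : H) : V ≃ₗ[ZMod p] V) v := by
    intro k; rw [pow_succ']; rfl
  simp only [h1]
  have e1 := Finset.sum_range_succ' (fun k => ((g ^ k : H) : V ≃ₗ[ZMod p] V) v) r
  have e2 := Finset.sum_range_succ (fun k => ((g ^ k : H) : V ≃ₗ[ZMod p] V) v) r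
  simp only [hgr, pow_zero] at e1 e2
  exact add_right_cancel (e1.symm.trans e2)

theorem uprop (hreg : ∀ v w : V, v ≠ 0 → w ≠ 0 → ∃! h : H, (h : V ≃ₗ[ZMod p] V) v = w) :
    ∀ r : ℕ, r.Prime → ∀ x y : H, x * y = y * x → x ^ r = 1 → y ^ r = 1 → x ≠ 1 → y ≠ 1 →
      x ∈ Subgroup.zpowers y := by
  intro r hr x y hxy hxr hyr hx1 hy1
  by_contra hnot
  have hp : p.Prime := Fact.out
  haveI : Fact r.Prime := ⟨hr⟩
  have hcomm : ∀ i : ℕ, Commute x (y ^ i) := fun i => (show Commute x y from hxy).pow_right i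
  have hoy : orderOf y = r := orderOf_eq_prime hyr hy1
  have hox : orderOf x = r := orderOf_eq_prime hxr hx1
  -- each x * y^i is a nonidentity element of order r
  have hg1 : ∀ i : ℕ, x * y ^ i ≠ 1 := by
    intro i h1
    apply hnot
    have : x = (y ^ i)⁻¹ := eq_inv_of_mul_eq_one_left h1
    rw [this]
    exact Subgroup.inv_mem _ (Subgroup.pow_mem _ (Subgroup.mem_zpowers y) i)
  have hgr : ∀ i : ℕ, (x * y ^ i) ^ r = 1 := by
    intro i
    rw [(hcomm i).mul_pow, hxr, one_mul, ← pow_mul, mul_comm, pow_mul, hyr, one_pow]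
  have hpow : ∀ i k : ℕ, (x * y ^ i) ^ k = x ^ k * (y ^ k) ^ i := by
    intro i k
    rw [(hcomm i).mul_pow, ← pow_mul, ← pow_mul, mul_comm]
  have hall : ∀ v : V, r • v = 0 := by
    intro v
    have h0 : ∑ i ∈ Finset.range r, ∑ k ∈ Finset.range r,
        (((x * y ^ i) ^ k : H) : V ≃ₗ[ZMod p] V) v = 0 :=
      Finset.sum_eq_zero (fun i _ => sum_pow_zero H hreg r _ (hg1 i) (hgr i) v)
    rw [Finset.sum_comm] at h0
    have h2 : ∀ k ∈ Finset.range r, ∑ i ∈ Finset.range r,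
        (((x * y ^ i) ^ k : H) : V ≃ₗ[ZMod p] V) v =
        if k = 0 then r • v else 0 := by
      intro k hk
      have h3 : ∀ i : ℕ, (((x * y ^ i) ^ k : H) : V ≃ₗ[ZMod p] V) v =
          ((x ^ k : H) : V ≃ₗ[ZMod p] V) ((((y ^ k) ^ i : H) : V ≃ₗ[ZMod p] V) v) := by
        intro i; rw [hpow]; rfl
      simp only [h3]
      rw [← map_sum]
      split_ifs with hk0
      · subst hk0
        simp
      · have hyk1 : y ^ k ≠ 1 := by
          intro h1
          have := orderOf_dvd_of_pow_eq_one h1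
          rw [hoy] at this
          have := Nat.le_of_dvd (Nat.pos_of_ne_zero hk0) this
          have := Finset.mem_range.mp hk
          omega
        have hykr : (y ^ k) ^ r = 1 := by rw [← pow_mul, mul_comm, pow_mul, hyr, one_pow]
        rw [sum_pow_zero H hreg r _ hyk1 hykr v, map_zero]
    rw [Finset.sum_congr rfl h2] at h0
    rw [Finset.sum_ite_eq' ] at h0
    simpa [hr.pos] using h0
  -- pick a moved vector
  have hxv : ∃ v : V, v ≠ 0 := by
    by_contra hno
    push Not at hno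
    apply hx1
    apply Subtype.ext
    ext v
    rw [hno v]; simp
  obtain ⟨v, hv⟩ := hxv
  have hrp : r = p := by
    have h1 := hall v
    rw [← Nat.cast_smul_eq_nsmul (ZMod p)] at h1
    rcases smul_eq_zero.mp h1 with h2 | h2
    · exact ((Nat.prime_dvd_prime_iff_eq hp hr).mp ((ZMod.natCast_eq_zero_iff r p).mp h2)).symm
    · exact absurd h2 hv
  -- contradiction for r = p by counting
  have hK : Nat.card (Subgroup.zpowers x) = r := by rw [Nat.card_zpowers, hox]
  have hd := free_dvd H hreg (Subgroup.zpowers x) ⊤ (fun _ _ _ _ => Submodule.mem_top)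
  rw [hK] at hd
  have hVtop : Nat.card (⊤ : Submodule (ZMod p) V) = Nat.card V :=
    Nat.card_congr (Submodule.topEquiv (R := ZMod p) (M := V)).toEquiv
  rw [hVtop] at hd
  have hdV : r ∣ Nat.card V := by
    have h1 : addOrderOf v ∣ r := addOrderOf_dvd_of_nsmul_eq_zero (hall v)
    have h2 : addOrderOf v ≠ 1 := fun h => hv (AddMonoid.addOrderOf_eq_one_iff.mp h)
    have h3 : addOrderOf v = r := ((Nat.dvd_prime hr).mp h1).resolve_left h2
    rw [← h3]
    exact addOrderOf_dvd_natCard v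
  have hpos : 0 < Nat.card V := Nat.card_pos
  have : r ∣ 1 := by
    have h4 : Nat.card V = (Nat.card V - 1) + 1 := by omega
    rw [h4] at hdV
    exact (Nat.dvd_add_right hd).mp hdV
  exact hr.one_lt.ne' (Nat.dvd_one.mp this)

omit [Finite V] in
theorem l1 (hreg : ∀ v w : V, v ≠ 0 → w ≠ 0 → ∃! h : H, (h : V ≃ₗ[ZMod p] V) v = w)
    (a b : H) (ha : orderOf a = 4) (hab : b * a * b⁻¹ = a⁻¹) (hb : b * b = a ^ 2) :
    ∃ W : Submodule (ZMod p) V, Nat.card V = Nat.card W * Nat.card W ∧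
      ∀ d : H, d * a = a * d → d * b = b * d → ∀ v ∈ W, (d : V ≃ₗ[ZMod p] V) v ∈ W := by
  have hp : p.Prime := Fact.out
  have ha2 : a ^ 2 ≠ 1 := by
    intro h
    have := orderOf_dvd_of_pow_eq_one h
    rw [ha] at this
    omega
  have ha4 : a ^ 4 = 1 := by rw [← ha]; exact pow_orderOf_eq_one a
  have hmul : ∀ (x y : H) (v : V), ((x * y : H) : V ≃ₗ[ZMod p] V) v
      = (x : V ≃ₗ[ZMod p] V) ((y : V ≃ₗ[ZMod p] V) v) := fun _ _ _ => rfl
  have hone : ∀ v : V, ((1 : H) : V ≃ₗ[ZMod p] V) v = v := fun _ => rfl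
  have e2 : ∀ w : V, ((a ^ 2 : H) : V ≃ₗ[ZMod p] V) w
      = (a : V ≃ₗ[ZMod p] V) ((a : V ≃ₗ[ZMod p] V) w) := fun w => by rw [pow_two]; rfl
  have haa : ∀ v : V, (a : V ≃ₗ[ZMod p] V) ((a : V ≃ₗ[ZMod p] V) v) = -v := by
    intro v
    by_contra hne
    apply ha2
    apply fpf H hreg (a ^ 2) (v + (a : V ≃ₗ[ZMod p] V) ((a : V ≃ₗ[ZMod p] V) v))
    · intro h0; exact hne (eq_neg_of_add_eq_zero_right h0)
    · rw [e2, map_add, map_add]
      have e4 : (a : V ≃ₗ[ZMod p] V) ((a : V ≃ₗ[ZMod p] V) ((a : V ≃ₗ[ZMod p] V)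
          ((a : V ≃ₗ[ZMod p] V) v))) = v := by
        have h4 : a * a * a * a = 1 := by rw [← ha4]; simp [pow_succ, mul_assoc]
        rw [← hmul, ← hmul, ← hmul, h4, hone]
      rw [e4, add_comm]
  have hbb : ∀ v : V, (b : V ≃ₗ[ZMod p] V) ((b : V ≃ₗ[ZMod p] V) v) = -v := by
    intro v
    rw [← hmul, hb, e2, haa]
  have hainv : ∀ w : V, ((a⁻¹ : H) : V ≃ₗ[ZMod p] V) w = -((a : V ≃ₗ[ZMod p] V) w) := by
    intro w
    have h1 : (a : V ≃ₗ[ZMod p] V) (((a⁻¹ : H) : V ≃ₗ[ZMod p] V) w) = w := by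
      rw [← hmul, mul_inv_cancel, hone]
    have h2 := haa (((a⁻¹ : H) : V ≃ₗ[ZMod p] V) w)
    rw [h1] at h2
    rw [h2, neg_neg]
  have hba : ∀ v : V, (b : V ≃ₗ[ZMod p] V) ((a : V ≃ₗ[ZMod p] V) v)
      = -((a : V ≃ₗ[ZMod p] V) ((b : V ≃ₗ[ZMod p] V) v)) := by
    intro v
    have h1 : b * a = a⁻¹ * b := by rw [← hab]; group
    rw [← hmul, h1, hmul, hainv]
  -- p is odd
  have h2ne : (2 : ZMod p) ≠ 0 := by
    intro h2
    apply ha2
    apply Subtype.ext
    ext v
    rw [e2, haa]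
    have : (2 : ZMod p) • v = 0 := by rw [h2, zero_smul]
    rw [two_smul] at this
    show -v = v
    exact neg_eq_of_add_eq_zero_left this
  obtain ⟨α, β, hαβ⟩ := ZMod.sq_add_sq p (-1)
  obtain ⟨c, hc⟩ : ∃ c : ZMod p, c * 2 = 1 := ⟨(2 : ZMod p)⁻¹, inv_mul_cancel₀ h2ne⟩
  set A : V ≃ₗ[ZMod p] V := (a : V ≃ₗ[ZMod p] V) with hA
  set B : V ≃ₗ[ZMod p] V := (b : V ≃ₗ[ZMod p] V) with hB
  let T : V →ₗ[ZMod p] V := α • A.toLinearMap + β • B.toLinearMap
  have hT : ∀ v : V, T v = α • A v + β • B v := fun v => rfl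
  have hTT : ∀ v : V, T (T v) = v := by
    intro v
    simp only [hT, map_add, map_smul, haa, hbb, hba, smul_neg]
    calc α • (-(α • v) + β • A (B v)) + β • (-(α • A (B v)) + -(β • v))
        = (-(α ^ 2 + β ^ 2)) • v := by module
      _ = v := by rw [hαβ]; simp
  have hTK : ∀ v : V, T (A (B v)) = -(A (B (T v))) := by
    intro v
    simp only [hT, map_add, map_smul, haa, hbb, hba, smul_neg, map_neg]
    module
  have hABAB : ∀ v : V, A (B (A (B v))) = -v := by
    intro v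
    simp only [haa, hbb, hba, map_neg, neg_neg]
  have hcc : ∀ v : V, c • (v + v) = v := by
    intro v
    calc c • (v + v) = (c * 2) • v := by module
      _ = v := by rw [hc, one_smul]
  let W : Submodule (ZMod p) V := LinearMap.eqLocus T LinearMap.id
  have hW : ∀ v : V, v ∈ W ↔ T v = v := fun v => LinearMap.mem_eqLocus
  refine ⟨W, ?_, ?_⟩
  · have e : W × W ≃ V :=
      { toFun := fun x => x.1.1 + A (B x.2.1)
        invFun := fun v => (⟨c • (v + T v), by
            rw [hW, map_smul, map_add, hTT, add_comm]⟩,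
          ⟨-(c • A (B (v - T v))), by
            rw [hW, map_neg, map_smul, hTK, map_sub, hTT, map_sub, map_sub, map_sub, map_sub]
            module⟩)
        left_inv := by
          rintro ⟨⟨u, hu⟩, ⟨w, hw⟩⟩
          rw [hW] at hu hw
          apply Prod.ext
          · apply Subtype.ext
            show c • (u + A (B w) + T (u + A (B w))) = u
            rw [map_add, hTK, hu, hw]
            have h3 : u + A (B w) + (u + -A (B w)) = u + u := by abel
            rw [h3, hcc]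
          · apply Subtype.ext
            show -(c • A (B (u + A (B w) - T (u + A (B w))))) = w
            rw [map_add, hTK, hu, hw]
            have : u + A (B w) - (u + -A (B w)) = A (B w) + A (B w) := by abel
            rw [this, map_add, map_add, hABAB]
            have h3 : -(c • (-w + -w)) = c • (w + w) := by module
            rw [h3, hcc]
        right_inv := by
          intro v
          show c • (v + T v) + A (B (-(c • A (B (v - T v))))) = v
          rw [map_neg, map_neg, map_smul, map_smul, hABAB]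
          have h3 : c • (v + T v) + -(c • -(v - T v)) = c • (v + v) := by module
          rw [h3, hcc] }
    rw [← Nat.card_congr e, Nat.card_prod]
  · intro d hda hdb v hv
    rw [hW] at hv ⊢
    have h1 : ∀ w : V, (d : V ≃ₗ[ZMod p] V) (A w) = A ((d : V ≃ₗ[ZMod p] V) w) := by
      intro w
      rw [hA, ← hmul, ← hmul, hda]
    have h2 : ∀ w : V, (d : V ≃ₗ[ZMod p] V) (B w) = B ((d : V ≃ₗ[ZMod p] V) w) := by
      intro w
      rw [hB, ← hmul, ← hmul, hdb]
    calc T ((d : V ≃ₗ[ZMod p] V) v)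
        = α • A ((d : V ≃ₗ[ZMod p] V) v) + β • B ((d : V ≃ₗ[ZMod p] V) v) := hT _
      _ = α • (d : V ≃ₗ[ZMod p] V) (A v) + β • (d : V ≃ₗ[ZMod p] V) (B v) := by rw [h1, h2]
      _ = (d : V ≃ₗ[ZMod p] V) (α • A v + β • B v) := by rw [map_add, map_smul, map_smul]
      _ = (d : V ≃ₗ[ZMod p] V) (T v) := by rw [hT]
      _ = (d : V ≃ₗ[ZMod p] V) v := by rw [hv]

end Lin

end Cfsg.Agent.H1.Zass
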