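import Mathlib
import Cfsg.Agent.H1.Zass
import Cfsg.Agent.H43.G1a
import Cfsg.Agent.H85.G1b

/-!
# S0688 assembly: degrees of the soluble exceptional sharply 2-transitive groups

`main` : a solvable `H ≤ GL(V)` regular on non-zero vectors without irreducible cyclic normal
subgroup has `|V| ∈ {25, 49, 121, 529}`.  Uses S0685 (centralizer of a maximal normal abelian
subgroup is non-abelian), `H43.g1a`/`H85.g1b` (a normal quaternion subgroup `N` of order 8 with
`[H : C_H(N)] ∣ 24`) and the linear algebra of `H1.Zass`.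
-/

set_option autoImplicit false
open scoped commutatorElement Pointwise

namespace Cfsg.Agent.H1.Zass

/-- a maximal normal abelian subgroup exists -/
theorem exists_max_normal_abelian (G : Type*) [Group G] [Finite G] :
    ∃ A : Subgroup G, A.Normal ∧ IsMulCommutative A ∧
      ∀ B : Subgroup G, B.Normal → IsMulCommutative B → A ≤ B → B = A := by
  classical
  have hbot : IsMulCommutative (⊥ : Subgroup G) := by
    refine ⟨⟨?_⟩⟩
    rintro ⟨x, hx⟩ ⟨y, hy⟩
    apply Subtype.ext
    rw [Subgroup.mem_bot] at hx hy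
    subst hx; subst hy; rfl
  haveI : Nonempty {A : Subgroup G // A.Normal ∧ IsMulCommutative A} :=
    ⟨⟨⊥, Subgroup.normal_bot, hbot⟩⟩
  obtain ⟨A, hA⟩ := Finite.exists_max
    (fun A : {A : Subgroup G // A.Normal ∧ IsMulCommutative A} => Nat.card A.1)
  refine ⟨A.1, A.2.1, A.2.2, ?_⟩
  intro B hBn hBc hAB
  have h1 := hA ⟨B, hBn, hBc⟩
  exact (Subgroup.eq_of_le_of_card_ge hAB h1).symm

section Lin
variable {p : ℕ} [Fact p.Prime] {V : Type*} [AddCommGroup V] [Module (ZMod p) V] [Finite V]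
  (H : Subgroup (V ≃ₗ[ZMod p] V))

theorem main (hreg : ∀ v w : V, v ≠ 0 → w ≠ 0 → ∃! h : H, (h : V ≃ₗ[ZMod p] V) v = w) (hI : ∀ A : Subgroup H, A.Normal → IsCyclic A → ∃ W : Submodule (ZMod p) V, W ≠ ⊥ ∧ W ≠ ⊤ ∧ ∀ a ∈ A, ∀ v ∈ W, ((a : H) : V ≃ₗ[ZMod p] V) v ∈ W) (hsolv : Group.IsSolvable H) : Nat.card V = 25 ∨ Nat.card V = 49 ∨ Nat.card V = 121 ∨ Nat.card V = 529 := by
  classical
  have hfinE : Finite (V ≃ₗ[ZMod p] V) := Finite.of_injective (fun e : V ≃ₗ[ZMod p] V => (e : V → V)) (fun e f h => by ext v; exact congrFun h v)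
  obtain ⟨A, hAn, hAc, hAmax⟩ := exists_max_normal_abelian H
  obtain ⟨hlt, hCnc⟩ := Cfsg.Agent.S0685.result H hreg hI A hAn hAc hAmax
  obtain ⟨N, r, hr, hNn, hNC, hNc, hNr, hcl⟩ := Cfsg.Agent.H43.g1a hsolv A hAn hAc hAmax hCnc
  obtain ⟨a, b, ha, hab, hb, hcl2, hN8, hidx, hconj⟩ := Cfsg.Agent.H85.g1b (uprop H hreg) N r hr hNn hNc hNr hcl
  obtain ⟨W, hVW, hWinv⟩ := l1 H hreg a b ha hab hb
  have ha2 : a ^ 2 ≠ 1 := by
    intro h
    have := orderOf_dvd_of_pow_eq_one h
    rw [ha] at this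
    omega
  -- N ≠ ⊤
  have hNtop : N ≠ ⊤ := by
    intro htop
    have hAcent : ∀ x ∈ A, ∀ h : H, h * x = x * h := by
      intro x hx h
      have hh : h ∈ Subgroup.centralizer (A : Set H) := hNC (by rw [htop]; exact Subgroup.mem_top h)
      exact (Subgroup.mem_centralizer_iff.mp hh x hx).symm
    have hZn : (Subgroup.zpowers a).Normal := by
      refine ⟨fun n hn h => ?_⟩
      obtain ⟨k, rfl⟩ := Subgroup.mem_zpowers_iff.mp hn
      have h1 : h * a ^ k * h⁻¹ = (h * a * h⁻¹) ^ k := by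
        rw [conj_zpow]
      rw [h1]
      apply Subgroup.zpow_mem
      rcases hconj h (by rw [htop]; exact Subgroup.mem_top h) with h2 | h2
      · rw [h2]; exact Subgroup.mem_zpowers a
      · rw [h2]; exact Subgroup.inv_mem _ (Subgroup.mem_zpowers a)
    have hBc : IsMulCommutative (A ⊔ Subgroup.zpowers a : Subgroup H) := by
      refine ⟨⟨?_⟩⟩
      rintro ⟨x, hx⟩ ⟨y, hy⟩
      apply Subtype.ext
      show x * y = y * x
      have hx' : x ∈ (A : Set H) * (Subgroup.zpowers a : Set H) := by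
        rw [← Subgroup.mul_normal]; exact hx
      have hy' : y ∈ (A : Set H) * (Subgroup.zpowers a : Set H) := by
        rw [← Subgroup.mul_normal]; exact hy
      obtain ⟨x1, hx1, x2, hx2, rfl⟩ := Set.mem_mul.mp hx'
      obtain ⟨y1, hy1, y2, hy2, rfl⟩ := Set.mem_mul.mp hy'
      obtain ⟨i, rfl⟩ := Subgroup.mem_zpowers_iff.mp hx2
      obtain ⟨j, rfl⟩ := Subgroup.mem_zpowers_iff.mp hy2
      have c3 : a ^ i * a ^ j = a ^ j * a ^ i := by rw [← zpow_add, ← zpow_add, add_comm]
      calc x1 * a ^ i * (y1 * a ^ j) = x1 * (a ^ i * y1) * a ^ j := by group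
        _ = x1 * (y1 * a ^ i) * a ^ j := by rw [hAcent y1 hy1]
        _ = (x1 * y1) * (a ^ i * a ^ j) := by group
        _ = (y1 * x1) * (a ^ j * a ^ i) := by rw [hAcent x1 hx1 y1, c3]
        _ = y1 * (x1 * a ^ j) * a ^ i := by group
        _ = y1 * (a ^ j * x1) * a ^ i := by rw [hAcent x1 hx1]
        _ = y1 * a ^ j * (x1 * a ^ i) := by group
    have hBn : (A ⊔ Subgroup.zpowers a : Subgroup H).Normal := inferInstance
    have hBA := hAmax _ hBn hBc le_sup_left
    have haA : a ∈ A := by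
      rw [← hBA]
      exact (le_sup_right : Subgroup.zpowers a ≤ A ⊔ Subgroup.zpowers a) (Subgroup.mem_zpowers a)
    have h1 : b * a * b⁻¹ = a := by rw [hAcent a haA b]; group
    rw [hab] at h1
    apply ha2
    calc a ^ 2 = a * a := pow_two a
      _ = a * a⁻¹ := by rw [h1]
      _ = 1 := mul_inv_cancel a
  -- V nontrivial
  have hnt : Nontrivial V := by
    by_contra hno
    rw [not_nontrivial_iff_subsingleton] at hno
    apply ha2
    apply Subtype.ext
    ext v
    exact Subsingleton.elim _ _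
  have hH : Nat.card H = Nat.card V - 1 := card_H H hreg hnt
  have hD : Nat.card (Subgroup.centralizer ({a, b} : Set H)) ∣ Nat.card W - 1 := by
    apply free_dvd H hreg _ W
    intro d hd v hv
    rw [Subgroup.mem_centralizer_iff] at hd
    exact hWinv d (hd a (by simp)).symm (hd b (by simp)).symm v hv
  have hmul := Subgroup.card_mul_index (Subgroup.centralizer ({a, b} : Set H))
  have hH9 : 9 ≤ Nat.card H := by
    have h1 : Nat.card N ≤ Nat.card H := Subgroup.card_le_card_group N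
    have h2 : Nat.card N ≠ Nat.card H := fun h => hNtop ((Subgroup.card_eq_iff_eq_top N).mp h)
    omega
  generalize Nat.card W = q at hVW hD
  generalize Nat.card (Subgroup.centralizer ({a, b} : Set H)) = m at hD hmul
  generalize (Subgroup.centralizer ({a, b} : Set H)).index = idx at hidx hmul
  rw [hH, hVW] at hmul
  rw [hH, hVW] at hH9
  have hq4 : 4 ≤ q := by
    by_contra hlt
    have : q ≤ 3 := by omega
    have : q * q ≤ 3 * 3 := Nat.mul_le_mul this this
    omega
  have hq1 : q + 1 ∣ 24 := by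
    obtain ⟨t, ht⟩ := hD
    have h1 : q * q - 1 = (q - 1) * (q + 1) := by
      obtain ⟨k, rfl⟩ : ∃ k, q = k + 1 := ⟨q - 1, by omega⟩
      have : (k + 1) * (k + 1) = (k + 1 - 1) * (k + 1 + 1) + 1 := by
        simp only [Nat.add_sub_cancel]; ring
      omega
    rw [h1, ht] at hmul
    have hm : 0 < m := by
      rcases Nat.eq_zero_or_pos m with h0 | h0
      · rw [h0, zero_mul] at ht; omega
      · exact h0
    have h2 : idx = t * (q + 1) := by
      apply Nat.eq_of_mul_eq_mul_left hm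
      rw [hmul]; ring
    exact (Dvd.intro_left t h2.symm).trans hidx
  have hq23 : q + 1 ≤ 24 := Nat.le_of_dvd (by norm_num) hq1
  rw [hVW]
  have hq23' : q ≤ 23 := by omega
  interval_cases q <;> omega

end Lin

end Cfsg.Agent.H1.Zass
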