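import Mathlib

set_option autoImplicit false

/-! helper1: S3358-ZG: the metacyclic data of a finite group all of whose Sylow subgroups are
cyclic and in which subgroups of prime order are unique (as in a Frobenius complement). -/

namespace Cfsg.Agent.H1.Zg

universe u

/-- A central element of the cyclic commutator subgroup whose order is prime to the index of the
commutator subgroup is trivial (transfer). -/
theorem central_commutator_eq_one {N : Type u} [Group N] [Finite N] [IsCyclic (commutator N)]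
    (z : N) (hz : z ∈ commutator N) (hc : ∀ g : N, g * z = z * g)
    (hcop : (orderOf z).Coprime (commutator N).index) : z = 1 := by
  let _ : CommGroup ↥(commutator N) := IsCyclic.commGroup
  have key : ∀ (k : ℕ) (g₀ : N), g₀⁻¹ * z ^ k * g₀ ∈ commutator N →
      g₀⁻¹ * z ^ k * g₀ = z ^ k := by
    intro k g₀ _
    have h1 : Commute g₀ (z ^ k) := Commute.pow_right (hc g₀) k
    rw [mul_assoc, ← h1.eq, inv_mul_cancel_left]
  have htr := MonoidHom.transfer_eq_pow (MonoidHom.id ↥(commutator N)) z key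
  have h1 : MonoidHom.transfer (MonoidHom.id ↥(commutator N)) z = 1 := by
    have hk := Abelianization.commutator_subset_ker
      (MonoidHom.transfer (MonoidHom.id ↥(commutator N)))
    exact MonoidHom.mem_ker.mp (hk hz)
  rw [h1] at htr
  have hpow : z ^ (commutator N).index = 1 := by
    simpa using (congrArg Subtype.val htr).symm
  have hdvd := orderOf_dvd_of_pow_eq_one hpow
  exact orderOf_eq_one_iff.1 (Nat.Coprime.eq_one_of_dvd hcop hdvd)

theorem dvd_div_rad {t n : ℕ} (hn : 0 < n) (htn : t ∣ n)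
    (h : ∀ p : ℕ, p.Prime → p ∣ n → t ∣ n / p) : t ∣ n / ∏ p ∈ n.primeFactors, p := by
  obtain ⟨s, rfl⟩ := htn
  have ht : 0 < t := Nat.pos_of_mul_pos_right hn
  have hs : 0 < s := Nat.pos_of_mul_pos_left hn
  have hps : ∀ p ∈ (t * s).primeFactors, p ∣ s := by
    intro p hp
    have hpp := Nat.prime_of_mem_primeFactors hp
    have hpd := Nat.dvd_of_mem_primeFactors hp
    obtain ⟨k, hk⟩ := h p hpp hpd
    have h1 : t * s = t * k * p := by rw [← hk]; exact (Nat.div_mul_cancel hpd).symm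
    have h2 : s = k * p := Nat.eq_of_mul_eq_mul_left ht (by rw [h1, mul_assoc])
    exact ⟨k, by rw [h2, mul_comm]⟩
  have hrad : ∏ p ∈ (t * s).primeFactors, p ∣ s := by
    have hsub : (t * s).primeFactors ⊆ s.primeFactors := by
      intro p hp
      exact Nat.mem_primeFactors.2 ⟨Nat.prime_of_mem_primeFactors hp, hps p hp, hs.ne'⟩
    exact (Finset.prod_dvd_prod_of_subset _ _ _ hsub).trans (Nat.prod_primeFactors_dvd s)
  rw [Nat.mul_div_assoc t hrad]
  exact dvd_mul_right t _

/-- S3358-ZG -/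
theorem zgroup_data (N : Type u) [Group N] [Finite N] [IsZGroup N]
    (huniq : ∀ p : ℕ, p.Prime → ∀ a b : N, orderOf a = p → orderOf b = p →
      b ∈ Subgroup.zpowers a) :
    ∃ (x y : N) (n m r : ℕ), 0 < n ∧ 0 < m ∧ x ^ n = 1 ∧ y ^ m = 1 ∧ Nat.card N = n * m ∧
      x⁻¹ * y * x = y ^ r ∧ Nat.Coprime (r - 1) m ∧ Nat.Coprime n m ∧ 1 ≤ r ∧
      r ^ (n / ∏ p ∈ n.primeFactors, p) % m = 1 % m ∧ Subgroup.closure {x, y} = ⊤ := by
  classical
  have hcop := IsZGroup.coprime_commutator_index N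
  obtain ⟨H, hH⟩ := Subgroup.exists_right_complement'_of_coprime hcop
  haveI : IsCyclic (commutator N) := IsZGroup.isCyclic_commutator N
  haveI : IsCyclic H := by
    have h1 : Abelianization N ≃* H := hH.symm.QuotientMulEquiv
    exact isCyclic_of_surjective _ h1.surjective
  obtain ⟨y', hy'⟩ := IsCyclic.exists_generator (α := commutator N)
  obtain ⟨x', hx'⟩ := IsCyclic.exists_generator (α := H)
  obtain ⟨y, hydef⟩ : ∃ y : N, y = (y' : N) := ⟨_, rfl⟩
  obtain ⟨x, hxdef⟩ : ∃ x : N, x = (x' : N) := ⟨_, rfl⟩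
  have hyord : orderOf y = Nat.card (commutator N) := by
    rw [hydef, Subgroup.orderOf_coe]; exact orderOf_eq_card_of_forall_mem_zpowers hy'
  have hxord : orderOf x = Nat.card H := by
    rw [hxdef, Subgroup.orderOf_coe]; exact orderOf_eq_card_of_forall_mem_zpowers hx'
  have hidx : (commutator N).index = Nat.card H := hH.symm.index_eq_card
  have hKy : ∀ g : N, g ∈ commutator N → g ∈ Subgroup.zpowers y := by
    intro g hg
    obtain ⟨k, hk⟩ := Subgroup.mem_zpowers_iff.1 (hy' ⟨g, hg⟩)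
    rw [Subgroup.mem_zpowers_iff]
    refine ⟨k, ?_⟩
    rw [hydef]
    have := congrArg Subtype.val hk
    simpa using this
  have hHx : ∀ g : N, g ∈ H → g ∈ Subgroup.zpowers x := by
    intro g hg
    obtain ⟨k, hk⟩ := Subgroup.mem_zpowers_iff.1 (hx' ⟨g, hg⟩)
    rw [Subgroup.mem_zpowers_iff]
    refine ⟨k, ?_⟩
    rw [hxdef]
    have := congrArg Subtype.val hk
    simpa using this
  have hyK : y ∈ commutator N := by rw [hydef]; exact y'.2
  obtain ⟨n, hn⟩ : ∃ n, n = orderOf x := ⟨_, rfl⟩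
  obtain ⟨m, hm⟩ : ∃ m, m = orderOf y := ⟨_, rfl⟩
  have hn0 : 0 < n := by rw [hn]; exact orderOf_pos x
  have hm0 : 0 < m := by rw [hm]; exact orderOf_pos y
  have hcard : Nat.card N = n * m := by
    have := hH.card_mul_card
    rw [hn, hm, hxord, hyord, mul_comm]; exact this.symm
  have hnm : Nat.Coprime n m := by
    rw [hn, hm, hxord, hyord, ← hidx]; exact hcop.symm
  have hKn : (commutator N).Normal := inferInstance
  have h1 : x⁻¹ * y * x ∈ commutator N := by
    have := hKn.conj_mem y hyK x⁻¹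
    rwa [inv_inv] at this
  obtain ⟨r₀, hr₀⟩ : ∃ r₀ : ℕ, y ^ r₀ = x⁻¹ * y * x := by
    have h2 := hKy _ h1
    rw [← mem_powers_iff_mem_zpowers] at h2
    exact h2
  have hym : y ^ m = 1 := by rw [hm]; exact pow_orderOf_eq_one y
  have hxn : x ^ n = 1 := by rw [hn]; exact pow_orderOf_eq_one x
  obtain ⟨r, hr⟩ : ∃ r, r = r₀ + m := ⟨_, rfl⟩
  have hr1 : 1 ≤ r := by omega
  have hxy : x⁻¹ * y * x = y ^ r := by rw [hr, pow_add, hym, mul_one, hr₀]
  have hgen : Subgroup.closure {x, y} = ⊤ := by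
    rw [eq_top_iff, ← hH.sup_eq_top]
    apply sup_le
    · intro g hg
      exact (Subgroup.zpowers_le.2 (Subgroup.subset_closure (by simp))) (hKy g hg)
    · intro g hg
      exact (Subgroup.zpowers_le.2 (Subgroup.subset_closure (by simp))) (hHx g hg)
  have hconj : ∀ k : ℕ, (x ^ k)⁻¹ * y * x ^ k = y ^ (r ^ k) := by
    intro k
    induction k with
    | zero => simp
    | succ k ih =>
      have hcp := conj_pow (a := x⁻¹) (b := y) (i := r ^ k)
      rw [inv_inv] at hcp
      calc (x ^ (k + 1))⁻¹ * y * x ^ (k + 1) = x⁻¹ * ((x ^ k)⁻¹ * y * x ^ k) * x := by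
            rw [pow_succ]; group
        _ = x⁻¹ * y ^ (r ^ k) * x := by rw [ih]
        _ = (x⁻¹ * y * x) ^ (r ^ k) := hcp.symm
        _ = y ^ (r ^ (k + 1)) := by rw [hxy, ← pow_mul, pow_succ, mul_comm]
  have hcop1 : Nat.Coprime (r - 1) m := by
    obtain ⟨d, hd⟩ : ∃ d, d = Nat.gcd (r - 1) m := ⟨_, rfl⟩
    have hdm : d ∣ m := hd ▸ Nat.gcd_dvd_right _ _
    have hdr : d ∣ r - 1 := hd ▸ Nat.gcd_dvd_left _ _
    have hd0 : 0 < d := Nat.pos_of_dvd_of_pos hdm hm0
    obtain ⟨z, hzdef⟩ : ∃ z : N, z = y ^ (m / d) := ⟨_, rfl⟩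
    have hz1 : z ^ (r - 1) = 1 := by
      obtain ⟨c, hc⟩ := hdr
      rw [hzdef, ← pow_mul, hc, ← mul_assoc, Nat.div_mul_cancel hdm, pow_mul, hym, one_pow]
    have hzr : z ^ r = z := by
      have : r = (r - 1) + 1 := by omega
      rw [this, pow_succ, hz1, one_mul]
    have hzx : x⁻¹ * z * x = z := by
      have hcp := conj_pow (a := x⁻¹) (b := y) (i := m / d)
      rw [inv_inv] at hcp
      rw [hzdef, ← hcp, hxy, ← pow_mul, mul_comm r (m / d), pow_mul, ← hzdef, hzr]
    have hzc : ∀ g : N, g * z = z * g := by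
      have hcen : Subgroup.closure {x, y} ≤ Subgroup.centralizer {z} := by
        rw [Subgroup.closure_le]
        rintro g (rfl | rfl)
        · rw [SetLike.mem_coe, Subgroup.mem_centralizer_iff]
          intro w hw
          rw [Set.mem_singleton_iff.1 hw]
          calc z * g = g * (g⁻¹ * z * g) := by group
            _ = g * z := by rw [hzx]
        · rw [SetLike.mem_coe, Subgroup.mem_centralizer_iff]
          intro w hw
          rw [Set.mem_singleton_iff.1 hw, hzdef]
          exact (Commute.pow_left (Commute.refl _) _).eq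
      intro g
      have hg : g ∈ Subgroup.centralizer {z} := hcen (hgen ▸ Subgroup.mem_top g)
      exact ((Subgroup.mem_centralizer_iff.1 hg) z rfl).symm
    have hzK : z ∈ commutator N := by rw [hzdef]; exact Subgroup.pow_mem _ hyK _
    have hz : z = 1 := by
      apply central_commutator_eq_one z hzK hzc
      have hoz : orderOf z ∣ m := by
        rw [hzdef]
        exact orderOf_dvd_of_pow_eq_one (by rw [← pow_mul, mul_comm, pow_mul, hym, one_pow])
      rw [hidx, ← hxord, ← hn]
      exact Nat.Coprime.coprime_dvd_left hoz hnm.symm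
    rw [hzdef] at hz
    have h2 : m ∣ m / d := by rw [hm]; exact orderOf_dvd_of_pow_eq_one (by rw [← hm]; exact hz)
    have h4 : 0 < m / d := Nat.div_pos (Nat.le_of_dvd hm0 hdm) hd0
    have h5 : m ≤ m / d := Nat.le_of_dvd h4 h2
    have h6 : d = 1 := by
      by_contra hne
      have h7 : 2 ≤ d := by omega
      have h8 : m / d < m := Nat.div_lt_self hm0 h7
      omega
    rw [Nat.Coprime, ← hd, h6]
  have hre : r ^ (n / ∏ p ∈ n.primeFactors, p) % m = 1 % m := by
    have hρ : ∀ k : ℕ, x ^ k * y = y * x ^ k → ((r : ZMod m)) ^ k = 1 := by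
      intro k hk
      have h1 := hconj k
      have h2 : (x ^ k)⁻¹ * y * x ^ k = y := by rw [mul_assoc, ← hk, inv_mul_cancel_left]
      rw [h2] at h1
      have h3 : y ^ (r ^ k) = y ^ 1 := by rw [pow_one]; exact h1.symm
      have h4 : r ^ k ≡ 1 [MOD m] := by rw [hm]; exact pow_eq_pow_iff_modEq.1 h3
      have h5 := (ZMod.natCast_eq_natCast_iff _ _ _).2 h4
      push_cast at h5
      exact h5
    have hρn : ((r : ZMod m)) ^ n = 1 := hρ n (by rw [hxn, one_mul, mul_one])
    have hρp : ∀ p : ℕ, p.Prime → p ∣ n → ((r : ZMod m)) ^ (n / p) = 1 := by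
      intro p hp hpn
      apply hρ
      obtain ⟨u, hu⟩ : ∃ u : N, u = x ^ (n / p) := ⟨_, rfl⟩
      have hnp0 : n / p ≠ 0 := (Nat.div_pos (Nat.le_of_dvd hn0 hpn) hp.pos).ne'
      have huord : orderOf u = p := by
        rw [hu, orderOf_pow_of_dvd hnp0 (by rw [← hn]; exact Nat.div_dvd_of_dvd hpn), ← hn,
          Nat.div_div_self hpn hn0.ne']
      have hconjord : orderOf (y * u * y⁻¹) = p := by
        rw [← huord]
        exact orderOf_injective (MulAut.conj y).toMonoidHom (MulAut.conj y).injective u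
      have h1 : y * u * y⁻¹ ∈ Subgroup.zpowers u := huniq p hp u _ huord hconjord
      have hc1 : y * u * y⁻¹ * u⁻¹ ∈ Subgroup.zpowers u :=
        Subgroup.mul_mem _ h1 (Subgroup.inv_mem _ (Subgroup.mem_zpowers u))
      have hc2 : y * u * y⁻¹ * u⁻¹ ∈ commutator N := by
        have h2 : u * y⁻¹ * u⁻¹ ∈ commutator N := hKn.conj_mem _ (Subgroup.inv_mem _ hyK) u
        have h3 := Subgroup.mul_mem _ hyK h2
        have h4 : y * (u * y⁻¹ * u⁻¹) = y * u * y⁻¹ * u⁻¹ := by group
        rwa [h4] at h3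
      have hc : y * u * y⁻¹ * u⁻¹ = 1 := by
        rw [← orderOf_eq_one_iff]
        have hd1 : orderOf (y * u * y⁻¹ * u⁻¹) ∣ p := by
          have := orderOf_dvd_natCard (⟨_, hc1⟩ : Subgroup.zpowers u)
          rwa [Subgroup.orderOf_mk, Nat.card_zpowers, huord] at this
        have hd2 : orderOf (y * u * y⁻¹ * u⁻¹) ∣ m := by
          have := orderOf_dvd_natCard (⟨_, hc2⟩ : commutator N)
          rwa [Subgroup.orderOf_mk, ← hyord, ← hm] at this
        have hpm : Nat.Coprime p m := Nat.Coprime.coprime_dvd_left hpn hnm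
        exact Nat.eq_one_of_dvd_coprimes hpm hd1 hd2
      rw [← hu]
      calc u * y = (y * u * y⁻¹ * u⁻¹)⁻¹ * (y * u) := by group
        _ = y * u := by rw [hc, inv_one, one_mul]
    have ht := dvd_div_rad hn0 (orderOf_dvd_of_pow_eq_one hρn)
      (fun p hp hpn => orderOf_dvd_of_pow_eq_one (hρp p hp hpn))
    have h6 : ((r : ZMod m)) ^ (n / ∏ p ∈ n.primeFactors, p) = 1 := by
      obtain ⟨c, hc⟩ := ht
      rw [hc, pow_mul, pow_orderOf_eq_one, one_pow]
    have h7 : ((r ^ (n / ∏ p ∈ n.primeFactors, p) : ℕ) : ZMod m) = ((1 : ℕ) : ZMod m) := by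
      push_cast; exact h6
    exact (ZMod.natCast_eq_natCast_iff _ _ _).1 h7
  exact ⟨x, y, n, m, r, hn0, hm0, hxn, hym, hcard, hxy, hcop1, hnm, hr1, hre, hgen⟩

end Cfsg.Agent.H1.Zg
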